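import Mathlib
import Cfsg.Agent.H64.JzDefs
import Cfsg.Agent.Helper55.UqBase
import Cfsg.Agent.S2950

/-!
# JY-PAIR (team project JY, S2953): two configurations over the same `T` with different maximal
2-locals give two distinct components with `O₂(⟨P₁, P₂⟩) = 1`

By S2950 the maximal 2-local over `K ⊔ J(T)` is unique; a nontrivial `O₂(⟨K₁,T⟩ ⊔ ⟨K₂,T⟩)` has a
2-local normalizer, which lies in a maximal 2-local containing both `K₁ ⊔ J(T)` and `K₂ ⊔ J(T)`.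
-/

set_option autoImplicit false
open Cfsg

universe u

namespace Cfsg.Agent.H20.Jy

open Cfsg.Agent.Helper55 Cfsg.Agent.Helper55.ThJ Cfsg.Agent.Helper55.J48

/-- Uniqueness part of S2950 in the `Base` form: every maximal 2-local over `K ⊔ J(T)` is `L`. -/
theorem base_unique {G : Type u} [Group G] [Finite G] (S : Sylow 2 G) (M T K L : Subgroup G)
    (hB : Cfsg.Agent.H64.Jz.Base S M T K L) (L' : Subgroup G) (hL' : IsMaximalTwoLocal L')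
    (hKL' : K ⊔ thompsonSubgroupOf 2 T ≤ L') : L' = L := by
  obtain ⟨⟨hL, hN, hZ⟩, hO, hM, hMJ, hT, hTS, hK, hLmax, hKL⟩ := hB
  obtain ⟨L₀, -, -, huniq, -, -⟩ := Cfsg.Agent.S2950.result hL hN hZ hO S M hM hMJ T hT K hK
  rw [huniq L' hL' hKL', huniq L hLmax hKL]

/-- JY-PAIR (core). -/
theorem pair {G : Type u} [Group G] [Finite G] (S S₂ : Sylow 2 G) (M M₂ T K₁ L₁ K₂ L₂ : Subgroup G)
    (hB₁ : Cfsg.Agent.H64.Jz.Base S M T K₁ L₁) (hB₂ : Cfsg.Agent.H64.Jz.Base S₂ M₂ T K₂ L₂)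
    (hne : L₁ ≠ L₂) :
    K₁ ≠ K₂ ∧ pCoreOf 2 ((K₁ ⊔ T) ⊔ (K₂ ⊔ T)) = ⊥ := by
  have hL₁max : IsMaximalTwoLocal L₁ := hB₁.2.2.2.2.2.2.2.1
  have hK₁L₁ : K₁ ⊔ thompsonSubgroupOf 2 T ≤ L₁ := hB₁.2.2.2.2.2.2.2.2
  have hL₂max : IsMaximalTwoLocal L₂ := hB₂.2.2.2.2.2.2.2.1
  have hK₂L₂ : K₂ ⊔ thompsonSubgroupOf 2 T ≤ L₂ := hB₂.2.2.2.2.2.2.2.2
  refine ⟨?_, ?_⟩
  · intro hK
    apply hne
    have h2 : K₁ ⊔ thompsonSubgroupOf 2 T ≤ L₂ := by rw [hK]; exact hK₂L₂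
    exact (base_unique S M T K₁ L₁ hB₁ L₂ hL₂max h2).symm
  · by_contra hR
    have hloc : IsTwoLocal (Subgroup.normalizer (pCoreOf 2 ((K₁ ⊔ T) ⊔ (K₂ ⊔ T)) : Set G)) :=
      ⟨pCoreOf 2 ((K₁ ⊔ T) ⊔ (K₂ ⊔ T)), Cfsg.Agent.Helper55.Uq.pCoreOf_isPGroup _, hR, rfl⟩
    obtain ⟨Lm, hLm, hle⟩ := Cfsg.Agent.Helper55.Uq.exists_maximalTwoLocal hloc
    have hP : (K₁ ⊔ T) ⊔ (K₂ ⊔ T) ≤ Lm := (le_normalizer_pCoreOf _).trans hle
    have h1 : K₁ ⊔ thompsonSubgroupOf 2 T ≤ Lm :=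
      ((sup_le_sup_left (J_le T) K₁).trans le_sup_left).trans hP
    have h2 : K₂ ⊔ thompsonSubgroupOf 2 T ≤ Lm :=
      ((sup_le_sup_left (J_le T) K₂).trans le_sup_right).trans hP
    have e1 := base_unique S M T K₁ L₁ hB₁ Lm hLm h1
    have e2 := base_unique S₂ M₂ T K₂ L₂ hB₂ Lm hLm h2
    exact hne (e1.symm.trans e2)

end Cfsg.Agent.H20.Jy

#print axioms Cfsg.Agent.H20.Jy.pair
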