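import Mathlib

set_option autoImplicit false

/-!
# Abstract lemmas for the pieces CASEI / CASER of S1421 (B&G Lemma 16.1), helper20
-/

namespace Cfsg.Agent.H20.BG161

open Subgroup

universe u
variable {G : Type u} [Group G]

/-- A `p`-power-order element normalizing a Sylow `p`-subgroup lies in it. -/
theorem sylow_mem_of_pow {p : ℕ} [Fact p.Prime] (P : Sylow p G) {g : G}
    (hg : g ∈ normalizer ((P : Subgroup G) : Set G)) (hp : ∃ k : ℕ, g ^ (p ^ k) = 1) :
    g ∈ (P : Subgroup G) := by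
  obtain ⟨k, hk⟩ := hp
  have hZ : IsPGroup p (zpowers g) := by
    rintro ⟨x, hx⟩
    obtain ⟨z, rfl⟩ := mem_zpowers_iff.mp hx
    refine ⟨k, ?_⟩
    apply Subtype.ext
    show (g ^ z) ^ (p ^ k) = 1
    rw [← zpow_natCast, ← zpow_mul, mul_comm, zpow_mul, zpow_natCast, hk, one_zpow]
  have hle : zpowers g ≤ normalizer ((P : Subgroup G) : Set G) := by
    rw [zpowers_le]; exact hg
  have hsup : IsPGroup p ((P : Subgroup G) ⊔ zpowers g : Subgroup G) :=
    IsPGroup.to_sup_of_normal_left' P.isPGroup' hZ hle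
  have h1 := P.is_maximal' hsup le_sup_left
  have h2 : zpowers g ≤ (P : Subgroup G) := by rw [← h1]; exact le_sup_right
  exact h2 (mem_zpowers g)

/-- The arithmetic behind the choice of the exponents `t`, `u`. -/
theorem exists_tu {p : ℕ} [Fact p.Prime] {m n l : ℕ} (hm : 0 < m) (hn : 0 < n)
    (hl : l ^ n ≡ 1 [MOD p]) :
    ∃ t u : ℕ, t ≡ l [MOD p] ∧ t * u ≡ 1 [MOD p ^ m] ∧ u ^ n ≡ 1 [MOD p ^ m] := by
  obtain ⟨m', rfl⟩ := Nat.exists_eq_succ_of_ne_zero hm.ne'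
  have key : (l ^ n) ^ p ^ m' ≡ 1 [MOD p ^ (m' + 1)] := by
    have hd : (p : ℤ) ∣ ((l : ℤ) ^ n) - 1 := by
      have := Nat.modEq_iff_dvd.mp hl.symm
      simpa using this
    have h2 := dvd_sub_pow_of_dvd_sub hd m'
    rw [one_pow] at h2
    apply Nat.ModEq.symm
    rw [Nat.modEq_iff_dvd]
    push_cast
    exact h2
  have h1 : (l ^ p ^ m') * (l ^ p ^ m') ^ (n - 1) = (l ^ n) ^ p ^ m' := by
    rw [← pow_succ', Nat.sub_add_cancel hn, ← pow_mul, ← pow_mul, mul_comm]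
  refine ⟨l ^ p ^ m', (l ^ p ^ m') ^ (n - 1), ?_, ?_, ?_⟩
  · rw [← ZMod.natCast_eq_natCast_iff]
    push_cast
    exact ZMod.pow_card_pow _
  · rw [h1]; exact key
  · have h3 : ((l ^ p ^ m') ^ (n - 1)) ^ n = ((l ^ n) ^ p ^ m') ^ (n - 1) := by
      rw [← pow_mul, ← pow_mul, ← pow_mul, ← pow_mul]
      congr 1
      ring
    rw [h3]
    simpa using key.pow (n - 1)

theorem pow_congr_of_modEq {s : G} {N a b : ℕ} (hs : s ^ N = 1) (h : a ≡ b [MOD N]) :
    s ^ a = s ^ b :=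
  pow_eq_pow_iff_modEq.mpr (h.of_dvd (orderOf_dvd_of_pow_eq_one hs))

/-- If `e s^u e⁻¹ = s` and `s^(t u) = s` on `T`, then `e` normalizes every subgroup of `T`. -/
theorem mem_normalizer_of_powmap {T K : Subgroup G} (hKT : K ≤ T) {e : G} {t u : ℕ}
    (h1 : ∀ s ∈ T, e * s ^ u * e⁻¹ = s) (h2 : ∀ s ∈ T, s ^ (t * u) = s) :
    e ∈ normalizer (K : Set G) := by
  rw [mem_normalizer_iff]
  intro h
  constructor
  · intro hh
    have h3 := h1 (h ^ t) (T.pow_mem (hKT hh) t)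
    rw [← pow_mul, h2 h (hKT hh)] at h3
    show e * h * e⁻¹ ∈ K
    rw [h3]; exact K.pow_mem hh t
  · intro hh
    have hh' : e * h * e⁻¹ ∈ K := hh
    have h3 := h1 _ (hKT hh')
    have h4 : (e * h * e⁻¹) ^ u = h := by
      have h5 : e * (e * h * e⁻¹) ^ u * e⁻¹ = e * h * e⁻¹ := h3
      have h6 := mul_right_cancel h5
      exact mul_left_cancel h6
    show h ∈ K
    rw [← h4]; exact K.pow_mem hh' u

/-- A proper nontrivial subgroup of a group of order `p²` has order `p`. -/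
theorem card_eq_prime_of_ne {p : ℕ} [Fact p.Prime] [Finite G] {A H : Subgroup G} (hHA : H ≤ A)
    (hA : Nat.card A = p ^ 2) (h1 : H ≠ ⊥) (h2 : H ≠ A) : Nat.card H = p := by
  have hp := (Fact.out : p.Prime)
  have hdvd : Nat.card H ∣ p ^ 2 := hA ▸ Subgroup.card_dvd_of_le hHA
  obtain ⟨i, hi, hcard⟩ := (Nat.dvd_prime_pow hp).mp hdvd
  interval_cases i
  · exact absurd (Subgroup.eq_bot_of_card_eq H (by simpa using hcard)) h1
  · simpa using hcard
  · exact absurd (Subgroup.eq_of_le_of_card_ge hHA (by rw [hA, hcard])) h2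

theorem exists_pow_prime_of_ne_one {p : ℕ} {c : G} (hc : ∃ k : ℕ, c ^ (p ^ k) = 1)
    (hc1 : c ≠ 1) : ∃ j : ℕ, c ^ (p ^ j) ≠ 1 ∧ (c ^ (p ^ j)) ^ p = 1 := by
  classical
  have hj0 : Nat.find hc ≠ 0 := by
    intro h0
    have := Nat.find_spec hc
    rw [h0] at this
    simp at this
    exact hc1 this
  obtain ⟨j, hj⟩ := Nat.exists_eq_succ_of_ne_zero hj0
  refine ⟨j, ?_, ?_⟩
  · exact Nat.find_min hc (by rw [hj]; exact Nat.lt_succ_self j)
  · have := Nat.find_spec hc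
    rw [hj] at this
    rw [← pow_mul, ← pow_succ]; exact this

theorem mem_zpowers_of_mem_zpowers_prime {p : ℕ} [Fact p.Prime] {a z : G} (ha : orderOf a = p)
    (hz : z ∈ zpowers a) (hz1 : z ≠ 1) : a ∈ zpowers z := by
  have hcard : Nat.card (zpowers a) = p := by rw [Nat.card_zpowers, ha]
  have htop := zpowers_eq_top_of_prime_card hcard (g := (⟨z, hz⟩ : zpowers a))
    (by intro h; exact hz1 (congrArg Subtype.val h))
  have hmem : (⟨a, mem_zpowers a⟩ : zpowers a) ∈ zpowers (⟨z, hz⟩ : zpowers a) := by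
    rw [htop]; exact mem_top _
  obtain ⟨k, hk⟩ := mem_zpowers_iff.mp hmem
  have := congrArg Subtype.val hk
  simp at this
  exact mem_zpowers_iff.mpr ⟨k, this⟩

/-- Regularity of every non-identity element of `R` from regularity of its socle `R ⊓ A`. -/
theorem inf_centralizer_eq_bot_of_socle {p : ℕ} [Fact p.Prime] {S A R N : Subgroup G}
    (hS : IsPGroup p S) (hRS : R ≤ S) (hΩ : ∀ s ∈ S, s ^ p = 1 → s ∈ A)
    (hcard : Nat.card (R ⊓ A : Subgroup G) = p)
    (hreg : N ⊓ centralizer ((R ⊓ A : Subgroup G) : Set G) = ⊥) :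
    ∀ c ∈ R, c ≠ 1 → N ⊓ centralizer ({c} : Set G) = ⊥ := by
  intro c hcR hc1
  have hck : ∃ k : ℕ, c ^ (p ^ k) = 1 := by
    obtain ⟨k, hk⟩ := hS ⟨c, hRS hcR⟩
    exact ⟨k, by simpa using congrArg Subtype.val hk⟩
  obtain ⟨j, hj1, hjp⟩ := exists_pow_prime_of_ne_one hck hc1
  set d := c ^ (p ^ j) with hd
  have hdR : d ∈ R := R.pow_mem hcR _
  have hdRA : d ∈ R ⊓ A := ⟨hdR, hΩ d (hRS hdR) hjp⟩
  have htop := zpowers_eq_top_of_prime_card hcard (g := (⟨d, hdRA⟩ : (R ⊓ A : Subgroup G)))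
    (by intro h; exact hj1 (congrArg Subtype.val h))
  rw [eq_bot_iff]
  intro g hg
  obtain ⟨hgN, hgc⟩ := hg
  have hgc' : c * g = g * c := by
    have := mem_centralizer_iff.mp hgc c (Set.mem_singleton c)
    exact this
  have hcomm : Commute g c := hgc'.symm
  have hgd : Commute g d := hcomm.pow_right _
  have hgcent : g ∈ centralizer ((R ⊓ A : Subgroup G) : Set G) := by
    rw [mem_centralizer_iff]
    intro a ha
    have hmem : (⟨a, ha⟩ : (R ⊓ A : Subgroup G)) ∈ zpowers (⟨d, hdRA⟩ : (R ⊓ A : Subgroup G)) := by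
      rw [htop]; exact mem_top _
    obtain ⟨k, hk⟩ := mem_zpowers_iff.mp hmem
    have hk' : d ^ k = a := by
      have := congrArg Subtype.val hk
      simpa using this
    rw [← hk']
    exact ((hgd.zpow_right k).eq).symm
  have : g ∈ N ⊓ centralizer ((R ⊓ A : Subgroup G) : Set G) := ⟨hgN, hgcent⟩
  rw [hreg] at this
  exact this

theorem conj_pow_of_powmap {A : Subgroup G} {e : G} {l : ℕ}
    (h : ∀ a ∈ A, e * a * e⁻¹ = a ^ l) (k : ℕ) :
    ∀ a ∈ A, e ^ k * a * (e ^ k)⁻¹ = a ^ (l ^ k) := by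
  induction k with
  | zero => intro a _; simp
  | succ k ih =>
    intro a ha
    have h1 := ih a ha
    calc e ^ (k + 1) * a * (e ^ (k + 1))⁻¹ = e * (e ^ k * a * (e ^ k)⁻¹) * e⁻¹ := by
          rw [pow_succ']; group
      _ = e * (a ^ (l ^ k)) * e⁻¹ := by rw [h1]
      _ = (a ^ (l ^ k)) ^ l := h _ (A.pow_mem ha _)
      _ = a ^ (l ^ (k + 1)) := by rw [← pow_mul, pow_succ]

/-- An element normalizing every subgroup of order `p` of an elementary abelian group of order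
`p²` acts as a power map. -/
theorem exists_uniform_pow {p : ℕ} [Fact p.Prime] [Finite G] {A : Subgroup G}
    (hApow : ∀ a ∈ A, a ^ p = 1) (hAcomm : ∀ a ∈ A, ∀ b ∈ A, a * b = b * a)
    (hcard : Nat.card A = p ^ 2) {e : G}
    (he : ∀ X : Subgroup G, X ≤ A → Nat.card X = p → e ∈ normalizer (X : Set G)) :
    ∃ l : ℕ, ∀ a ∈ A, e * a * e⁻¹ = a ^ l := by
  have hp := (Fact.out : p.Prime)
  have hord : ∀ a ∈ A, a ≠ 1 → orderOf a = p := fun a ha ha1 => orderOf_eq_prime (hApow a ha) ha1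
  have hloc : ∀ a ∈ A, a ≠ 1 → ∃ l : ℕ, e * a * e⁻¹ = a ^ l := by
    intro a ha ha1
    have hZ : zpowers a ≤ A := by rw [zpowers_le]; exact ha
    have hcardZ : Nat.card (zpowers a) = p := by rw [Nat.card_zpowers, hord a ha ha1]
    have hnorm := he (zpowers a) hZ hcardZ
    have hmem : e * a * e⁻¹ ∈ zpowers a := (mem_normalizer_iff.mp hnorm a).mp (mem_zpowers a)
    have hmem' := mem_powers_iff_mem_zpowers.mpr hmem
    obtain ⟨l, hl⟩ := hmem'
    exact ⟨l, hl.symm⟩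
  have hAne : A ≠ ⊥ := by
    intro h
    rw [h] at hcard
    simp at hcard
    have := hp.one_lt
    nlinarith [hcard]
  obtain ⟨⟨x, hxA⟩, hx1⟩ := (Subgroup.ne_bot_iff_exists_ne_one).mp hAne
  have hx1' : x ≠ 1 := fun h => hx1 (Subtype.ext h)
  obtain ⟨l₁, hl₁⟩ := hloc x hxA hx1'
  refine ⟨l₁, fun a ha => ?_⟩
  by_cases haZ : a ∈ zpowers x
  · obtain ⟨z, rfl⟩ := mem_zpowers_iff.mp haZ
    rw [← conj_zpow, hl₁, ← zpow_natCast, ← zpow_natCast, ← zpow_mul, ← zpow_mul, mul_comm]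
  · have ha1 : a ≠ 1 := fun h => haZ (h ▸ one_mem _)
    obtain ⟨la, hla⟩ := hloc a ha ha1
    have hb : x * a ∈ A := A.mul_mem hxA ha
    have hb1 : x * a ≠ 1 := by
      intro h
      apply haZ
      have : a = x⁻¹ := by rw [← mul_right_inj x, h, mul_inv_cancel]
      rw [this]; exact (zpowers x).inv_mem (mem_zpowers x)
    obtain ⟨lb, hlb⟩ := hloc (x * a) hb hb1
    have hxa : Commute x a := hAcomm x hxA a ha
    have e1 : e * (x * a) * e⁻¹ = x ^ l₁ * a ^ la := by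
      rw [← hl₁, ← hla]; group
    have e2 : x ^ l₁ * a ^ la = x ^ lb * a ^ lb := by
      rw [← e1, hlb, hxa.mul_pow]
    -- z := (x^lb)⁻¹ * x^l₁ = a^lb * (a^la)⁻¹
    have e3 : (x ^ lb)⁻¹ * x ^ l₁ = a ^ lb * (a ^ la)⁻¹ := by
      rw [inv_mul_eq_iff_eq_mul, ← mul_assoc, eq_mul_inv_iff_mul_eq]
      exact e2
    have hz1 : (x ^ lb)⁻¹ * x ^ l₁ = 1 := by
      by_contra hne
      apply haZ
      have hzx : (x ^ lb)⁻¹ * x ^ l₁ ∈ zpowers x :=
        (zpowers x).mul_mem ((zpowers x).inv_mem ((zpowers x).pow_mem (mem_zpowers x) _))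
          ((zpowers x).pow_mem (mem_zpowers x) _)
      have hza : (x ^ lb)⁻¹ * x ^ l₁ ∈ zpowers a := by
        rw [e3]
        exact (zpowers a).mul_mem ((zpowers a).pow_mem (mem_zpowers a) _)
          ((zpowers a).inv_mem ((zpowers a).pow_mem (mem_zpowers a) _))
      have := mem_zpowers_of_mem_zpowers_prime (hord a ha ha1) hza hne
      exact (zpowers_le.mpr hzx) this
    have e4 : x ^ l₁ = x ^ lb := by
      have := inv_mul_eq_one.mp hz1
      exact this.symm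
    have e5 : a ^ lb = a ^ la := by
      have : a ^ lb * (a ^ la)⁻¹ = 1 := by rw [← e3, hz1]
      exact mul_inv_eq_one.mp this
    have hmod : l₁ ≡ lb [MOD p] := by
      rw [← hord x hxA hx1']; exact pow_eq_pow_iff_modEq.mp e4
    rw [hla, ← e5]
    exact (pow_congr_of_modEq (hApow a ha) hmod).symm

end Cfsg.Agent.H20.BG161
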