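import Mathlib
import Cfsg.Agent.H38.BG161Defs
import Cfsg.Agent.H20.BG161Lib

set_option autoImplicit false

/-!
# S1421-CASER (piece of B&G Lemma 16.1, for helper38), helper20
-/

namespace Cfsg.Agent.H20.BG161

open Cfsg Subgroup Cfsg.Agent.H58.BG10 Cfsg.Agent.H58.BG12 Cfsg.Agent.H38.BG161

universe u
variable {G : Type u} [Group G]

/-- In an "abelian" subgroup `S`, every element of `C ⊔ D` (`C, D ≤ S`) is a product `c * d`. -/
theorem exists_mul_of_mem_sup {S C D : Subgroup G} (hcomm : ∀ a ∈ S, ∀ b ∈ S, a * b = b * a)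
    (hCS : C ≤ S) (hDS : D ≤ S) {s : G} (hs : s ∈ C ⊔ D) : ∃ c ∈ C, ∃ d ∈ D, s = c * d := by
  rw [Subgroup.sup_eq_closure] at hs
  induction hs using Subgroup.closure_induction with
  | mem x hx =>
    rcases hx with hx | hx
    · exact ⟨x, hx, 1, D.one_mem, (mul_one x).symm⟩
    · exact ⟨1, C.one_mem, x, hx, (one_mul x).symm⟩
  | one => exact ⟨1, C.one_mem, 1, D.one_mem, (mul_one 1).symm⟩
  | mul x y _ _ hx hy =>
    obtain ⟨c, hc, d, hd, rfl⟩ := hx
    obtain ⟨c', hc', d', hd', rfl⟩ := hy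
    refine ⟨c * c', C.mul_mem hc hc', d * d', D.mul_mem hd hd', ?_⟩
    have h1 : d * c' = c' * d := hcomm d (hDS hd) c' (hCS hc')
    calc c * d * (c' * d') = c * (d * c') * d' := by group
      _ = c * (c' * d) * d' := by rw [h1]
      _ = c * c' * (d * d') := by group
  | inv x _ hx =>
    obtain ⟨c, hc, d, hd, rfl⟩ := hx
    refine ⟨c⁻¹, C.inv_mem hc, d⁻¹, D.inv_mem hd, ?_⟩
    have h1 : c * d = d * c := hcomm c (hCS hc) d (hDS hd)
    rw [h1, mul_inv_rev]

theorem caseR [Finite G] (hD : StDec G) (hW : StWAb G) (hB : StBasic G) : StCaseR G := by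
  intro M E S A p hpF hAbS hY hwX
  obtain ⟨hΩ, hCA, hEA, hNA, hreg5, -⟩ := hB M E S A p hAbS
  obtain ⟨Y, hYA, hYcard, hNY⟩ := hY
  obtain ⟨w, hwN, X, hXA, hXcard, hwX⟩ := hwX
  have hp := (Fact.out : p.Prime)
  obtain ⟨P, hPS⟩ := hAbS.syl
  have hSp : IsPGroup p S := hPS ▸ P.isPGroup'
  have hAel := hAbS.elem
  obtain ⟨m, hm⟩ := hSp.exists_card_eq
  -- a generator of Y
  have hYne : Y ≠ ⊥ := by
    intro h
    rw [h] at hYcard
    simp at hYcard
    exact hp.one_lt.ne hYcard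
  obtain ⟨⟨y0, hy0Y⟩, hy01⟩ := (Subgroup.ne_bot_iff_exists_ne_one).mp hYne
  have hy01' : y0 ≠ 1 := fun h => hy01 (Subtype.ext h)
  have hy0A : y0 ∈ A := hYA hy0Y
  have hy0S : y0 ∈ S := hAbS.AS hy0A
  have hy0ord : orderOf y0 = p := orderOf_eq_prime (hAel.2 y0 hy0A) hy01'
  have htopY := zpowers_eq_top_of_prime_card hYcard (g := (⟨y0, hy0Y⟩ : Y)) hy01
  have hYz : ∀ y ∈ Y, ∃ k : ℤ, y0 ^ k = y := by
    intro y hy
    have hmem : (⟨y, hy⟩ : Y) ∈ zpowers (⟨y0, hy0Y⟩ : Y) := by rw [htopY]; exact mem_top _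
    obtain ⟨k, hk⟩ := mem_zpowers_iff.mp hmem
    exact ⟨k, by simpa using congrArg Subtype.val hk⟩
  have hSpow : ∀ s ∈ S, s ^ (p ^ m) = 1 := by
    intro s hs
    have h1 : (⟨s, hs⟩ : S) ^ Nat.card S = 1 := pow_card_eq_one'
    rw [hm] at h1
    simpa using congrArg Subtype.val h1
  have hm0 : 0 < m := by
    rcases Nat.eq_zero_or_pos m with h | h
    · exfalso
      have h1 := hSpow y0 hy0S
      rw [h, pow_zero, pow_one] at h1
      exact hy01' h1
    · exact h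
  -- the action of w on Y
  have hwy : w * y0 * w⁻¹ ∈ Y := (mem_normalizer_iff.mp (hNY hwN) y0).mp hy0Y
  obtain ⟨l, hl0⟩ : ∃ l : ℕ, w * y0 * w⁻¹ = y0 ^ l := by
    obtain ⟨k, hk⟩ := hYz _ hwy
    have hmem : w * y0 * w⁻¹ ∈ zpowers y0 := mem_zpowers_iff.mpr ⟨k, hk⟩
    obtain ⟨l, hl⟩ := mem_powers_iff_mem_zpowers.mpr hmem
    exact ⟨l, hl.symm⟩
  have hlY : ∀ y ∈ Y, w * y * w⁻¹ = y ^ l := by
    intro y hy
    obtain ⟨k, rfl⟩ := hYz y hy
    rw [← conj_zpow, hl0, ← zpow_natCast, ← zpow_natCast, ← zpow_mul, ← zpow_mul, mul_comm]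
  set n := ordCompl[p] (orderOf w) with hn
  have hn0 : 0 < n := Nat.ordCompl_pos p (orderOf_pos w).ne'
  have hncop : n.Coprime p := (Nat.coprime_ordCompl hp (orderOf_pos w).ne').symm
  have hwnS : w ^ n ∈ S := by
    have h1 : w ^ n ∈ (P : Subgroup G) := by
      apply sylow_mem_of_pow P
      · rw [hPS]; exact (normalizer (S : Set G)).pow_mem hwN n
      · refine ⟨(orderOf w).factorization p, ?_⟩
        rw [← pow_mul, mul_comm, Nat.ordProj_mul_ordCompl_eq_self]; exact pow_orderOf_eq_one w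
    rwa [hPS] at h1
  have hwcent : w ^ n ∈ centralizer (S : Set G) := by
    rw [mem_centralizer_iff]; intro s hs; exact hAbS.comm s hs _ hwnS
  have hln : l ^ n ≡ 1 [MOD p] := by
    have h1 : w ^ n * y0 * (w ^ n)⁻¹ = y0 ^ (l ^ n) := conj_pow_of_powmap hlY n y0 hy0Y
    have h2 : w ^ n * y0 * (w ^ n)⁻¹ = y0 := by
      rw [hAbS.comm _ hwnS y0 hy0S]; group
    rw [← hy0ord]; apply pow_eq_pow_iff_modEq.mp; rw [pow_one, ← h1, h2]
  obtain ⟨t, u, ht, htu, hun⟩ := exists_tu (p := p) hm0 hn0 hln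
  obtain ⟨C, D, hCS, hDS, hCD, hCDsup, hCmem, hCDnorm⟩ :=
    hD p S hSp hAbS.comm w n u hwN hn0 hncop hwcent
      (fun s hs => by simpa using pow_congr_of_modEq (hSpow s hs) hun)
  have hWC : normalizer (S : Set G) ≤ normalizer (C : Set G) :=
    fun g hg => (hCDnorm g hg (hW M E S A p hAbS g hg w hwN)).1
  have hWD : normalizer (S : Set G) ≤ normalizer (D : Set G) :=
    fun g hg => (hCDnorm g hg (hW M E S A p hAbS g hg w hwN)).2
  have hYC : Y ≤ C := by
    intro y hy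
    rw [hCmem y (hAbS.AS (hYA hy))]
    have h1 : w * y ^ u * w⁻¹ = (y ^ l) ^ u := by rw [← hlY y hy, conj_pow]
    rw [h1, ← pow_mul]
    have hmod : l * u ≡ 1 [MOD p] := by
      have h2 : t * u ≡ 1 [MOD p] := htu.of_dvd (dvd_pow_self p hm0.ne')
      exact (ht.symm.mul_right u).trans h2
    simpa using pow_congr_of_modEq (hAel.2 y (hYA hy)) hmod
  have hAC : ¬ A ≤ C := by
    intro hle
    apply hwX
    exact mem_normalizer_of_powmap hXA (fun a ha => (hCmem a (hAbS.AS ha)).mp (hle ha))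
      (fun a ha => by simpa using pow_congr_of_modEq (hSpow a (hAbS.AS ha)) htu)
  -- the socles
  have hCA1 : (C ⊓ A : Subgroup G) ≠ ⊥ := by
    intro h
    have : y0 ∈ (C ⊓ A : Subgroup G) := ⟨hYC hy0Y, hy0A⟩
    rw [h] at this
    exact hy01' this
  have hCA2 : (C ⊓ A : Subgroup G) ≠ A := by
    intro h
    exact hAC (by rw [← h]; exact inf_le_left)
  have hDA1 : (D ⊓ A : Subgroup G) ≠ ⊥ := by
    intro h
    apply hAC
    intro a ha
    have haS : a ∈ C ⊔ D := by rw [hCDsup]; exact hAbS.AS ha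
    obtain ⟨c, hc, d, hd, rfl⟩ := exists_mul_of_mem_sup hAbS.comm hCS hDS haS
    have hcd : Commute c d := hAbS.comm c (hCS hc) d (hDS hd)
    have h1 : c ^ p * d ^ p = 1 := by rw [← hcd.mul_pow]; exact hAel.2 _ ha
    have h2 : c ^ p ∈ C ⊓ D := by
      refine ⟨C.pow_mem hc p, ?_⟩
      have : c ^ p = (d ^ p)⁻¹ := eq_inv_of_mul_eq_one_left h1
      rw [this]; exact D.inv_mem (D.pow_mem hd p)
    rw [hCD] at h2
    have h3 : c ^ p = 1 := h2
    have h4 : d ^ p = 1 := by rw [h3, one_mul] at h1; exact h1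
    have hdA : d ∈ (D ⊓ A : Subgroup G) := ⟨hd, hΩ d (hDS hd) h4⟩
    rw [h] at hdA
    have hd1 : d = 1 := hdA
    rw [hd1, mul_one]; exact hc
  have hDA2 : (D ⊓ A : Subgroup G) ≠ A := by
    intro h
    have : y0 ∈ (D ⊓ A : Subgroup G) := by rw [h]; exact hy0A
    have h2 : y0 ∈ C ⊓ D := ⟨hYC hy0Y, this.1⟩
    rw [hCD] at h2
    exact hy01' h2
  have hcardC := card_eq_prime_of_ne (inf_le_right : (C ⊓ A : Subgroup G) ≤ A) hAbS.card hCA1 hCA2
  have hcardD := card_eq_prime_of_ne (inf_le_right : (D ⊓ A : Subgroup G) ≤ A) hAbS.card hDA1 hDA2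
  -- the general step
  have key : ∀ R R' : Subgroup G, R ≤ S → R' ≤ S → (∀ s ∈ S, ∃ r ∈ R, ∃ r' ∈ R', s = r * r') →
      normalizer (S : Set G) ≤ normalizer (R : Set G) → Nat.card (R ⊓ A : Subgroup G) = p →
      Monoid.exponent R' ∣ Monoid.exponent R →
      ∃ C : Subgroup G, C ≤ S ∧ E ≤ normalizer (C : Set G) ∧
        Monoid.exponent C = Monoid.exponent S ∧
        ∀ c ∈ C, c ≠ 1 → sigmaCore M ⊓ centralizer ({c} : Set G) = ⊥ := by
    intro R R' hRS hR'S hprod hWR hcardR hdvd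
    refine ⟨R, hRS, hAbS.norm.trans hWR, ?_, ?_⟩
    · apply dvd_antisymm
      · apply Monoid.exponent_dvd_of_forall_pow_eq_one
        rintro ⟨g, hg⟩
        have h1 : (⟨g, hRS hg⟩ : S) ^ Monoid.exponent S = 1 := Monoid.pow_exponent_eq_one _
        exact Subtype.ext (by simpa using congrArg Subtype.val h1)
      · apply Monoid.exponent_dvd_of_forall_pow_eq_one
        rintro ⟨s, hs⟩
        obtain ⟨r, hr, r', hr', rfl⟩ := hprod s hs
        have hcomm : Commute r r' := hAbS.comm r (hRS hr) r' (hR'S hr')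
        have h1 : r ^ Monoid.exponent R = 1 := by
          have h := Monoid.pow_exponent_eq_one (⟨r, hr⟩ : R)
          simpa using congrArg Subtype.val h
        have h2 : r' ^ Monoid.exponent R = 1 := by
          have h := Monoid.pow_exponent_eq_one (⟨r', hr'⟩ : R')
          have h' : r' ^ Monoid.exponent R' = 1 := by simpa using congrArg Subtype.val h
          obtain ⟨k, hk⟩ := hdvd
          rw [hk, pow_mul, h', one_pow]
        apply Subtype.ext
        show (r * r') ^ Monoid.exponent R = 1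
        rw [hcomm.mul_pow, h1, h2, one_mul]
    · have hNRA : normalizer (S : Set G) ≤ normalizer ((R ⊓ A : Subgroup G) : Set G) := by
        intro g hg
        have hgR := hWR hg
        have hgA := hNA hg
        rw [mem_normalizer_iff]
        intro h
        exact ⟨fun hh => ⟨(mem_normalizer_iff.mp hgR h).mp hh.1, (mem_normalizer_iff.mp hgA h).mp hh.2⟩,
          fun hh => ⟨(mem_normalizer_iff.mp hgR h).mpr hh.1, (mem_normalizer_iff.mp hgA h).mpr hh.2⟩⟩
      exact inf_centralizer_eq_bot_of_socle hSp hRS hΩ hcardR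
        (hreg5 (R ⊓ A) inf_le_right hcardR hNRA)
  -- exponents of C and D are powers of p
  have hexp : ∀ R : Subgroup G, R ≤ S → ∃ i : ℕ, Monoid.exponent R = p ^ i := by
    intro R hRS
    have h1 : Monoid.exponent R ∣ Nat.card R := Group.exponent_dvd_nat_card
    have h2 : Nat.card R ∣ p ^ m := hm ▸ Subgroup.card_dvd_of_le hRS
    obtain ⟨i, -, hi⟩ := (Nat.dvd_prime_pow hp).mp (h1.trans h2)
    exact ⟨i, hi⟩
  obtain ⟨i, hi⟩ := hexp C hCS
  obtain ⟨j, hj⟩ := hexp D hDS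
  have hprodCD : ∀ s ∈ S, ∃ c ∈ C, ∃ d ∈ D, s = c * d := fun s hs =>
    exists_mul_of_mem_sup hAbS.comm hCS hDS (by rw [hCDsup]; exact hs)
  have hprodDC : ∀ s ∈ S, ∃ d ∈ D, ∃ c ∈ C, s = d * c := by
    intro s hs
    obtain ⟨c, hc, d, hd, rfl⟩ := hprodCD s hs
    exact ⟨d, hd, c, hc, hAbS.comm c (hCS hc) d (hDS hd)⟩
  rcases le_total j i with hji | hij
  · exact key C D hCS hDS hprodCD hWC hcardC (by rw [hi, hj]; exact pow_dvd_pow p hji)
  · exact key D C hDS hCS hprodDC hWD hcardD (by rw [hi, hj]; exact pow_dvd_pow p hij)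

example [Finite G] (hD : StDec G) (hW : StWAb G) (hB : StBasic G) : StCaseR G := caseR hD hW hB

end Cfsg.Agent.H20.BG161
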