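import Mathlib
import Cfsg.Prelude.Def_Blocks
import Cfsg.Agent.H20.SecondMain2
import Cfsg.Agent.H20.HeightZero
import Cfsg.Agent.H79.Covering
import Cfsg.Agent.H79.ClassCount
import Cfsg.Agent.Lib.CliffordCorr

/-!
# helper20: the Fong–Reynolds correspondence

Let `N` be a normal subgroup of `G`, `b` a block of `N` and `T` a subgroup containing `N` such that
the block idempotent `e_b` is `T`-invariant (`FRStab`) while `e_b^g e_b = 0` for `g ∉ T`
(`FROrth`).  A class function `ψ` of `T` lies over `b` (`FROver`) when `ψ e_b = ψ`.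

* `fr_key` : `(ψ^G)_T e_b = ψ` for `ψ` over `b`.
* `fr_irr` : `ψ^G` is irreducible for `ψ ∈ Irr(T)` over `b`.
* `fr_omega` : `ω_{ψ^G}(Tr_T^G(w e_b)) = ω_ψ(w)`.
* `fr_inj` : `ψ₁^G`, `ψ₂^G` in the same block implies `ψ₁`, `ψ₂` in the same block.
* `fr_cover`, `fr_surj` : characters of `G` over `b` are induced from characters of `T` over `b`.
-/

set_option autoImplicit false
set_option linter.style.haveILetI false
set_option linter.unusedSectionVars false

namespace Cfsg.Agent.H20

open Cfsg Cfsg.Agent.H4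

open scoped BigOperators ComplexConjugate

universe u

section FR

variable {G : Type u} [Group G] [Fintype G] {M : Ideal AlgInt}

/-- Complex conjugation inverts the argument of the idempotent coefficients. -/
theorem conj_blockCoeff (A : Set (IrrCharacter G)) (g : G) :
    conj (blockCoeff A g) = blockCoeff A g⁻¹ := by
  classical
  letI := fintypeIrr G
  rw [blockCoeff_eq, blockCoeff_eq, map_mul, map_inv₀, Complex.conj_natCast, map_sum]
  congr 1
  apply Finset.sum_congr rfl
  intro χ _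
  split_ifs with h
  · rw [map_mul, Complex.conj_conj, irr_conj χ 1, inv_one, irr_conj χ g⁻¹, inv_inv]
  · exact map_zero _

/-! ### The relative trace of a central element of a subgroup -/

/-- The element of `ℂ[G]` whose coefficient function is induced from that of `c ∈ ℂ[T]`. -/
noncomputable def indElt (T : Subgroup G) (c : MonoidAlgebra ℂ T) : MonoidAlgebra ℂ G :=
  ∑ g : G, MonoidAlgebra.single g (indFun T (fun t => c.coeff t) g)

theorem coeff_indElt (T : Subgroup G) (c : MonoidAlgebra ℂ T) (g : G) :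
    (indElt T c).coeff g = indFun T (fun t => c.coeff t) g := by
  classical
  unfold indElt
  rw [MonoidAlgebra.coeff_sum, Finsupp.finsetSum_apply]
  simp only [MonoidAlgebra.coeff_single, Finsupp.single_apply]
  rw [Finset.sum_ite_eq']
  simp

theorem isCF_indElt (T : Subgroup G) (c : MonoidAlgebra ℂ T) : IsCF (indElt T c) := by
  intro g h
  rw [coeff_indElt, coeff_indElt]
  exact indFun_isClassFunction T _ g h

/-- A class function of `T` with values in an additive subgroup induces to a function with values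
in that subgroup. -/
theorem indFun_mem_of_classFunction (A : AddSubgroup ℂ) (T : Subgroup G) [Fintype T] {c : T → ℂ}
    (hc : IsClassFunction T c) (h : ∀ t, c t ∈ A) (x : G) : indFun T c x ∈ A := by
  classical
  have hT0 : (Nat.card T : ℂ) ≠ 0 := by exact_mod_cast (Nat.card_pos (α := T)).ne'
  have hinv : ∀ (y : G) (t : T), extendByZero T c ((t : G)⁻¹ * y * t) = extendByZero T c y := by
    intro y t
    by_cases hy : y ∈ T
    · have e1 : ((t : G)⁻¹ * y * t) = ((t⁻¹ * ⟨y, hy⟩ * (t⁻¹)⁻¹ : T) : G) := by simp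
      rw [e1, extendByZero_coe, hc, extendByZero_of_mem T c hy]
    · rw [extendByZero_of_not_mem T c hy, extendByZero_of_not_mem]
      intro hcon
      apply hy
      have := T.mul_mem (T.mul_mem t.2 hcon) (T.inv_mem t.2)
      simpa [mul_assoc] using this
  rw [indFun_apply]
  have hF : ∀ g : G, extendByZero T c (g⁻¹ * x * g)
      = extendByZero T c (((g : G ⧸ T).out)⁻¹ * x * (g : G ⧸ T).out) := by
    intro g
    obtain ⟨t, ht⟩ := QuotientGroup.mk_out_eq_mul T g
    rw [ht, ← hinv (g⁻¹ * x * g) t]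
    congr 1
    group
  have e : ∑ g : G, extendByZero T c (g⁻¹ * x * g)
      = (Nat.card T : ℂ) * ∑ q : G ⧸ T, extendByZero T c (q.out⁻¹ * x * q.out) := by
    rw [Finset.sum_congr rfl (fun g _ => hF g),
      Cfsg.Agent.H79.sum_comp_quotient_mk T
        (fun q : G ⧸ T => extendByZero T c (q.out⁻¹ * x * q.out)), nsmul_eq_mul]
  rw [e, ← mul_assoc, inv_mul_cancel₀ hT0, one_mul]
  apply AddSubgroup.sum_mem
  intro q _
  by_cases hy : q.out⁻¹ * x * q.out ∈ T
  · rw [extendByZero_of_mem T c hy]; exact h _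
  · rw [extendByZero_of_not_mem T c hy]; exact A.zero_mem

theorem indElt_mem (T : Subgroup G) [Fintype T] (S : Subring ℂ) {c : MonoidAlgebra ℂ T}
    (hc : c ∈ cfSubring T S) : indElt T c ∈ cfSubring G S := by
  refine ⟨isCF_indElt T c, fun g => ?_⟩
  rw [coeff_indElt]
  exact indFun_mem_of_classFunction S.toAddSubgroup T (fun g h => hc.1 g h) (fun t => hc.2 t) g

/-- The central character of a class function of `G` on an induced central element. -/
theorem omega_indElt (T : Subgroup G) [Fintype T] (c : MonoidAlgebra ℂ T) {χ : G → ℂ}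
    (hχ : IsClassFunction G χ) :
    omega χ (indElt T c) = (T.index : ℂ) * (∑ t : T, c.coeff t * χ t) / χ 1 := by
  have hG : (Nat.card G : ℂ) ≠ 0 := by exact_mod_cast (Nat.card_pos (α := G)).ne'
  have hT0 : (Nat.card T : ℂ) ≠ 0 := by exact_mod_cast (Nat.card_pos (α := T)).ne'
  have hcf : IsClassFunction G (fun g => conj (χ g)) := by
    intro g h
    show conj (χ (h * g * h⁻¹)) = conj (χ g)
    rw [hχ g h]
  have h1 := frobenius_reciprocity T (fun t => c.coeff t) (fun g => conj (χ g)) hcf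
  unfold classInner at h1
  simp only [Complex.conj_conj] at h1
  have hidx : (T.index : ℂ) * (Nat.card T : ℂ) = (Nat.card G : ℂ) := by
    exact_mod_cast T.index_mul_card
  unfold omega
  simp only [coeff_indElt]
  have h2 : ∑ g : G, indFun T (fun t => c.coeff t) g * χ g
      = (T.index : ℂ) * ∑ t : T, c.coeff t * χ t := by
    have h3 : ∑ g : G, indFun T (fun t => c.coeff t) g * χ g
        = (Nat.card G : ℂ) * ((Nat.card T : ℂ)⁻¹ * ∑ h : T, c.coeff h * χ h) := by
      rw [← h1, ← mul_assoc, mul_inv_cancel₀ hG, one_mul]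
    rw [h3, ← hidx]
    field_simp
  rw [h2]

/-! ### Elements of `ℂ[N]` read in `ℂ[T]` for `N ≤ T` -/

section Incl

variable (N T : Subgroup G) (hNT : N ≤ T)

/-- An element of `ℂ[N]` read in `ℂ[T]`, for `N ≤ T`. -/
noncomputable def inclElt (w : MonoidAlgebra ℂ N) : MonoidAlgebra ℂ T :=
  MonoidAlgebra.mapDomainRingHom ℂ (Subgroup.inclusion hNT) w

theorem coeff_inclElt_coe (w : MonoidAlgebra ℂ N) (n : N) :
    (inclElt N T hNT w).coeff (Subgroup.inclusion hNT n) = w.coeff n := by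
  show (MonoidAlgebra.mapDomain (Subgroup.inclusion hNT) w).coeff (Subgroup.inclusion hNT n)
    = w.coeff n
  rw [MonoidAlgebra.coeff_mapDomain, Finsupp.mapDomain_apply (Subgroup.inclusion_injective hNT)]

theorem coeff_inclElt_of_not_mem (w : MonoidAlgebra ℂ N) {t : T} (ht : (t : G) ∉ N) :
    (inclElt N T hNT w).coeff t = 0 := by
  show (MonoidAlgebra.mapDomain (Subgroup.inclusion hNT) w).coeff t = 0
  rw [MonoidAlgebra.coeff_mapDomain]
  apply Finsupp.mapDomain_of_notMem_range
  rintro ⟨n, rfl⟩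
  exact ht n.2

theorem sum_inclElt_mul [Fintype N] [Fintype T] (w : MonoidAlgebra ℂ N) (F : T → ℂ) :
    ∑ t : T, (inclElt N T hNT w).coeff t * F t
      = ∑ n : N, w.coeff n * F (Subgroup.inclusion hNT n) := by
  classical
  have hinj := Subgroup.inclusion_injective hNT
  rw [← Finset.sum_subset (Finset.subset_univ (Finset.univ.image (Subgroup.inclusion hNT)))]
  · rw [Finset.sum_image (fun a _ b _ h => hinj h)]
    exact Finset.sum_congr rfl (fun n _ => by rw [coeff_inclElt_coe])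
  · intro t _ ht
    rw [coeff_inclElt_of_not_mem N T hNT w, zero_mul]
    intro hmem
    exact ht (Finset.mem_image.mpr ⟨⟨t, hmem⟩, Finset.mem_univ _, Subtype.ext rfl⟩)

end Incl

/-! ### The key identity -/

section Key

variable (N : Subgroup G) [hN : N.Normal] [Fintype N] (T : Subgroup G) [Fintype T] (hNT : N ≤ T)
  (b : Set (IrrCharacter N))

/-- The idempotent `e_b` is invariant under `T`. -/
def FRStab : Prop :=
  ∀ g : G, g ∈ T → ∀ n : N, blockCoeff b ⟨g * n * g⁻¹, hN.conj_mem n n.2 g⟩ = blockCoeff b n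

/-- The conjugates of `e_b` by elements outside `T` are orthogonal to `e_b`. -/
def FROrth : Prop :=
  ∀ g : G, g ∉ T → ∀ k : N,
    ∑ m : N, blockCoeff b ⟨g * m * g⁻¹, hN.conj_mem m m.2 g⟩ * blockCoeff b (m⁻¹ * k) = 0

/-- `ψ e_b = ψ`: the function `ψ` on `T` lies over `b`. -/
def FROver (ψ : T → ℂ) : Prop :=
  ∀ s : T, ∑ n : N, blockCoeff b n * ψ (s * Subgroup.inclusion hNT n) = ψ s

/-- **Key identity**: `(ψ^G)_T e_b = ψ` for a class function `ψ` of `T` with `ψ e_b = ψ`. -/
theorem fr_key (hst : FRStab N T b) (horth : FROrth N T b) {ψ : T → ℂ}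
    (hψ : IsClassFunction T ψ) (hov : FROver N T hNT b ψ) (t : T) :
    ∑ n : N, blockCoeff b n * indFun T ψ ((t : G) * (n : G)) = ψ t := by
  classical
  have hT0 : (Nat.card T : ℂ) ≠ 0 := by exact_mod_cast (Nat.card_pos (α := T)).ne'
  have key : ∀ x : G,
      ∑ n : N, blockCoeff b n * extendByZero T ψ (x⁻¹ * ((t : G) * (n : G)) * x)
        = if x ∈ T then ψ t else 0 := by
    intro x
    have hre : ∑ n : N, blockCoeff b n * extendByZero T ψ (x⁻¹ * ((t : G) * (n : G)) * x)
        = ∑ m : N, blockCoeff b ⟨x * m * x⁻¹, hN.conj_mem m m.2 x⟩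
            * extendByZero T ψ ((x⁻¹ * (t : G) * x) * (m : G)) := by
      rw [← Equiv.sum_comp (MulAut.conjNormal x : N ≃* N).toEquiv]
      apply Finset.sum_congr rfl
      intro m _
      have e1 : ((MulAut.conjNormal x : N ≃* N).toEquiv m)
          = ⟨x * m * x⁻¹, hN.conj_mem m m.2 x⟩ := Subtype.ext (by simp)
      rw [e1]
      congr 2
      show x⁻¹ * ((t : G) * (x * (m : G) * x⁻¹)) * x = x⁻¹ * (t : G) * x * (m : G)
      group
    rw [hre]
    by_cases hs : x⁻¹ * (t : G) * x ∈ T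
    · have hval : ∀ m : N, extendByZero T ψ ((x⁻¹ * (t : G) * x) * (m : G))
          = ψ (⟨x⁻¹ * (t : G) * x, hs⟩ * Subgroup.inclusion hNT m) := by
        intro m
        exact extendByZero_coe T ψ (⟨x⁻¹ * (t : G) * x, hs⟩ * Subgroup.inclusion hNT m)
      simp only [hval]
      by_cases hx : x ∈ T
      · rw [if_pos hx, Finset.sum_congr rfl (fun m _ => by rw [hst x hx m]), hov]
        have e2 : (⟨x⁻¹ * (t : G) * x, hs⟩ : T)
            = (⟨x, hx⟩ : T)⁻¹ * t * ((⟨x, hx⟩ : T)⁻¹)⁻¹ := Subtype.ext (by simp)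
        rw [e2, hψ]
      · rw [if_neg hx]
        have h1 : ∀ m : N, ψ (⟨x⁻¹ * (t : G) * x, hs⟩ * Subgroup.inclusion hNT m)
            = ∑ k : N, blockCoeff b (m⁻¹ * k)
                * ψ (⟨x⁻¹ * (t : G) * x, hs⟩ * Subgroup.inclusion hNT k) := by
          intro m
          rw [← hov (⟨x⁻¹ * (t : G) * x, hs⟩ * Subgroup.inclusion hNT m),
            ← Equiv.sum_comp (Equiv.mulLeft m⁻¹)]
          apply Finset.sum_congr rfl
          intro k _
          simp only [Equiv.coe_mulLeft]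
          rw [mul_assoc, ← map_mul, mul_inv_cancel_left]
        rw [Finset.sum_congr rfl (fun m _ => by rw [h1 m, Finset.mul_sum]), Finset.sum_comm]
        apply Finset.sum_eq_zero
        intro k _
        have h2 := horth x hx k
        rw [Finset.sum_congr rfl (fun m _ => (mul_assoc _ _ _).symm), ← Finset.sum_mul, h2,
          zero_mul]
    · rw [if_neg (fun hx => hs (T.mul_mem (T.mul_mem (T.inv_mem hx) t.2) hx))]
      apply Finset.sum_eq_zero
      intro m _
      rw [extendByZero_of_not_mem, mul_zero]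
      intro hcon
      apply hs
      have := T.mul_mem hcon (T.inv_mem (hNT m.2))
      simpa [mul_assoc] using this
  have e2 : ∑ n : N, blockCoeff b n * indFun T ψ ((t : G) * (n : G))
      = (Nat.card T : ℂ)⁻¹ * ∑ x : G, ∑ n : N,
          blockCoeff b n * extendByZero T ψ (x⁻¹ * ((t : G) * (n : G)) * x) := by
    rw [Finset.sum_comm, Finset.mul_sum]
    apply Finset.sum_congr rfl
    intro n _
    rw [indFun_apply, Finset.mul_sum, Finset.mul_sum, Finset.mul_sum]
    apply Finset.sum_congr rfl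
    intro x _
    ring
  rw [e2, Finset.sum_congr rfl (fun x _ => key x), Finset.sum_ite, Finset.sum_const_zero,
    add_zero, Finset.sum_const, card_filter_mem_subgroup, nsmul_eq_mul, ← mul_assoc,
    inv_mul_cancel₀ hT0, one_mul]

/-- The induced function of a class function over `b` has the same norm. -/
theorem fr_norm (hst : FRStab N T b) (horth : FROrth N T b) {ψ : T → ℂ}
    (hψ : IsClassFunction T ψ) (hov : FROver N T hNT b ψ) :
    classInner (indFun T ψ) (indFun T ψ) = classInner ψ ψ := by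
  classical
  rw [frobenius_reciprocity T ψ (indFun T ψ) (indFun_isClassFunction T ψ)]
  unfold classInner
  congr 1
  calc ∑ t : T, ψ t * conj (indFun T ψ t)
      = ∑ t : T, ∑ n : N, blockCoeff b n * ψ (t * Subgroup.inclusion hNT n)
          * conj (indFun T ψ t) := by
        apply Finset.sum_congr rfl
        intro t _
        rw [← Finset.sum_mul, hov t]
    _ = ∑ n : N, ∑ t : T, blockCoeff b n * ψ (t * Subgroup.inclusion hNT n)
          * conj (indFun T ψ t) := Finset.sum_comm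
    _ = ∑ n : N, ∑ t : T, blockCoeff b n * ψ t
          * conj (indFun T ψ ((t : G) * ((n : G))⁻¹)) := by
        apply Finset.sum_congr rfl
        intro n _
        rw [← Equiv.sum_comp (Equiv.mulRight (Subgroup.inclusion hNT n)⁻¹)]
        apply Finset.sum_congr rfl
        intro t _
        simp only [Equiv.coe_mulRight, inv_mul_cancel_right]
        rfl
    _ = ∑ t : T, ψ t * conj (∑ n : N, blockCoeff b n⁻¹
          * indFun T ψ ((t : G) * ((n : G))⁻¹)) := by
        rw [Finset.sum_comm]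
        apply Finset.sum_congr rfl
        intro t _
        rw [map_sum, Finset.mul_sum]
        apply Finset.sum_congr rfl
        intro n _
        rw [map_mul, ← conj_blockCoeff, Complex.conj_conj]
        ring
    _ = ∑ t : T, ψ t * conj (ψ t) := by
        apply Finset.sum_congr rfl
        intro t _
        congr 2
        rw [← fr_key N T hNT b hst horth hψ hov t]
        exact Equiv.sum_comp (Equiv.inv N)
          (fun n : N => blockCoeff b n * indFun T ψ ((t : G) * (n : G)))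

/-- A character of `T` over `b` induces irreducibly. -/
theorem fr_irr (hst : FRStab N T b) (horth : FROrth N T b) (ψ : IrrCharacter T)
    (hov : FROver N T hNT b ψ.1) : IsIrrCharacter G (indFun T ψ.1) := by
  apply isIrrCharacter_of_norm_one (isCharacter_indFun T ψ.1 (isCharacter_of_isIrrCharacter ψ.2))
  rw [fr_norm N T hNT b hst horth (irr_isClassFunction ψ) hov]
  exact irr_inner_self ψ

/-! ### The idempotent read in `ℂ[T]` -/

theorem isCF_frElt (hst : FRStab N T b) : IsCF (inclElt N T hNT (blockElt b)) := by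
  intro t s
  by_cases ht : (t : G) ∈ N
  · have e1 : t = Subgroup.inclusion hNT ⟨t, ht⟩ := Subtype.ext rfl
    have e2 : s * t * s⁻¹
        = Subgroup.inclusion hNT ⟨(s : G) * t * (s : G)⁻¹, hN.conj_mem _ ht _⟩ := Subtype.ext rfl
    rw [e2, coeff_inclElt_coe, coeff_blockElt]
    conv_rhs => rw [e1, coeff_inclElt_coe, coeff_blockElt]
    exact hst s s.2 ⟨t, ht⟩
  · rw [coeff_inclElt_of_not_mem N T hNT _ ht, coeff_inclElt_of_not_mem]
    intro hcon
    apply ht
    have := hN.conj_mem _ hcon (s : G)⁻¹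
    simpa [mul_assoc] using this

theorem frElt_mul_self :
    inclElt N T hNT (blockElt b) * inclElt N T hNT (blockElt b) = inclElt N T hNT (blockElt b) := by
  unfold inclElt
  rw [← map_mul, Cfsg.Agent.H80.blockElt_mul_self]

theorem frElt_mem (hM : M.IsPrime) (hst : FRStab N T b)
    (hbR : ∀ n : N, MemLocalRing M (blockCoeff b n)) :
    inclElt N T hNT (blockElt b) ∈ cfSubring T (localRing M hM) := by
  refine ⟨isCF_frElt N T hNT b hst, fun t => ?_⟩
  by_cases ht : (t : G) ∈ N
  · have e1 : t = Subgroup.inclusion hNT ⟨t, ht⟩ := Subtype.ext rfl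
    rw [e1, coeff_inclElt_coe, coeff_blockElt]
    exact hbR _
  · rw [coeff_inclElt_of_not_mem N T hNT _ ht]
    exact Subring.zero_mem _

/-- The scalar by which `e_b` acts on an irreducible character of `T`. -/
theorem omega_frElt (ξ : T → ℂ) :
    omega ξ (inclElt N T hNT (blockElt b))
      = (∑ n : N, blockCoeff b n * ξ (Subgroup.inclusion hNT n)) / ξ 1 := by
  unfold omega
  rw [sum_inclElt_mul N T hNT (blockElt b) ξ]
  simp only [coeff_blockElt]

theorem fr_eps (hst : FRStab N T b) (ξ : IrrCharacter T) (s : T) :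
    ∑ n : N, blockCoeff b n * ξ.1 (s * Subgroup.inclusion hNT n)
      = omega ξ.1 (inclElt N T hNT (blockElt b)) * ξ.1 s := by
  classical
  have h1 := omega_mul ξ (isCF_frElt N T hNT b hst) (MonoidAlgebra.single s (1 : ℂ))
  rw [omega_single] at h1
  have hξ1 := irr_one_ne_zero ξ
  have h2 : omega ξ.1 (inclElt N T hNT (blockElt b) * MonoidAlgebra.single s (1 : ℂ))
      = (∑ n : N, blockCoeff b n * ξ.1 (s * Subgroup.inclusion hNT n)) / ξ.1 1 := by
    unfold omega
    congr 1
    rw [← Equiv.sum_comp (Equiv.mulRight s)]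
    have h3 : ∀ t : T, (inclElt N T hNT (blockElt b) * MonoidAlgebra.single s (1 : ℂ)).coeff
        ((Equiv.mulRight s) t) * ξ.1 ((Equiv.mulRight s) t)
        = (inclElt N T hNT (blockElt b)).coeff t * ξ.1 (t * s) := by
      intro t
      rw [Equiv.coe_mulRight, MonoidAlgebra.coeff_mul_single_apply, mul_one]
      show (inclElt N T hNT (blockElt b)).coeff (t * s * s⁻¹) * ξ.1 (t * s) = _
      rw [mul_inv_cancel_right]
    rw [Finset.sum_congr rfl (fun t _ => h3 t),
      sum_inclElt_mul N T hNT (blockElt b) (fun t => ξ.1 (t * s))]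
    apply Finset.sum_congr rfl
    intro n _
    rw [coeff_blockElt]
    congr 1
    have h4 := irr_isClassFunction ξ (Subgroup.inclusion hNT n * s) s
    rw [← h4]
    group
  rw [h2] at h1
  field_simp at h1
  rw [h1]

theorem omega_frElt_zero_or_one (hst : FRStab N T b) (ξ : IrrCharacter T) :
    omega ξ.1 (inclElt N T hNT (blockElt b)) = 0 ∨ omega ξ.1 (inclElt N T hNT (blockElt b)) = 1 := by
  have h1 := omega_mul ξ (isCF_frElt N T hNT b hst) (inclElt N T hNT (blockElt b))
  rw [frElt_mul_self] at h1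
  have h2 : omega ξ.1 (inclElt N T hNT (blockElt b))
      * (omega ξ.1 (inclElt N T hNT (blockElt b)) - 1) = 0 := by
    rw [mul_sub, mul_one, ← h1, sub_self]
  rcases mul_eq_zero.mp h2 with h | h
  · exact Or.inl h
  · exact Or.inr (sub_eq_zero.mp h)

theorem frOver_of_omega (hst : FRStab N T b) (ξ : IrrCharacter T)
    (h : omega ξ.1 (inclElt N T hNT (blockElt b)) = 1) : FROver N T hNT b ξ.1 := by
  intro s
  rw [fr_eps N T hNT b hst ξ s, h, one_mul]

theorem omega_of_frOver (ξ : T → ℂ) (h1 : ξ 1 ≠ 0) (h : FROver N T hNT b ξ) :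
    omega ξ (inclElt N T hNT (blockElt b)) = 1 := by
  rw [omega_frElt]
  have := h 1
  simp only [one_mul] at this
  rw [this, div_self h1]

/-- Pairing the idempotent with a class function of `N`. -/
theorem bsum_eq {φ : N → ℂ} (hφ : IsClassFunction N φ) :
    ∑ n : N, blockCoeff b n * φ n = ∑ᶠ θ ∈ b, classInner φ θ.1 * θ.1 1 := by
  have := sum_blockCoeff_mul_eq b hφ 1
  simpa using this

/-- A character of `N` has a constituent in `b` iff the idempotent does not kill it. -/
theorem bsum_ne_zero_iff {φ : N → ℂ} (hφ : IsCharacter N φ) :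
    ∑ n : N, blockCoeff b n * φ n ≠ 0 ↔ ∃ θ ∈ b, classInner φ θ.1 ≠ 0 := by
  classical
  letI := fintypeIrr N
  rw [bsum_eq N b (isClassFunction_of_isCharacter hφ), finsum_mem_irr]
  constructor
  · intro h
    by_contra hcon
    push Not at hcon
    apply h
    apply Finset.sum_eq_zero
    intro θ _
    split_ifs with hθ
    · rw [hcon θ hθ, zero_mul]
    · rfl
  · rintro ⟨θ, hθ, hne⟩
    have hnat : ∀ μ : IrrCharacter N, ∃ k : ℕ,
        (if μ ∈ b then classInner φ μ.1 * μ.1 1 else 0) = (k : ℂ) ∧ (μ = θ → k ≠ 0) := by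
      intro μ
      obtain ⟨a, ha⟩ := classInner_isCharacter_nat hφ (isCharacter_of_isIrrCharacter μ.2)
      obtain ⟨hd, hd0⟩ := Cfsg.Agent.H81.irr_charDegree μ
      by_cases hμ : μ ∈ b
      · refine ⟨a * charDegree μ.1, ?_, ?_⟩
        · rw [if_pos hμ, ha, hd]; push_cast; ring
        · intro hμθ
          subst hμθ
          have ha0 : a ≠ 0 := by
            intro h0
            apply hne
            rw [ha, h0]; simp
          exact Nat.mul_ne_zero ha0 hd0.ne'
      · refine ⟨0, ?_, ?_⟩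
        · rw [if_neg hμ]; simp
        · intro hμθ
          exact absurd (hμθ ▸ hθ) hμ
    choose k hk hk' using hnat
    rw [Finset.sum_congr rfl (fun μ _ => hk μ), ← Nat.cast_sum]
    have hpos : 0 < ∑ μ : IrrCharacter N, k μ :=
      Finset.sum_pos' (fun _ _ => Nat.zero_le _)
        ⟨θ, Finset.mem_univ _, Nat.pos_of_ne_zero (hk' θ rfl)⟩
    exact_mod_cast hpos.ne'

/-- A character of `T` with a constituent in `b` on `N` lies over `b`. -/
theorem frOver_of_constituent (hst : FRStab N T b) (ξ : IrrCharacter T)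
    (h : ∃ θ ∈ b, classInner (fun n : N => ξ.1 (Subgroup.inclusion hNT n)) θ.1 ≠ 0) :
    FROver N T hNT b ξ.1 := by
  apply frOver_of_omega N T hNT b hst
  rcases omega_frElt_zero_or_one N T hNT b hst ξ with h0 | h1
  · exfalso
    rw [omega_frElt] at h0
    have hchar : IsCharacter N (fun n : N => ξ.1 (Subgroup.inclusion hNT n)) :=
      isCharacter_comp (Subgroup.inclusion hNT) (isCharacter_of_isIrrCharacter ξ.2)
    have h2 := (bsum_ne_zero_iff N b hchar).mpr h
    rw [div_eq_zero_iff] at h0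
    rcases h0 with h0 | h0
    · exact h2 h0
    · exact irr_one_ne_zero ξ h0
  · exact h1

/-- A function of `T` over `b` with nonzero degree whose restriction is a character has a
constituent in `b`. -/
theorem constituent_of_frOver (ξ : IrrCharacter T) (h : FROver N T hNT b ξ.1) :
    ∃ θ ∈ b, classInner (fun n : N => ξ.1 (Subgroup.inclusion hNT n)) θ.1 ≠ 0 := by
  have hchar : IsCharacter N (fun n : N => ξ.1 (Subgroup.inclusion hNT n)) :=
    isCharacter_comp (Subgroup.inclusion hNT) (isCharacter_of_isIrrCharacter ξ.2)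
  apply (bsum_ne_zero_iff N b hchar).mp
  have h1 := h 1
  simp only [one_mul] at h1
  rw [h1]
  exact irr_one_ne_zero ξ

/-! ### Central characters of induced characters -/

/-- `ω_{ψ^G}(Tr_T^G(w e_b)) = ω_ψ(w)` for `ψ` over `b`. -/
theorem fr_omega (hst : FRStab N T b) (horth : FROrth N T b) {ψ : T → ℂ}
    (hψ : IsClassFunction T ψ) (hov : FROver N T hNT b ψ) (hψ1 : ψ 1 ≠ 0)
    (w : MonoidAlgebra ℂ T) :
    omega (indFun T ψ) (indElt T (w * inclElt N T hNT (blockElt b))) = omega ψ w := by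
  classical
  have hG : (Nat.card G : ℂ) ≠ 0 := by exact_mod_cast (Nat.card_pos (α := G)).ne'
  have hT0 : (Nat.card T : ℂ) ≠ 0 := by exact_mod_cast (Nat.card_pos (α := T)).ne'
  have hidx : (T.index : ℂ) * (Nat.card T : ℂ) = (Nat.card G : ℂ) := by
    exact_mod_cast T.index_mul_card
  have hidx0 : (T.index : ℂ) ≠ 0 := by
    intro h0; rw [h0, zero_mul] at hidx; exact hG hidx.symm
  rw [omega_indElt T _ (indFun_isClassFunction T ψ), indFun_one]
  have h1 : ∑ t : T, (w * inclElt N T hNT (blockElt b)).coeff t * indFun T ψ t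
      = ∑ s : T, w.coeff s * ψ s := by
    simp only [coeff_mul_fintype, Finset.sum_mul]
    rw [Finset.sum_comm]
    apply Finset.sum_congr rfl
    intro s _
    rw [← Equiv.sum_comp (Equiv.mulLeft s)]
    simp only [Equiv.coe_mulLeft, inv_mul_cancel_left, mul_assoc]
    rw [← Finset.mul_sum]
    congr 1
    rw [sum_inclElt_mul N T hNT (blockElt b) (fun t => indFun T ψ ((s * t : T) : G))]
    simp only [coeff_blockElt]
    exact fr_key N T hNT b hst horth hψ hov s
  rw [h1]
  unfold omega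
  rw [← hidx]
  field_simp

/-- **Injectivity of the Fong–Reynolds correspondence.** -/
theorem fr_inj (hM : M.IsPrime) (hst : FRStab N T b) (horth : FROrth N T b)
    (hbR : ∀ n : N, MemLocalRing M (blockCoeff b n)) (ψ₁ ψ₂ : IrrCharacter T)
    (h₁ : FROver N T hNT b ψ₁.1) (h₂ : FROver N T hNT b ψ₂.1)
    (hsame : SameBlock M (indFun T ψ₁.1) (indFun T ψ₂.1)) : SameBlock M ψ₁.1 ψ₂.1 := by
  intro y
  have hZ : indElt T (classSum y * inclElt N T hNT (blockElt b)) ∈ cfSubring G (localRing M hM) :=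
    indElt_mem T _ (Subring.mul_mem _ (classSum_mem _ y) (frElt_mem N T hNT b hM hst hbR))
  have h := omega_sub_omega_memLocalIdeal hM _ _ (indFun_isClassFunction T ψ₁.1)
    (indFun_isClassFunction T ψ₂.1) hsame hZ
  rw [fr_omega N T hNT b hst horth (irr_isClassFunction ψ₁) h₁ (irr_one_ne_zero ψ₁),
    fr_omega N T hNT b hst horth (irr_isClassFunction ψ₂) h₂ (irr_one_ne_zero ψ₂),
    omega_classSum _ (irr_isClassFunction ψ₁), omega_classSum _ (irr_isClassFunction ψ₂)] at h
  exact h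

/-- Characters of `G` in the block of an induced character `ψ₀^G`, `ψ₀` over `b`, lie over `b`. -/
theorem fr_cover (hM : M.IsPrime) (hst : FRStab N T b) (horth : FROrth N T b)
    (hbR : ∀ n : N, MemLocalRing M (blockCoeff b n)) (ψ₀ : IrrCharacter T)
    (h₀ : FROver N T hNT b ψ₀.1) (χ : IrrCharacter G)
    (hsame : SameBlock M (indFun T ψ₀.1) χ.1) :
    ∃ θ ∈ b, classInner (fun n : N => χ.1 n) θ.1 ≠ 0 := by
  by_contra hcon
  have hZ : indElt T (1 * inclElt N T hNT (blockElt b)) ∈ cfSubring G (localRing M hM) :=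
    indElt_mem T _ (Subring.mul_mem _ (Subring.one_mem _) (frElt_mem N T hNT b hM hst hbR))
  have h := omega_sub_omega_memLocalIdeal hM _ _ (indFun_isClassFunction T ψ₀.1)
    (irr_isClassFunction χ) hsame hZ
  rw [fr_omega N T hNT b hst horth (irr_isClassFunction ψ₀) h₀ (irr_one_ne_zero ψ₀),
    omega_one _ (irr_one_ne_zero ψ₀), omega_indElt T _ (irr_isClassFunction χ), one_mul,
    sum_inclElt_mul N T hNT (blockElt b) (fun t => χ.1 t)] at h
  simp only [coeff_blockElt] at h
  have hchar : IsCharacter N (fun n : N => χ.1 n) :=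
    isCharacter_restrict N (isCharacter_of_isIrrCharacter χ.2)
  have h0 : ∑ n : N, blockCoeff b n * χ.1 (n : G) = 0 := by
    by_contra hne
    exact hcon ((bsum_ne_zero_iff N b hchar).mp hne)
  have h0' : ∑ n : N, blockCoeff b n * χ.1 ((Subgroup.inclusion hNT n : T) : G) = 0 := h0
  rw [h0', mul_zero, zero_div, sub_zero] at h
  exact not_memLocalIdeal_one hM h

/-- **Surjectivity**: a character of `G` with a constituent in `b` is induced from a character of
`T` over `b`. -/
theorem fr_surj (hst : FRStab N T b) (horth : FROrth N T b) (χ : IrrCharacter G)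
    (h : ∃ θ ∈ b, classInner (fun n : N => χ.1 n) θ.1 ≠ 0) :
    ∃ ψ : IrrCharacter T, FROver N T hNT b ψ.1 ∧ χ.1 = indFun T ψ.1 := by
  classical
  obtain ⟨θ, hθ, hne⟩ := h
  have hres : IsClassFunction T (fun t : T => χ.1 t) :=
    isClassFunction_of_isCharacter (isCharacter_restrict T (isCharacter_of_isIrrCharacter χ.2))
  have hexp := Cfsg.Agent.Clifford.classInner_comp_expand hres
    (fun n : N => Subgroup.inclusion hNT n) θ.1
  have hex : ∃ ξ : IrrCharacter T, classInner (fun t : T => χ.1 t) ξ.1 ≠ 0 ∧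
      classInner (fun n : N => ξ.1 (Subgroup.inclusion hNT n)) θ.1 ≠ 0 := by
    by_contra hcon
    push Not at hcon
    apply hne
    have e : (fun n : N => χ.1 (n : G))
        = (fun n : N => (fun t : T => χ.1 t) (Subgroup.inclusion hNT n)) := rfl
    rw [e, hexp]
    apply finsum_eq_zero_of_forall_eq_zero
    intro ξ
    by_cases h1 : classInner (fun t : T => χ.1 t) ξ.1 = 0
    · rw [h1, zero_mul]
    · rw [hcon ξ h1, mul_zero]
  obtain ⟨ξ, hξ1, hξ2⟩ := hex
  have hov := frOver_of_constituent N T hNT b hst ξ ⟨θ, hθ, hξ2⟩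
  refine ⟨ξ, hov, ?_⟩
  have hirr := fr_irr N T hNT b hst horth ξ hov
  symm
  apply Cfsg.Agent.Clifford.eq_of_classInner_ne_zero hirr χ.2
  rw [frobenius_reciprocity T ξ.1 χ.1 (irr_isClassFunction χ), ← classInner_conj_symm]
  intro h0
  apply hξ1
  have := congrArg conj h0
  simpa using this

end Key

/-! ### Stabilizers of blocks -/

section Stab

open Cfsg.Agent.H79 Cfsg.Agent.H80

variable (N : Subgroup G) [hN : N.Normal] [Fintype N]

/-- The coefficients of the idempotent at a conjugate are those of the conjugate set. -/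
theorem blockCoeff_conj_eq (A : Set (IrrCharacter N)) (g : G) (n : N) :
    blockCoeff A ⟨g * n * g⁻¹, hN.conj_mem n n.2 g⟩
      = blockCoeff {ν | conjIrr N g⁻¹ ν ∈ A} n := by
  classical
  letI := fintypeIrr N
  rw [blockCoeff_eq, blockCoeff_eq]
  congr 1
  rw [← (conjIrr_bijective N g).sum_comp
    (fun ν : IrrCharacter N =>
      if ν ∈ {ν | conjIrr N g⁻¹ ν ∈ A} then ν.1 1 * conj (ν.1 n) else 0)]
  apply Finset.sum_congr rfl
  intro μ _
  have e : conjIrr N g⁻¹ (conjIrr N g μ) = μ := by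
    rw [conjIrr_conjIrr, mul_inv_cancel, conjIrr_one]
  simp only [Set.mem_ofPred_eq, e, conjIrr_one_apply]
  rfl

variable (T : Subgroup G) (b : Set (IrrCharacter N))

/-- The stabilizer of a block satisfies the two hypotheses. -/
theorem frStab_of_stab (hM : M.IsPrime) (hb : IsPBlock M b)
    (hT : ∀ g : G, g ∈ T ↔ ∀ θ ∈ b, ∀ θ' : IrrCharacter N,
      (∀ n : N, (θ' : N → ℂ) n = (θ : N → ℂ) ⟨g * n * g⁻¹, hN.conj_mem n n.2 g⟩) → θ' ∈ b) :
    FRStab N T b ∧ FROrth N T b := by
  have hT' : ∀ g : G, g ∈ T ↔ ∀ θ ∈ b, conjIrr N g θ ∈ b := by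
    intro g
    rw [hT]
    constructor
    · intro h θ hθ
      exact h θ hθ (conjIrr N g θ) (fun n => rfl)
    · intro h θ hθ θ' hθ'
      have e : θ' = conjIrr N g θ := Subtype.ext (funext hθ')
      rw [e]; exact h θ hθ
  constructor
  · intro g hg n
    rw [blockCoeff_conj_eq]
    congr 1
    ext ν
    simp only [Set.mem_ofPred_eq]
    constructor
    · intro h
      have h1 := (hT' g).mp hg _ h
      rwa [conjIrr_conjIrr, inv_mul_cancel, conjIrr_one] at h1
    · intro h
      exact (hT' g⁻¹).mp (T.inv_mem hg) ν h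
  · intro g hg k
    have h1 : ∑ m : N, blockCoeff b ⟨g * m * g⁻¹, hN.conj_mem m m.2 g⟩ * blockCoeff b (m⁻¹ * k)
        = (blockElt {ν | conjIrr N g⁻¹ ν ∈ b} * blockElt b).coeff k := by
      rw [coeff_mul_fintype]
      apply Finset.sum_congr rfl
      intro m _
      rw [coeff_blockElt, coeff_blockElt, blockCoeff_conj_eq]
    rw [h1, blockElt_mul_blockElt]
    have hempty : {ν | conjIrr N g⁻¹ ν ∈ b} ∩ b = ∅ := by
      by_contra hne
      obtain ⟨ν, hν1, hν2⟩ := Set.nonempty_iff_ne_empty.mpr hne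
      apply hg
      rw [hT']
      intro θ hθ
      obtain ⟨χ₀, rfl⟩ := hb
      have hμθ : SameBlock M (conjIrr N g⁻¹ ν).1 θ.1 :=
        sameBlock_trans hM (sameBlock_symm hν1) hθ
      have h2 : SameBlock M (conjIrr N g (conjIrr N g⁻¹ ν)).1 (conjIrr N g θ).1 :=
        (sameBlock_conjIrr N g _ _).mpr hμθ
      rw [conjIrr_conjIrr, inv_mul_cancel, conjIrr_one] at h2
      exact sameBlock_trans hM hν2 h2
    rw [hempty, blockElt_empty]
    simp

end Stab

/-! ### The correspondence for blocks -/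

section Main

open Cfsg.Agent.H79 Cfsg.Agent.H80

variable (N : Subgroup G) [hN : N.Normal] [Fintype N] (T : Subgroup G) [Fintype T] (hNT : N ≤ T)
  (b : Set (IrrCharacter N))

/-- Being over `b` is constant on blocks of `T`. -/
theorem frOver_of_sameBlock (hM : M.IsPrime) (hst : FRStab N T b)
    (hbR : ∀ n : N, MemLocalRing M (blockCoeff b n)) (ψ₁ ψ : IrrCharacter T)
    (h₁ : FROver N T hNT b ψ₁.1) (hsame : SameBlock M ψ₁.1 ψ.1) : FROver N T hNT b ψ.1 := by
  apply frOver_of_omega N T hNT b hst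
  have h := omega_sub_omega_memLocalIdeal hM _ _ (irr_isClassFunction ψ₁) (irr_isClassFunction ψ)
    hsame (frElt_mem N T hNT b hM hst hbR)
  rw [omega_of_frOver N T hNT b ψ₁.1 (irr_one_ne_zero ψ₁) h₁] at h
  rcases omega_frElt_zero_or_one N T hNT b hst ψ with h0 | h1
  · rw [h0, sub_zero] at h
    exact absurd h (not_memLocalIdeal_one hM)
  · exact h1

/-- The block of `ψ` over `b` induces the block of `ψ^G`. -/
theorem fr_induced (hM : M.IsPrime) (ψ : IrrCharacter T) (χ : IrrCharacter G)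
    (hχ : χ.1 = indFun T ψ.1) : IsInducedBlock M T (blockOf M ψ.1) (blockOf M χ.1) := by
  refine ⟨⟨ψ, rfl⟩, ⟨χ, rfl⟩, fun ξ' hξ' χ' hχ' g => ?_⟩
  have h1 := inducedCentralChar_sub_mem_of_sameBlock_gen hM T ξ'.1 ψ.1 (irr_isClassFunction ξ')
    (irr_isClassFunction ψ) (sameBlock_symm hξ') g
  have h2 : MemLocalIdeal M (centralChar χ.1 g - centralChar χ'.1 g) := hχ' g
  rw [Cfsg.Agent.S0932.inducedCentralChar_eq T ψ.1, ← hχ] at h1
  have h3 := memLocalIdeal_add hM h1 h2
  convert h3 using 1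
  ring

/-- Induction preserves the block relation. -/
theorem sameBlock_indFun (hM : M.IsPrime) (ψ₁ ψ₂ : IrrCharacter T)
    (h : SameBlock M ψ₁.1 ψ₂.1) : SameBlock M (indFun T ψ₁.1) (indFun T ψ₂.1) := by
  intro g
  rw [← Cfsg.Agent.S0932.inducedCentralChar_eq, ← Cfsg.Agent.S0932.inducedCentralChar_eq]
  exact inducedCentralChar_sub_mem_of_sameBlock_gen hM T ψ₁.1 ψ₂.1 (irr_isClassFunction ψ₁)
    (irr_isClassFunction ψ₂) h g

/-- **Fong–Reynolds, part (i).** -/
theorem fr_part_one (hM : M.IsPrime) (hst : FRStab N T b) (horth : FROrth N T b)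
    (hbR : ∀ n : N, MemLocalRing M (blockCoeff b n))
    (B' : Set (IrrCharacter T)) (hB' : IsPBlock M B')
    (hcov : ∃ ψ ∈ B', ∃ θ ∈ b,
      classInner (fun n : N => (ψ : T → ℂ) (Subgroup.inclusion hNT n)) (θ : N → ℂ) ≠ 0) :
    ∃ B : Set (IrrCharacter G), IsInducedBlock M T B' B ∧
      (∃ χ ∈ B, ∃ θ ∈ b, classInner (fun n : N => (χ : G → ℂ) n) (θ : N → ℂ) ≠ 0) ∧
      (∀ ψ ∈ B', IsIrrCharacter G (indFun T (ψ : T → ℂ))) ∧
      ∀ χ : IrrCharacter G, χ ∈ B ↔ ∃ ψ ∈ B', (χ : G → ℂ) = indFun T (ψ : T → ℂ) := by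
  obtain ⟨ψ₁, hψ₁, θ₁, hθ₁, hne⟩ := hcov
  obtain ⟨ξ₀, rfl⟩ := hB'
  have hov₁ := frOver_of_constituent N T hNT b hst ψ₁ ⟨θ₁, hθ₁, hne⟩
  have hBeq : blockOf M ξ₀.1 = blockOf M ψ₁.1 := (blockOf_eq_of_mem hM hψ₁).symm
  rw [hBeq]
  have hov : ∀ ψ ∈ blockOf M ψ₁.1, FROver N T hNT b ψ.1 := fun ψ hψ =>
    frOver_of_sameBlock N T hNT b hM hst hbR ψ₁ ψ hov₁ hψ
  let χ₁ : IrrCharacter G := ⟨indFun T ψ₁.1, fr_irr N T hNT b hst horth ψ₁ hov₁⟩
  refine ⟨blockOf M χ₁.1, fr_induced T hM ψ₁ χ₁ rfl, ?_, ?_, ?_⟩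
  · exact ⟨χ₁, mem_blockOf_self hM χ₁,
      fr_cover N T hNT b hM hst horth hbR ψ₁ hov₁ χ₁ (sameBlock_refl hM _)⟩
  · intro ψ hψ
    exact fr_irr N T hNT b hst horth ψ (hov ψ hψ)
  · intro χ
    constructor
    · intro hχ
      have hχ' : SameBlock M (indFun T ψ₁.1) χ.1 := hχ
      obtain ⟨ψ, hψov, hψχ⟩ := fr_surj N T hNT b hst horth χ
        (fr_cover N T hNT b hM hst horth hbR ψ₁ hov₁ χ hχ')
      refine ⟨ψ, ?_, hψχ⟩
      rw [hψχ] at hχ'
      exact fr_inj N T hNT b hM hst horth hbR ψ₁ ψ hov₁ hψov hχ'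
    · rintro ⟨ψ, hψ, hψχ⟩
      show SameBlock M (indFun T ψ₁.1) χ.1
      rw [hψχ]
      exact sameBlock_indFun T hM ψ₁ ψ hψ

/-- **Fong–Reynolds, part (ii).** -/
theorem fr_part_two (hM : M.IsPrime) (hst : FRStab N T b) (horth : FROrth N T b)
    (hbR : ∀ n : N, MemLocalRing M (blockCoeff b n))
    (B'₁ B'₂ : Set (IrrCharacter T)) (hB'₁ : IsPBlock M B'₁) (hB'₂ : IsPBlock M B'₂)
    (hcov₁ : ∃ ψ ∈ B'₁, ∃ θ ∈ b,
      classInner (fun n : N => (ψ : T → ℂ) (Subgroup.inclusion hNT n)) (θ : N → ℂ) ≠ 0)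
    (hcov₂ : ∃ ψ ∈ B'₂, ∃ θ ∈ b,
      classInner (fun n : N => (ψ : T → ℂ) (Subgroup.inclusion hNT n)) (θ : N → ℂ) ≠ 0)
    (B : Set (IrrCharacter G)) (h₁ : IsInducedBlock M T B'₁ B) (h₂ : IsInducedBlock M T B'₂ B) :
    B'₁ = B'₂ := by
  obtain ⟨ψ₁, hψ₁, θ₁, hθ₁, hne₁⟩ := hcov₁
  obtain ⟨ψ₂, hψ₂, θ₂, hθ₂, hne₂⟩ := hcov₂
  obtain ⟨ξ₁, rfl⟩ := hB'₁
  obtain ⟨ξ₂, rfl⟩ := hB'₂
  have hov₁ := frOver_of_constituent N T hNT b hst ψ₁ ⟨θ₁, hθ₁, hne₁⟩
  have hov₂ := frOver_of_constituent N T hNT b hst ψ₂ ⟨θ₂, hθ₂, hne₂⟩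
  obtain ⟨_, ⟨χ₀, rfl⟩, hc₁⟩ := h₁
  obtain ⟨_, _, hc₂⟩ := h₂
  have hχ₀ := mem_blockOf_self hM χ₀
  have hsame : SameBlock M (indFun T ψ₁.1) (indFun T ψ₂.1) := by
    intro g
    rw [← Cfsg.Agent.S0932.inducedCentralChar_eq, ← Cfsg.Agent.S0932.inducedCentralChar_eq]
    have e1 := hc₁ ψ₁ hψ₁ χ₀ hχ₀ g
    have e2 := hc₂ ψ₂ hψ₂ χ₀ hχ₀ g
    have e3 := memLocalIdeal_sub hM e1 e2
    convert e3 using 1
    ring
  have hs := fr_inj N T hNT b hM hst horth hbR ψ₁ ψ₂ hov₁ hov₂ hsame
  rw [← blockOf_eq_of_mem hM hψ₁, ← blockOf_eq_of_mem hM hψ₂]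
  exact (blockOf_eq_of_sameBlock hM hs).symm

/-- **Fong–Reynolds, part (iii).** -/
theorem fr_part_three (hM : M.IsPrime) (hst : FRStab N T b) (horth : FROrth N T b)
    (B : Set (IrrCharacter G)) (hB : IsPBlock M B)
    (hcov : ∃ χ ∈ B, ∃ θ ∈ b, classInner (fun n : N => (χ : G → ℂ) n) (θ : N → ℂ) ≠ 0) :
    ∃ B' : Set (IrrCharacter T), IsPBlock M B' ∧
      (∃ ψ ∈ B', ∃ θ ∈ b,
        classInner (fun n : N => (ψ : T → ℂ) (Subgroup.inclusion hNT n)) (θ : N → ℂ) ≠ 0) ∧
      IsInducedBlock M T B' B := by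
  obtain ⟨χ, hχ, θ, hθ, hne⟩ := hcov
  obtain ⟨χ₀, rfl⟩ := hB
  obtain ⟨ψ, hψov, hψχ⟩ := fr_surj N T hNT b hst horth χ ⟨θ, hθ, hne⟩
  refine ⟨blockOf M ψ.1, ⟨ψ, rfl⟩, ⟨ψ, mem_blockOf_self hM ψ, ?_⟩, ?_⟩
  · exact constituent_of_frOver N T hNT b ψ hψov
  · rw [← blockOf_eq_of_mem hM hχ]
    exact fr_induced T hM ψ χ hψχ

end Main

end FR

end Cfsg.Agent.H20
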