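import Mathlib
import Cfsg.Prelude.Def_Blocks
import Cfsg.Agent.H20.FongReynolds
import Cfsg.Agent.H20.DefectOrder
import Cfsg.Agent.S0917

/-!
# helper20: Fong–Reynolds, defect groups and heights

* `isInducedBlock_unique` : a block of a subgroup induces at most one block.
* `charDegree_indFun` : the degree of an induced irreducible character.
* `sInf_degree_induced` : least `p`-parts of degrees in a block consisting of the characters
  induced from another block.
* `fr_height`, `fr_defect`, `fr_defectGroup` : heights, defects and defect groups under the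
  Fong–Reynolds correspondence.
-/

set_option autoImplicit false
set_option linter.style.haveILetI false
set_option linter.unusedSectionVars false

namespace Cfsg.Agent.H20

open Cfsg Cfsg.Agent.H4 Cfsg.Agent.H80

open scoped BigOperators ComplexConjugate

universe u

section FR2

variable {G : Type u} [Group G] [Fintype G] {M : Ideal AlgInt}

/-- A block of a subgroup induces at most one block. -/
theorem isInducedBlock_unique (hM : M.IsPrime) {H : Subgroup G}
    {b : Set (IrrCharacter H)} {B B' : Set (IrrCharacter G)}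
    (h : IsInducedBlock M H b B) (h' : IsInducedBlock M H b B') : B = B' := by
  obtain ⟨⟨ξ₀, hb⟩, ⟨χ₀, hB⟩, hind⟩ := h
  obtain ⟨_, ⟨χ₀', hB'⟩, hind'⟩ := h'
  have hξ : ξ₀ ∈ b := by rw [hb]; exact mem_blockOf_self hM ξ₀
  have hχ : χ₀ ∈ B := by rw [hB]; exact mem_blockOf_self hM χ₀
  have hχ' : χ₀' ∈ B' := by rw [hB']; exact mem_blockOf_self hM χ₀'
  have hsame : SameBlock M (χ₀ : G → ℂ) (χ₀' : G → ℂ) := by
    intro g
    have h1 := hind ξ₀ hξ χ₀ hχ g
    have h2 := hind' ξ₀ hξ χ₀' hχ' g
    have h3 := memLocalIdeal_sub hM h2 h1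
    have h4 : inducedCentralChar H (ξ₀ : H → ℂ) g - centralChar (χ₀' : G → ℂ) g -
        (inducedCentralChar H (ξ₀ : H → ℂ) g - centralChar (χ₀ : G → ℂ) g) =
        centralChar (χ₀ : G → ℂ) g - centralChar (χ₀' : G → ℂ) g := by ring
    rwa [h4] at h3
  rw [hB, hB']
  exact (blockOf_eq_of_sameBlock hM hsame).symm

variable (T : Subgroup G) [Fintype T]

/-- The degree of a function induced from an irreducible character. -/
theorem charDegree_indFun (ψ : IrrCharacter T) :
    charDegree (indFun T ψ.1) = T.index * charDegree ψ.1 := by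
  have hT0 : (Nat.card T : ℂ) ≠ 0 := by exact_mod_cast (Nat.card_pos (α := T)).ne'
  have hidx : (T.index : ℂ) * (Nat.card T : ℂ) = (Nat.card G : ℂ) := by
    exact_mod_cast T.index_mul_card
  obtain ⟨hd, _⟩ := Cfsg.Agent.H81.irr_charDegree ψ
  have h : indFun T ψ.1 1 = ((T.index * charDegree ψ.1 : ℕ) : ℂ) := by
    rw [indFun_one, hd, ← hidx]
    push_cast
    field_simp
  unfold charDegree at h ⊢
  rw [h, Complex.natCast_re, Nat.floor_natCast]

variable {p : ℕ} [Fact p.Prime]

/-- The `p`-part of the degree of an induced irreducible character. -/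
theorem factorization_charDegree_indFun (ψ : IrrCharacter T) :
    (charDegree (indFun T ψ.1)).factorization p
      = T.index.factorization p + (charDegree ψ.1).factorization p := by
  obtain ⟨_, hd0⟩ := Cfsg.Agent.H81.irr_charDegree ψ
  rw [charDegree_indFun, Nat.factorization_mul Subgroup.index_ne_zero_of_finite hd0.ne']
  rfl

/-- Least `p`-parts of degrees when `B` consists of the characters induced from `B'`. -/
theorem sInf_degree_induced (B' : Set (IrrCharacter T)) (B : Set (IrrCharacter G))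
    (hne : B'.Nonempty)
    (hirr : ∀ ψ ∈ B', IsIrrCharacter G (indFun T (ψ : T → ℂ)))
    (hiff : ∀ χ : IrrCharacter G, χ ∈ B ↔ ∃ ψ ∈ B', (χ : G → ℂ) = indFun T (ψ : T → ℂ)) :
    sInf ((fun χ : IrrCharacter G => (charDegree (χ : G → ℂ)).factorization p) '' B)
      = T.index.factorization p
        + sInf ((fun ψ : IrrCharacter T => (charDegree (ψ : T → ℂ)).factorization p) '' B') := by
  have hne' : ((fun ψ : IrrCharacter T => (charDegree (ψ : T → ℂ)).factorization p) '' B').Nonempty :=
    hne.image _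
  have hBne : B.Nonempty := by
    obtain ⟨ψ, hψ⟩ := hne
    exact ⟨⟨indFun T ψ.1, hirr ψ hψ⟩, (hiff _).mpr ⟨ψ, hψ, rfl⟩⟩
  have hneB : ((fun χ : IrrCharacter G => (charDegree (χ : G → ℂ)).factorization p) '' B).Nonempty :=
    hBne.image _
  apply le_antisymm
  · obtain ⟨ψ, hψ, hψe⟩ := Nat.sInf_mem hne'
    rw [← hψe]
    apply Nat.sInf_le
    refine ⟨⟨indFun T ψ.1, hirr ψ hψ⟩, (hiff _).mpr ⟨ψ, hψ, rfl⟩, ?_⟩
    exact factorization_charDegree_indFun T ψ
  · obtain ⟨χ, hχ, hχe⟩ := Nat.sInf_mem hneB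
    obtain ⟨ψ, hψ, hψχ⟩ := (hiff χ).mp hχ
    rw [← hχe]
    show _ ≤ (charDegree (χ : G → ℂ)).factorization p
    rw [hψχ, factorization_charDegree_indFun T ψ]
    exact Nat.add_le_add_left (Nat.sInf_le (Set.mem_image_of_mem _ hψ)) _

/-- Heights are preserved. -/
theorem fr_height (B' : Set (IrrCharacter T)) (B : Set (IrrCharacter G))
    (hirr : ∀ ψ ∈ B', IsIrrCharacter G (indFun T (ψ : T → ℂ)))
    (hiff : ∀ χ : IrrCharacter G, χ ∈ B ↔ ∃ ψ ∈ B', (χ : G → ℂ) = indFun T (ψ : T → ℂ))
    (ψ : IrrCharacter T) (hψ : ψ ∈ B') :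
    blockHeight p B (indFun T ψ.1) = blockHeight p B' ψ.1 := by
  unfold blockHeight
  rw [sInf_degree_induced T B' B ⟨ψ, hψ⟩ hirr hiff, factorization_charDegree_indFun T ψ]
  omega

/-- Defects are preserved. -/
theorem fr_defect (B' : Set (IrrCharacter T)) (B : Set (IrrCharacter G)) (hne : B'.Nonempty)
    (hirr : ∀ ψ ∈ B', IsIrrCharacter G (indFun T (ψ : T → ℂ)))
    (hiff : ∀ χ : IrrCharacter G, χ ∈ B ↔ ∃ ψ ∈ B', (χ : G → ℂ) = indFun T (ψ : T → ℂ)) :
    blockDefect p B = blockDefect p B' := by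
  unfold blockDefect
  rw [sInf_degree_induced T B' B hne hirr hiff]
  have h : (Nat.card G).factorization p
      = T.index.factorization p + (Nat.card T).factorization p := by
    rw [← T.index_mul_card,
      Nat.factorization_mul Subgroup.index_ne_zero_of_finite Nat.card_pos.ne']
    rfl
  rw [h]
  omega

/-- Defect groups are preserved. -/
theorem fr_defectGroup (hM : IsPModular p M) (B' : Set (IrrCharacter T))
    (B : Set (IrrCharacter G)) (hind : IsInducedBlock M T B' B)
    (hirr : ∀ ψ ∈ B', IsIrrCharacter G (indFun T (ψ : T → ℂ)))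
    (hiff : ∀ χ : IrrCharacter G, χ ∈ B ↔ ∃ ψ ∈ B', (χ : G → ℂ) = indFun T (ψ : T → ℂ))
    (D : Subgroup T) (hD : IsDefectGroup p M B' D) : IsDefectGroup p M B (D.map T.subtype) := by
  have hMp := isPrime_of_isPModular hM
  obtain ⟨E, hE, hDE⟩ := Cfsg.Agent.S0917.result p M hM T B' hind.1 B hind.2.1 hind D hD
  obtain ⟨ξ₀, hB'⟩ := hind.1
  obtain ⟨χ₀, hB⟩ := hind.2.1
  have hne : B'.Nonempty := ⟨ξ₀, by rw [hB']; exact mem_blockOf_self hMp ξ₀⟩
  have hdef := fr_defect (p := p) T B' B hne hirr hiff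
  have cE : Nat.card E = p ^ blockDefect p B := by
    rw [hB] at hE ⊢
    exact card_defectGroup hM χ₀ E hE
  have cD : Nat.card D = p ^ blockDefect p B' := by
    rw [hB'] at hD ⊢
    exact card_defectGroup hM ξ₀ D hD
  have cD' : Nat.card (D.map T.subtype) = Nat.card E := by
    rw [Subgroup.card_map_of_injective T.subtype_injective, cD, cE, hdef]
  have heq : D.map T.subtype = E := Subgroup.eq_of_le_of_card_ge hDE cD'.ge
  rw [heq]
  exact hE

end FR2

end Cfsg.Agent.H20
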