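import Mathlib
import Cfsg.Prelude.Def_Blocks
import Cfsg.Agent.H20.MinMax
import Cfsg.Agent.H80.Brauer
import Cfsg.Agent.H79.PrincipalCover

/-!
# helper20: nilpotency of graded ideals of the group algebra over a normal subgroup

Let `N` be a normal subgroup of `G`, `R` the local ring at `M` and `J` its maximal ideal.  The
group algebra is graded by `G ⧸ N`.

* `graded_nil` : an `N`-invariant idempotent `e` of `R[G]` such that, for every `N`-invariant
  `y ∈ R[G]`, all central characters of `N` send the `N`-part of `y e` into `J`, has all its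
  coefficients in `J`.

The proof: a product of `|G : N|` homogeneous components of `e` contains a factor of degree `1`,
which lies in the ideal `𝔑` of central elements of `R[N]` with all central characters in `J`; and a
product of `|Irr(N)|` elements of `𝔑` has all coefficients in `J`.
-/

set_option autoImplicit false
set_option linter.style.haveILetI false
set_option linter.unusedSectionVars false

namespace Cfsg.Agent.H20

open Cfsg Cfsg.Agent.H4 Cfsg.Agent.H80

open scoped BigOperators ComplexConjugate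

universe u

section GradedNil

variable {G : Type u} [Group G] [Fintype G] {M : Ideal AlgInt}
  (N : Subgroup G) [hN : N.Normal] [Fintype N]

/-- Central elements commute with everything. -/
theorem cf_mul_comm {H : Type u} [Group H] [Fintype H] {z : MonoidAlgebra ℂ H} (hz : IsCF z)
    (a : MonoidAlgebra ℂ H) : z * a = a * z := by
  conv_lhs => rw [eq_sum_single a]
  conv_rhs => rw [eq_sum_single a]
  rw [Finset.mul_sum, Finset.sum_mul]
  apply Finset.sum_congr rfl
  intro g _
  have e : MonoidAlgebra.single g (a.coeff g) = a.coeff g • MonoidAlgebra.single g (1 : ℂ) := by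
    rw [MonoidAlgebra.smul_single, smul_eq_mul, mul_one]
  rw [e, mul_smul_comm, smul_mul_assoc, isCF_comm_single hz]

/-! ### Homogeneous elements and components -/

/-- `a` is supported on the coset `c` of `N`. -/
def IsHom (c : G ⧸ N) (a : MonoidAlgebra ℂ G) : Prop :=
  ∀ g, a.coeff g ≠ 0 → (g : G ⧸ N) = c

theorem isHom_mul {c d : G ⧸ N} {a a' : MonoidAlgebra ℂ G} (ha : IsHom N c a)
    (ha' : IsHom N d a') : IsHom N (c * d) (a * a') := by
  intro g hg
  rw [coeff_mul_fintype] at hg
  obtain ⟨x, _, hx⟩ := Finset.exists_ne_zero_of_sum_ne_zero hg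
  have h1 := ha x (left_ne_zero_of_mul hx)
  have h2 := ha' _ (right_ne_zero_of_mul hx)
  rw [← h1, ← h2, ← QuotientGroup.mk_mul, mul_inv_cancel_left]

theorem isHom_one : IsHom N 1 (1 : MonoidAlgebra ℂ G) := by
  classical
  intro g hg
  rw [MonoidAlgebra.one_def, MonoidAlgebra.coeff_single, Finsupp.single_apply] at hg
  by_cases h : (1 : G) = g
  · rw [← h]; rfl
  · rw [if_neg h] at hg; exact absurd rfl hg

open scoped Classical in
/-- The component of `a` on the coset `c`. -/
noncomputable def comp (c : G ⧸ N) (a : MonoidAlgebra ℂ G) : MonoidAlgebra ℂ G :=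
  ∑ g : G, MonoidAlgebra.single g (if (g : G ⧸ N) = c then a.coeff g else 0)

open scoped Classical in
theorem coeff_comp (c : G ⧸ N) (a : MonoidAlgebra ℂ G) (g : G) :
    (comp N c a).coeff g = if (g : G ⧸ N) = c then a.coeff g else 0 := by
  unfold comp
  rw [MonoidAlgebra.coeff_sum, Finsupp.finsetSum_apply]
  simp only [MonoidAlgebra.coeff_single, Finsupp.single_apply]
  rw [Finset.sum_ite_eq']
  simp

theorem isHom_comp (c : G ⧸ N) (a : MonoidAlgebra ℂ G) : IsHom N c (comp N c a) := by
  classical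
  intro g hg
  rw [coeff_comp] at hg
  by_contra h
  rw [if_neg h] at hg
  exact hg rfl

theorem comp_mem (hM : M.IsPrime) (c : G ⧸ N) {a : MonoidAlgebra ℂ G}
    (ha : a ∈ invSubring N (localRing M hM)) : comp N c a ∈ invSubring N (localRing M hM) := by
  classical
  refine ⟨fun h hh g => ?_, fun g => ?_⟩
  · rw [coeff_comp, coeff_comp, ha.1 h hh g]
    have e : ((h * g * h⁻¹ : G) : G ⧸ N) = (g : G ⧸ N) := by
      rw [QuotientGroup.mk_mul, QuotientGroup.mk_mul, QuotientGroup.mk_inv,
        (QuotientGroup.eq_one_iff h).mpr hh]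
      simp
    rw [e]
  · rw [coeff_comp]
    split_ifs
    · exact ha.2 g
    · exact Subring.zero_mem _

theorem sum_comp [Fintype (G ⧸ N)] (a : MonoidAlgebra ℂ G) : ∑ c : G ⧸ N, comp N c a = a := by
  classical
  apply MonoidAlgebra.coeff_injective
  ext g
  rw [MonoidAlgebra.coeff_sum, Finsupp.finsetSum_apply]
  simp only [coeff_comp]
  rw [Finset.sum_ite_eq]
  simp

/-- An element supported on `N` is the extension by zero of its truncation. -/
theorem eq_extZero_truncTo {a : MonoidAlgebra ℂ G} (ha : IsHom N 1 a) :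
    a = extZero N (truncTo N a) := by
  apply MonoidAlgebra.coeff_injective
  ext g
  by_cases hg : g ∈ N
  · have := coeff_extZero_coe N (truncTo N a) ⟨g, hg⟩
    rw [coeff_truncTo] at this
    exact this.symm
  · rw [coeff_extZero_of_not_mem N _ hg]
    by_contra h
    exact hg ((QuotientGroup.eq_one_iff g).mp (ha g h))

/-! ### Conjugates of central elements of `ℂ[N]` -/

/-- The conjugate `x z x⁻¹` of an element of `ℂ[N]`. -/
noncomputable def conjElt (x : G) (z : MonoidAlgebra ℂ N) : MonoidAlgebra ℂ N :=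
  ∑ n : N, MonoidAlgebra.single n (z.coeff ((MulAut.conjNormal x : N ≃* N).symm n))

theorem coeff_conjElt (x : G) (z : MonoidAlgebra ℂ N) (n : N) :
    (conjElt N x z).coeff n = z.coeff ((MulAut.conjNormal x : N ≃* N).symm n) := by
  classical
  unfold conjElt
  rw [MonoidAlgebra.coeff_sum, Finsupp.finsetSum_apply]
  simp only [MonoidAlgebra.coeff_single, Finsupp.single_apply]
  rw [Finset.sum_ite_eq']
  simp

theorem isCF_conjElt (x : G) {z : MonoidAlgebra ℂ N} (hz : IsCF z) : IsCF (conjElt N x z) := by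
  intro n m
  rw [coeff_conjElt, coeff_conjElt]
  have e : (MulAut.conjNormal x : N ≃* N).symm (m * n * m⁻¹)
      = (MulAut.conjNormal x : N ≃* N).symm m * (MulAut.conjNormal x : N ≃* N).symm n
        * ((MulAut.conjNormal x : N ≃* N).symm m)⁻¹ := by
    rw [map_mul, map_mul, map_inv]
  rw [e]
  exact hz _ _

theorem omega_conjElt (x : G) (z : MonoidAlgebra ℂ N) (θ : IrrCharacter N) :
    omega θ.1 (conjElt N x z) = omega (Cfsg.Agent.H79.conjIrr N x θ).1 z := by
  unfold omega
  rw [Cfsg.Agent.H79.conjIrr_one_apply]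
  congr 1
  rw [← Equiv.sum_comp (MulAut.conjNormal x : N ≃* N).toEquiv]
  apply Finset.sum_congr rfl
  intro m _
  rw [coeff_conjElt]
  have e1 : (MulAut.conjNormal x : N ≃* N).symm ((MulAut.conjNormal x : N ≃* N).toEquiv m) = m :=
    (MulAut.conjNormal x : N ≃* N).symm_apply_apply m
  rw [e1, Cfsg.Agent.H79.conjIrr_apply]
  congr 2

/-- Moving a central element of `ℂ[N]` across a homogeneous element. -/
theorem hom_mul_extZero {d : G ⧸ N} {u : MonoidAlgebra ℂ G} (hu : IsHom N d u)
    {z : MonoidAlgebra ℂ N} (hz : IsCF z) :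
    u * extZero N z = extZero N (conjElt N (Quotient.out d : G) z) * u := by
  classical
  apply MonoidAlgebra.coeff_injective
  ext h
  rw [coeff_mul_fintype, coeff_mul_fintype]
  rw [← Equiv.sum_comp ((Equiv.inv G).trans (Equiv.mulLeft h))
    (fun y => (extZero N (conjElt N (Quotient.out d : G) z)).coeff y * u.coeff (y⁻¹ * h))]
  apply Finset.sum_congr rfl
  intro g _
  have e1 : ((Equiv.inv G).trans (Equiv.mulLeft h)) g = h * g⁻¹ := rfl
  simp only [e1]
  have e2 : (h * g⁻¹)⁻¹ * h = g := by group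
  rw [e2]
  by_cases hug : u.coeff g = 0
  · rw [hug, zero_mul, mul_zero]
  · have hgd : (g : G ⧸ N) = d := hu g hug
    have hx₀ : ((Quotient.out d : G) : G ⧸ N) = d := QuotientGroup.out_eq' d
    have hn : (Quotient.out d : G)⁻¹ * g ∈ N := by
      rw [← QuotientGroup.eq, hx₀, hgd]
    rw [mul_comm (u.coeff g)]
    congr 1
    by_cases hm : g⁻¹ * h ∈ N
    · have hm' : h * g⁻¹ ∈ N := by
        have := hN.conj_mem _ hm g
        simpa [mul_assoc] using this
      have c1 : (extZero N z).coeff (g⁻¹ * h) = z.coeff ⟨g⁻¹ * h, hm⟩ :=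
        coeff_extZero_coe N z ⟨g⁻¹ * h, hm⟩
      have c2 : (extZero N (conjElt N (Quotient.out d : G) z)).coeff (h * g⁻¹)
          = (conjElt N (Quotient.out d : G) z).coeff ⟨h * g⁻¹, hm'⟩ :=
        coeff_extZero_coe N _ ⟨h * g⁻¹, hm'⟩
      rw [c1, c2, coeff_conjElt]
      have e3 : (MulAut.conjNormal (Quotient.out d : G) : N ≃* N).symm ⟨h * g⁻¹, hm'⟩
          = ⟨(Quotient.out d : G)⁻¹ * g, hn⟩ * ⟨g⁻¹ * h, hm⟩
            * ⟨(Quotient.out d : G)⁻¹ * g, hn⟩⁻¹ := by
        apply Subtype.ext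
        rw [MulAut.conjNormal_symm_apply]
        push_cast
        group
      rw [e3, hz]
    · have hm' : h * g⁻¹ ∉ N := by
        intro hcon
        apply hm
        have := hN.conj_mem _ hcon g⁻¹
        simpa [mul_assoc] using this
      rw [coeff_extZero_of_not_mem N _ hm, coeff_extZero_of_not_mem N _ hm']

/-! ### The ideal of central elements with all central characters in `J` -/

/-- Central elements of `R[N]` all of whose central characters lie in the local ideal. -/
def NilSet (hM : M.IsPrime) : Set (MonoidAlgebra ℂ N) :=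
  {z | z ∈ cfSubring N (localRing M hM) ∧ ∀ θ : IrrCharacter N, MemLocalIdeal M (omega θ.1 z)}

theorem conjElt_mem_nilSet (hM : M.IsPrime) (x : G) {z : MonoidAlgebra ℂ N}
    (hz : z ∈ NilSet N hM) : conjElt N x z ∈ NilSet N hM := by
  refine ⟨⟨isCF_conjElt N x hz.1.1, fun n => ?_⟩, fun θ => ?_⟩
  · rw [coeff_conjElt]; exact hz.1.2 _
  · rw [omega_conjElt]; exact hz.2 _

/-- Products of `k` elements of `NilSet` (times a central element of `R[N]`). -/
def Npow (hM : M.IsPrime) : ℕ → MonoidAlgebra ℂ N → Prop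
  | 0, z => z ∈ cfSubring N (localRing M hM)
  | (k + 1), z => ∃ z₁ ∈ NilSet N hM, ∃ z₂, Npow hM k z₂ ∧ z = z₁ * z₂

theorem npow_mem (hM : M.IsPrime) : ∀ (k : ℕ) (z : MonoidAlgebra ℂ N), Npow N hM k z →
    z ∈ cfSubring N (localRing M hM)
  | 0, _, h => h
  | (k + 1), _, ⟨z₁, hz₁, z₂, hz₂, hz⟩ => by
    rw [hz]; exact Subring.mul_mem _ hz₁.1 (npow_mem hM k z₂ hz₂)

/-- A product of at least `|T|` elements of `NilSet` is congruent, modulo coefficients in `J`, to
an element killed by the central characters in `T`. -/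
theorem exists_coeffIdeal_of_npow (hM : M.IsPrime) (T : Finset (IrrCharacter N)) :
    ∀ (k : ℕ), T.card ≤ k → ∀ z, Npow N hM k z →
      ∃ r : MonoidAlgebra ℂ N, IsCF r ∧ CoeffIdeal M r ∧ ∀ θ ∈ T, omega θ.1 (z + r) = 0 := by
  classical
  induction T using Finset.induction_on with
  | empty =>
    intro k _ z _
    exact ⟨0, isCF_zero, coeffIdeal_zero hM, fun θ hθ => absurd hθ (Finset.notMem_empty θ)⟩
  | insert ξ T hξ ih =>
    intro k hk z hz
    rw [Finset.card_insert_of_notMem hξ] at hk
    obtain ⟨k', rfl⟩ : ∃ k', k = k' + 1 := ⟨k - 1, by omega⟩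
    obtain ⟨z₁, hz₁, z₂, hz₂, rfl⟩ := hz
    obtain ⟨r₂, hr₂cf, hr₂, hr₂ω⟩ := ih k' (by omega) z₂ hz₂
    have hz₂m := npow_mem N hM k' z₂ hz₂
    obtain ⟨c, hc⟩ : ∃ c : ℂ, c = omega ξ.1 z₁ := ⟨_, rfl⟩
    have hcI : MemLocalIdeal M c := hc ▸ hz₁.2 ξ
    refine ⟨z₁ * r₂ - c • z₂ - c • r₂, ?_, ?_, ?_⟩
    · have e : z₁ * r₂ - c • z₂ - c • r₂ = z₁ * r₂ + -(c • z₂) + -(c • r₂) := by abel
      rw [e]
      exact isCF_add (isCF_add (isCF_mul hz₁.1.1 hr₂cf) (isCF_neg (isCF_smul c hz₂m.1)))
        (isCF_neg (isCF_smul c hr₂cf))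
    · exact ((CoeffIdeal.mul_left hM hz₁.1 hr₂).sub hM (coeffIdeal_smul_of_mem hM hcI hz₂m)).sub hM
        (CoeffIdeal.smul hM (MemLocalIdeal.memLocalRing hcI) hr₂)
    · intro θ hθ
      have e : z₁ * z₂ + (z₁ * r₂ - c • z₂ - c • r₂)
          = (z₁ - c • (1 : MonoidAlgebra ℂ N)) * (z₂ + r₂) := by
        simp only [sub_mul, mul_add, smul_mul_assoc, one_mul]
        abel
      have hfac : IsCF (z₁ - c • (1 : MonoidAlgebra ℂ N)) := by
        rw [sub_eq_add_neg]
        exact isCF_add hz₁.1.1 (isCF_neg (isCF_smul c isCF_one))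
      rw [e, omega_mul θ hfac, omega_sub, omega_smul, omega_one_irr, mul_one]
      rcases Finset.mem_insert.mp hθ with rfl | hθT
      · rw [hc, sub_self, zero_mul]
      · rw [hr₂ω θ hθT, mul_zero]

/-- A product of at least `|Irr(N)|` elements of `NilSet` has all coefficients in `J`. -/
theorem coeffIdeal_of_npow (hM : M.IsPrime) (k : ℕ)
    (hk : Nat.card (IrrCharacter N) ≤ k) (z : MonoidAlgebra ℂ N) (hz : Npow N hM k z) :
    CoeffIdeal M z := by
  classical
  letI := fintypeIrr N
  have hcard : (Finset.univ : Finset (IrrCharacter N)).card ≤ k := by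
    rw [Finset.card_univ, ← Nat.card_eq_fintype_card]; exact hk
  obtain ⟨r, hrcf, hr, hrω⟩ := exists_coeffIdeal_of_npow N hM Finset.univ k hcard z hz
  have hzero : z + r = 0 := by
    apply eq_of_omega_eq (isCF_add (npow_mem N hM k z hz).1 hrcf) isCF_zero
    intro θ
    rw [hrω θ (Finset.mem_univ θ), omega_zero]
  have e : z = -r := eq_neg_of_add_eq_zero_left hzero
  rw [e]
  exact hr.neg

/-! ### The state machine -/

/-- `u` is a homogeneous invariant element of degree `d` which, for every `e' ∈ D`, factors as a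
homogeneous element of degree `e'` times an invariant homogeneous element. -/
def NFact (hM : M.IsPrime) (u : MonoidAlgebra ℂ G) (d : G ⧸ N) (D : Finset (G ⧸ N)) : Prop :=
  u ∈ invSubring N (localRing M hM) ∧ IsHom N d u ∧
    ∀ e' ∈ D, ∃ u₁ v : MonoidAlgebra ℂ G, u = u₁ * v ∧ u₁ ∈ invSubring N (localRing M hM) ∧
      IsHom N e' u₁ ∧ v ∈ invSubring N (localRing M hM) ∧ IsHom N (e'⁻¹ * d) v

/-- `y` is a product of `k` elements of `NilSet` and an element with factorization data `D`, with
`φ ≤ k |G : N| + |D|`. -/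
def NState (hM : M.IsPrime) (φ : ℕ) (y : MonoidAlgebra ℂ G) : Prop :=
  ∃ (k : ℕ) (z : MonoidAlgebra ℂ N) (u : MonoidAlgebra ℂ G) (d : G ⧸ N) (D : Finset (G ⧸ N)),
    y = extZero N z * u ∧ Npow N hM k z ∧ NFact N hM u d D ∧
      φ ≤ k * Nat.card (G ⧸ N) + D.card

/-- The product of an invariant homogeneous element of degree `c⁻¹` with the `c`-component of `e`
lies in `NilSet`. -/
theorem mul_comp_eq (hM : M.IsPrime) {e : MonoidAlgebra ℂ G}
    (he : e ∈ invSubring N (localRing M hM))
    (hnil : ∀ y ∈ invSubring N (localRing M hM), ∀ θ : IrrCharacter N,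
      MemLocalIdeal M (omega θ.1 (truncTo N (y * e))))
    {c : G ⧸ N} {v : MonoidAlgebra ℂ G} (hvE : v ∈ invSubring N (localRing M hM))
    (hvH : IsHom N c⁻¹ v) :
    ∃ z₀ ∈ NilSet N hM, v * comp N c e = extZero N z₀ := by
  classical
  have hom1 : IsHom N 1 (v * comp N c e) := by
    have := isHom_mul N hvH (isHom_comp N c e)
    rwa [inv_mul_cancel] at this
  have eq2 : truncTo N (v * comp N c e) = truncTo N (v * e) := by
    apply truncTo_ext
    intro n
    rw [coeff_mul_fintype, coeff_mul_fintype]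
    apply Finset.sum_congr rfl
    intro x _
    by_cases hx : v.coeff x = 0
    · rw [hx, zero_mul, zero_mul]
    · have h1 : (x : G ⧸ N) = c⁻¹ := hvH x hx
      have h2 : ((x⁻¹ * (n : G) : G) : G ⧸ N) = c := by
        rw [QuotientGroup.mk_mul, QuotientGroup.mk_inv, h1, inv_inv,
          (QuotientGroup.eq_one_iff (n : G)).mpr n.2, mul_one]
      rw [coeff_comp, if_pos h2]
  refine ⟨truncTo N (v * e), ⟨truncTo_mem_cfSubring (Subring.mul_mem _ hvE he), hnil v hvE⟩, ?_⟩
  rw [← eq2]
  exact eq_extZero_truncTo N hom1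

theorem nstate_one (hM : M.IsPrime) : NState N hM 1 (1 : MonoidAlgebra ℂ G) := by
  classical
  refine ⟨0, 1, 1, 1, {1}, ?_, Subring.one_mem _, ⟨Subring.one_mem _, isHom_one N, ?_⟩, ?_⟩
  · rw [extZero_one, mul_one]
  · intro e' he'
    rw [Finset.mem_singleton] at he'
    subst he'
    exact ⟨1, 1, (mul_one _).symm, Subring.one_mem _, isHom_one N, Subring.one_mem _,
      by rw [inv_mul_cancel]; exact isHom_one N⟩
  · rw [Finset.card_singleton]; omega

theorem nstate_step (hM : M.IsPrime) {e : MonoidAlgebra ℂ G}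
    (he : e ∈ invSubring N (localRing M hM))
    (hnil : ∀ y ∈ invSubring N (localRing M hM), ∀ θ : IrrCharacter N,
      MemLocalIdeal M (omega θ.1 (truncTo N (y * e))))
    {φ : ℕ} {y : MonoidAlgebra ℂ G} (hy : NState N hM φ y) (c : G ⧸ N) :
    NState N hM (φ + 1) (y * comp N c e) := by
  classical
  letI : Fintype (G ⧸ N) := Fintype.ofFinite _
  obtain ⟨k, z, u, d, D, rfl, hz, ⟨huE, huH, hfac⟩, hφ⟩ := hy
  have hxE : comp N c e ∈ invSubring N (localRing M hM) := comp_mem N hM c he
  have hxH : IsHom N c (comp N c e) := isHom_comp N c e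
  have hDcard : D.card ≤ Nat.card (G ⧸ N) := by
    rw [Nat.card_eq_fintype_card]; exact Finset.card_le_univ D
  by_cases hmem : d * c ∈ D
  · obtain ⟨u₁, v, rfl, hu₁E, hu₁H, hvE, hvH⟩ := hfac _ hmem
    have hvH' : IsHom N c⁻¹ v := by
      have e1 : (d * c)⁻¹ * d = c⁻¹ := by group
      rwa [e1] at hvH
    obtain ⟨z₀, hz₀, hvx⟩ := mul_comp_eq N hM he hnil hvE hvH'
    have hcomm := hom_mul_extZero N hu₁H hz₀.1.1
    have hz₀' := conjElt_mem_nilSet N hM (Quotient.out (d * c) : G) hz₀
    refine ⟨k + 1, conjElt N (Quotient.out (d * c) : G) z₀ * z, u₁, d * c, {d * c}, ?_,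
      ⟨_, hz₀', z, hz, rfl⟩, ⟨hu₁E, hu₁H, ?_⟩, ?_⟩
    · rw [mul_assoc, mul_assoc, hvx, hcomm, extZero_mul, ← mul_assoc]
      congr 1
      rw [← extZero_mul, ← extZero_mul, cf_mul_comm hz₀'.1.1 z]
    · intro e' he'
      rw [Finset.mem_singleton] at he'
      subst he'
      exact ⟨u₁, 1, (mul_one _).symm, hu₁E, hu₁H, Subring.one_mem _,
        by rw [inv_mul_cancel]; exact isHom_one N⟩
    · rw [Finset.card_singleton]
      have e2 : (k + 1) * Nat.card (G ⧸ N) = k * Nat.card (G ⧸ N) + Nat.card (G ⧸ N) := by ring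
      omega
  · refine ⟨k, z, u * comp N c e, d * c, insert (d * c) D, by rw [mul_assoc], hz,
      ⟨Subring.mul_mem _ huE hxE, isHom_mul N huH hxH, ?_⟩, ?_⟩
    · intro e' he'
      rcases Finset.mem_insert.mp he' with rfl | he''
      · exact ⟨u * comp N c e, 1, (mul_one _).symm, Subring.mul_mem _ huE hxE,
          isHom_mul N huH hxH, Subring.one_mem _, by rw [inv_mul_cancel]; exact isHom_one N⟩
      · obtain ⟨u₁, v, huv, hu₁E, hu₁H, hvE, hvH⟩ := hfac e' he''
        refine ⟨u₁, v * comp N c e, by rw [huv, mul_assoc], hu₁E, hu₁H,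
          Subring.mul_mem _ hvE hxE, ?_⟩
        have h3 := isHom_mul N hvH hxH
        rwa [mul_assoc] at h3
    · rw [Finset.card_insert_of_notMem hmem]; omega

/-- A state with large potential has all coefficients in `J`. -/
theorem coeffIdeal_of_nstate (hM : M.IsPrime) {φ : ℕ} {y : MonoidAlgebra ℂ G}
    (hy : NState N hM φ y)
    (hφ : Nat.card (IrrCharacter N) * Nat.card (G ⧸ N) + 1 ≤ φ) : CoeffIdeal M y := by
  classical
  letI : Fintype (G ⧸ N) := Fintype.ofFinite _
  obtain ⟨k, z, u, d, D, rfl, hz, ⟨huE, _, _⟩, hle⟩ := hy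
  have hDcard : D.card ≤ Nat.card (G ⧸ N) := by
    rw [Nat.card_eq_fintype_card]; exact Finset.card_le_univ D
  have hk : Nat.card (IrrCharacter N) ≤ k := by
    by_contra hlt
    push Not at hlt
    have h1 : (k + 1) * Nat.card (G ⧸ N) ≤ Nat.card (IrrCharacter N) * Nat.card (G ⧸ N) :=
      Nat.mul_le_mul_right _ hlt
    have e2 : (k + 1) * Nat.card (G ⧸ N) = k * Nat.card (G ⧸ N) + Nat.card (G ⧸ N) := by ring
    omega
  have hzI := coeffIdeal_of_npow N hM k hk z hz
  intro h
  rw [coeff_mul_fintype]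
  apply memLocalIdeal_sum hM
  intro x _
  apply memLocalIdeal_mul_right hM _ (huE.2 _)
  exact coeff_extZero_mem_of N z (localIdeal M hM) (fun n => hzI n) x

/-- Products of `m` components of `e`. -/
def NProd (e : MonoidAlgebra ℂ G) : ℕ → Set (MonoidAlgebra ℂ G)
  | 0 => {1}
  | (m + 1) => {y | ∃ y' ∈ NProd e m, ∃ c : G ⧸ N, y = y' * comp N c e}

theorem nstate_of_nprod (hM : M.IsPrime) {e : MonoidAlgebra ℂ G}
    (he : e ∈ invSubring N (localRing M hM))
    (hnil : ∀ y ∈ invSubring N (localRing M hM), ∀ θ : IrrCharacter N,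
      MemLocalIdeal M (omega θ.1 (truncTo N (y * e)))) :
    ∀ (m : ℕ) (y : MonoidAlgebra ℂ G), y ∈ NProd N e m → NState N hM (m + 1) y
  | 0, y, hy => by
    have : y = 1 := hy
    rw [this]; exact nstate_one N hM
  | (m + 1), y, ⟨y', hy', c, hyc⟩ => by
    rw [hyc]
    exact nstate_step N hM he hnil (nstate_of_nprod hM he hnil m y' hy') c

theorem pow_mem_closure_nprod (e : MonoidAlgebra ℂ G) :
    ∀ m : ℕ, e ^ m ∈ AddSubgroup.closure (NProd N e m)
  | 0 => by
    rw [pow_zero]
    exact AddSubgroup.subset_closure rfl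
  | (m + 1) => by
    classical
    letI : Fintype (G ⧸ N) := Fintype.ofFinite _
    have ih := pow_mem_closure_nprod e m
    have key : ∀ a ∈ AddSubgroup.closure (NProd N e m), ∀ c : G ⧸ N,
        a * comp N c e ∈ AddSubgroup.closure (NProd N e (m + 1)) := by
      intro a ha c
      induction ha using AddSubgroup.closure_induction with
      | mem y hy => exact AddSubgroup.subset_closure ⟨y, hy, c, rfl⟩
      | zero => rw [zero_mul]; exact AddSubgroup.zero_mem _
      | add a b _ _ iha ihb => rw [add_mul]; exact AddSubgroup.add_mem _ iha ihb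
      | neg a _ iha => rw [neg_mul]; exact AddSubgroup.neg_mem _ iha
    have e1 : e ^ (m + 1) = ∑ c : G ⧸ N, e ^ m * comp N c e := by
      rw [← Finset.mul_sum, sum_comp, pow_succ]
    rw [e1]
    exact AddSubgroup.sum_mem _ (fun c _ => key _ ih c)

/-- **Graded nilpotency.**  An `N`-invariant idempotent `e` of `R[G]` such that the `N`-part of
`y e` has all central characters of `N` in `J`, for every `N`-invariant `y ∈ R[G]`, has all its
coefficients in `J`. -/
theorem graded_nil (hM : M.IsPrime) {e : MonoidAlgebra ℂ G}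
    (he : e ∈ invSubring N (localRing M hM)) (hidem : e * e = e)
    (hnil : ∀ y ∈ invSubring N (localRing M hM), ∀ θ : IrrCharacter N,
      MemLocalIdeal M (omega θ.1 (truncTo N (y * e)))) :
    CoeffIdeal M e := by
  classical
  obtain ⟨m, hm⟩ : ∃ m : ℕ, m = Nat.card (IrrCharacter N) * Nat.card (G ⧸ N) := ⟨_, rfl⟩
  have hpow : ∀ n : ℕ, e ^ (n + 1) = e := by
    intro n
    induction n with
    | zero => rw [zero_add, pow_one]
    | succ n ih => rw [pow_succ, ih, hidem]
  have hmem := pow_mem_closure_nprod N e (m + 1)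
  rw [hpow m] at hmem
  -- the elements with coefficients in `J` form an additive subgroup
  let I : AddSubgroup (MonoidAlgebra ℂ G) :=
    { carrier := {a | CoeffIdeal M a}
      add_mem' := fun ha hb => ha.add hM hb
      zero_mem' := coeffIdeal_zero hM
      neg_mem' := fun ha => ha.neg }
  have hle : AddSubgroup.closure (NProd N e (m + 1)) ≤ I := by
    rw [AddSubgroup.closure_le]
    intro y hy
    have hst := nstate_of_nprod N hM he hnil (m + 1) y hy
    exact coeffIdeal_of_nstate N hM hst (by omega)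
  exact hle hmem

end GradedNil

end Cfsg.Agent.H20
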