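import Mathlib
import Cfsg.Prelude.Def_Blocks
import Cfsg.Agent.H20.GradedNil
import Cfsg.Agent.H20.LocalChar
import Cfsg.Agent.H79.Fong
import Cfsg.Agent.H79.ExtFirstMain
import Cfsg.Agent.H81.DefectCount
import Cfsg.Agent.H80.Block

/-!
# helper20: blocks covering a block of a normal subgroup

Let `N` be a normal subgroup of `G`, `b` a block of `N` and `B` a block of `G` covering `b`.

* `cover_all` : every member of `b` lies under a member of `B`.
* `exists_centralizing_coeff` : if `Q ≤ N` is a defect group of `b` then the idempotent of `B` has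
  a coefficient outside the local ideal at an element centralizing `Q`.
* `knorr_cover` : Knörr's theorem, `B` has a defect group `P` with `P ⊓ N = Q`.
-/

set_option autoImplicit false
set_option linter.style.haveILetI false
set_option linter.unusedSectionVars false

namespace Cfsg.Agent.H20

open Cfsg Cfsg.Agent.H4 Cfsg.Agent.H80

open scoped BigOperators ComplexConjugate

universe u

section KnorrCover

variable {G : Type u} [Group G] [Fintype G] {p : ℕ} [Fact p.Prime] {M : Ideal AlgInt}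
  (N : Subgroup G) [hN : N.Normal] [Fintype N]

omit hN in
/-- Truncation is right-linear over `ℂ[N]`. -/
theorem truncTo_mul_extZero (a : MonoidAlgebra ℂ G) (w : MonoidAlgebra ℂ N) :
    truncTo N (a * extZero N w) = truncTo N a * w := by
  classical
  apply MonoidAlgebra.coeff_injective
  ext n
  rw [coeff_truncTo, coeff_mul_fintype, coeff_mul_fintype]
  have e1 : ∑ m : N, (truncTo N a).coeff m * w.coeff (m⁻¹ * n)
      = ∑ g ∈ Finset.univ.filter (fun g : G => g ∈ N),
          a.coeff g * (extZero N w).coeff (g⁻¹ * (n : G)) := by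
    rw [Finset.sum_subtype (Finset.univ.filter (fun g : G => g ∈ N)) (p := fun g => g ∈ N)
      (fun g => by simp) (fun g => a.coeff g * (extZero N w).coeff (g⁻¹ * (n : G)))]
    apply Finset.sum_congr rfl
    intro m _
    rw [coeff_truncTo]
    have c1 : (extZero N w).coeff ((m : G)⁻¹ * (n : G)) = w.coeff (m⁻¹ * n) :=
      coeff_extZero_coe N w (m⁻¹ * n)
    rw [c1]
  rw [e1]
  symm
  apply Finset.sum_subset (Finset.filter_subset _ _)
  intro g _ hg
  have hg' : g ∉ N := by simpa using hg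
  have hgn : g⁻¹ * (n : G) ∉ N := by
    intro h
    apply hg'
    have h1 : g⁻¹ ∈ N := (N.mul_mem_cancel_right n.2).mp h
    exact N.inv_mem_iff.mp h1
  rw [coeff_extZero_of_not_mem N w hgn, mul_zero]

/-! ### Conjugation on the group algebra -/

/-- Conjugation by `x` on the group algebra. -/
noncomputable def conjAlg (x : G) : MonoidAlgebra ℂ G →+* MonoidAlgebra ℂ G :=
  MonoidAlgebra.mapDomainRingHom ℂ (MulAut.conj x).toMonoidHom

omit [Fintype G] in
theorem coeff_conjAlg (x : G) (y : MonoidAlgebra ℂ G) (h : G) :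
    (conjAlg x y).coeff h = y.coeff (x⁻¹ * h * x) := by
  have e : h = (MulAut.conj x) (x⁻¹ * h * x) := by
    rw [MulAut.conj_apply]; group
  conv_lhs => rw [e]
  show (MonoidAlgebra.mapDomain (MulAut.conj x) y).coeff ((MulAut.conj x) (x⁻¹ * h * x)) = _
  rw [MonoidAlgebra.coeff_mapDomain, Finsupp.mapDomain_apply (MulAut.conj x).injective]

omit [Fintype G] in
theorem conjAlg_of_isCF (x : G) {z : MonoidAlgebra ℂ G} (hz : IsCF z) : conjAlg x z = z := by
  apply MonoidAlgebra.coeff_injective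
  ext h
  rw [coeff_conjAlg]
  have := hz h x⁻¹
  rw [inv_inv] at this
  exact this

theorem conjAlg_mem_invSubring (x : G) {S : Subring ℂ} {y : MonoidAlgebra ℂ G}
    (hy : y ∈ invSubring N S) : conjAlg x y ∈ invSubring N S := by
  refine ⟨?_, fun g => ?_⟩
  · intro n hn g
    rw [coeff_conjAlg, coeff_conjAlg]
    have h1 : x⁻¹ * n * x ∈ N := by
      have := hN.conj_mem n hn x⁻¹
      rwa [inv_inv] at this
    have e : x⁻¹ * (n * g * n⁻¹) * x = (x⁻¹ * n * x) * (x⁻¹ * g * x) * (x⁻¹ * n * x)⁻¹ := by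
      group
    rw [e]
    exact hy.1 _ h1 _
  · rw [coeff_conjAlg]; exact hy.2 _

theorem truncTo_conjAlg (x : G) (a : MonoidAlgebra ℂ G) :
    truncTo N (conjAlg x a) = conjElt N x (truncTo N a) := by
  apply MonoidAlgebra.coeff_injective
  ext n
  rw [coeff_truncTo, coeff_conjAlg, coeff_conjElt, coeff_truncTo, MulAut.conjNormal_symm_apply]

/-- Conjugating the central character corresponds to conjugating the multiplier. -/
theorem omega_conj_trunc (x : G) (y : MonoidAlgebra ℂ G) {e : MonoidAlgebra ℂ G} (he : IsCF e)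
    (θ : IrrCharacter N) :
    omega (Cfsg.Agent.H79.conjIrr N x θ).1 (truncTo N (y * e))
      = omega θ.1 (truncTo N (conjAlg x y * e)) := by
  rw [← omega_conjElt, ← truncTo_conjAlg, map_mul, conjAlg_of_isCF x he]

/-! ### The two vanishing statements -/

/-- If every member of `B` lies over the `G`-stable set `S`, then the central characters outside
`S` vanish on the `N`-part of `y e_B`. -/
theorem omega_trunc_eq_zero (S : Set (IrrCharacter N))
    (hS : ∀ (g : G) (μ : IrrCharacter N), Cfsg.Agent.H79.conjIrr N g μ ∈ S ↔ μ ∈ S)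
    (B : Set (IrrCharacter G))
    (hBS : ∀ χ ∈ B, ∃ μ ∈ S, classInner (fun n : N => χ.1 n) μ.1 ≠ 0)
    {y : MonoidAlgebra ℂ G} (hy : IsInv N (y * blockElt B)) (θ : IrrCharacter N) (hθ : θ ∉ S) :
    omega θ.1 (truncTo N (y * blockElt B)) = 0 := by
  classical
  have h2 : extZero N (blockElt S) = blockElt {χ : IrrCharacter G |
      ∃ μ ∈ S, classInner (fun n : N => χ.1 n) μ.1 ≠ 0} := by
    apply MonoidAlgebra.coeff_injective
    ext g
    rw [coeff_blockElt, Cfsg.Agent.H79.blockCoeff_over_eq N S hS g]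
    by_cases hg : g ∈ N
    · rw [extendByZero_of_mem N _ hg]
      have c1 : (extZero N (blockElt S)).coeff g = (blockElt S).coeff ⟨g, hg⟩ :=
        coeff_extZero_coe N _ ⟨g, hg⟩
      rw [c1, coeff_blockElt]
    · rw [extendByZero_of_not_mem N _ hg, coeff_extZero_of_not_mem N _ hg]
  have h1 : blockElt B * extZero N (blockElt S) = blockElt B := by
    rw [h2, blockElt_mul_blockElt]
    congr 1
    ext χ
    constructor
    · intro h; exact h.1
    · intro h; exact ⟨h, hBS χ h⟩
  have h3 : truncTo N (y * blockElt B) = truncTo N (y * blockElt B) * blockElt S := by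
    rw [← truncTo_mul_extZero, mul_assoc, h1]
  rw [h3, omega_mul θ (isCF_truncTo hy), omega_blockElt, if_neg hθ, mul_zero]

/-- **Brauer-map argument.**  Let `Q ≤ N` be a defect group of the block of `θ`, and `e` a central
element of `R[G]` all of whose coefficients on `C_G(Q)` lie in `J`.  Then the central character of
`θ` sends the `N`-part of `y e` into `J`, for every `N`-invariant `y ∈ R[G]`. -/
theorem omega_trunc_mem_of_br (hM : IsPModular p M) (θ : IrrCharacter N) (Q : Subgroup G)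
    (hQN : Q ≤ N) (hQ : IsDefectGroup p M (blockOf M θ.1) (Q.subgroupOf N))
    {e : MonoidAlgebra ℂ G} (he : e ∈ cfSubring G (localRing M (isPrime_of_isPModular hM)))
    (hbr : ∀ g ∈ Subgroup.centralizer (Q : Set G), MemLocalIdeal M (e.coeff g))
    {y : MonoidAlgebra ℂ G} (hy : y ∈ invSubring N (localRing M (isPrime_of_isPModular hM))) :
    MemLocalIdeal M (omega θ.1 (truncTo N (y * e))) := by
  classical
  have hMp := isPrime_of_isPModular hM
  letI : Fintype (Subgroup.centralizer (Q : Set G)) := Fintype.ofFinite _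
  have hyeinv : y * e ∈ invSubring N (localRing M hMp) :=
    Subring.mul_mem _ hy (cfSubring_le_invSubring N _ he)
  have hw := truncTo_mem_cfSubring hyeinv
  have hQ'p : IsPGroup p (Q.subgroupOf N) := isPGroup_of_isDefectGroup hQ
  have hQp : IsPGroup p Q := by
    have h1 := hQ'p.map N.subtype
    rwa [Subgroup.subgroupOf_map_subtype, inf_eq_left.mpr hQN] at h1
  -- the coefficients of `y e` on `C_G(Q)` lie in `J`
  have hbrc : ∀ c : G, c ∈ Subgroup.centralizer (Q : Set G) →
      MemLocalIdeal M ((y * e).coeff c) := by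
    intro c hc
    have h1 := brauer_coeff_mul p hM Q hQp (isInv_mono hQN hy.1) (isInv_of_isCF Q he.1)
      hy.2 he.2 ⟨c, hc⟩
    rw [coeff_truncTo] at h1
    have h2 : MemLocalIdeal M ((truncTo (Subgroup.centralizer (Q : Set G)) y
        * truncTo (Subgroup.centralizer (Q : Set G)) e).coeff ⟨c, hc⟩) := by
      rw [coeff_mul_fintype]
      apply memLocalIdeal_sum hMp
      intro x _
      rw [coeff_truncTo, coeff_truncTo]
      exact memLocalIdeal_mul_left hMp (hy.2 _) (hbr _ (SetLike.coe_mem _))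
    have h3 := memLocalIdeal_add hMp h1 h2
    rwa [sub_add_cancel] at h3
  obtain ⟨n₀, hn₀, S, hS⟩ := hQ
  apply omega_mem_of_coeff θ.1 (irr_isClassFunction θ) (localIdeal M hMp) hw.1
  intro n
  rw [mem_localIdeal]
  by_cases hk : MemLocalIdeal M (centralChar θ.1 n)
  · exact memLocalIdeal_mul_left hMp (hw.2 n) hk
  · have hQy : Q.subgroupOf N ≤ Subgroup.centralizer ({n₀} : Set N) := by
      rw [hS]
      intro q hq
      obtain ⟨s, _, rfl⟩ := Subgroup.mem_map.mp hq
      exact s.2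
    obtain ⟨x, hx, hQx⟩ := exists_conj_centralized_of_block hM θ n n₀ hk hn₀.2.1
      (Q.subgroupOf N) hQ'p hQy
    obtain ⟨c, hc⟩ := isConj_iff.mp hx
    have e1 : (truncTo N (y * e)).coeff n = (truncTo N (y * e)).coeff x := by
      rw [← hc]; exact (hw.1 n c).symm
    rw [e1, coeff_truncTo]
    apply memLocalIdeal_mul_right hMp _ (centralChar_memLocalRing hMp θ n)
    apply hbrc
    rw [Subgroup.mem_centralizer_iff]
    intro q hq
    have hq' : (⟨q, hQN hq⟩ : N) ∈ Q.subgroupOf N := Subgroup.mem_subgroupOf.mpr hq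
    have h4 := Subgroup.mem_centralizer_iff.mp (hQx hq') x rfl
    exact (congrArg Subtype.val h4).symm

/-! ### Main theorems -/

/-- Members of a block covering `b` lie over the orbit of `b`. -/
theorem over_orbitSet (hM : M.IsPrime) (θ₀ : IrrCharacter N) (χ₀ : IrrCharacter G)
    (hcov : classInner (fun n : N => χ₀.1 n) θ₀.1 ≠ 0) :
    ∀ χ ∈ blockOf M χ₀.1, ∃ μ ∈ Cfsg.Agent.H79.orbitSet N (blockOf M θ₀.1),
      classInner (fun n : N => χ.1 n) μ.1 ≠ 0 := by
  intro χ hχ
  obtain ⟨ψ, hψ⟩ := Cfsg.Agent.H79.exists_constituent_res N χ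
  exact ⟨ψ, Cfsg.Agent.H79.mem_orbitSet_of_sameBlock_over hM N χ₀ χ hχ θ₀ ψ hcov hψ, hψ⟩

omit hN [Fintype N] in
/-- The idempotent of a block has a coefficient outside the local ideal. -/
theorem not_coeffIdeal_blockElt (hM : IsPModular p M) (χ₀ : IrrCharacter G) :
    ¬ CoeffIdeal M (blockElt (blockOf M χ₀.1)) := by
  intro h
  obtain ⟨y, hy⟩ := Cfsg.Agent.S0906.result p M hM (blockOf M χ₀.1) ⟨χ₀, rfl⟩
  apply hy.2.1
  have := h y
  rwa [coeff_blockElt] at this

/-- **Knörr's key step.**  If `Q ≤ N` is a defect group of the block `b` of `N` covered by `B`,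
then the idempotent of `B` has a coefficient outside `J` at an element of `C_G(Q)`. -/
theorem exists_centralizing_coeff (hM : IsPModular p M) (θ₀ : IrrCharacter N)
    (χ₀ : IrrCharacter G) (hcov : classInner (fun n : N => χ₀.1 n) θ₀.1 ≠ 0)
    (Q : Subgroup G) (hQN : Q ≤ N)
    (hQ : IsDefectGroup p M (blockOf M θ₀.1) (Q.subgroupOf N)) :
    ∃ g ∈ Subgroup.centralizer (Q : Set G),
      ¬ MemLocalIdeal M (blockCoeff (blockOf M χ₀.1) g) := by
  classical
  have hMp := isPrime_of_isPModular hM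
  by_contra hcon
  push Not at hcon
  apply not_coeffIdeal_blockElt hM χ₀
  have he := blockElt_mem hMp χ₀
  have hBS := over_orbitSet N hMp θ₀ χ₀ hcov
  apply graded_nil N hMp (cfSubring_le_invSubring N _ he) (blockElt_mul_self _)
  intro y hy θ'
  by_cases hθ' : θ' ∈ Cfsg.Agent.H79.orbitSet N (blockOf M θ₀.1)
  · obtain ⟨g, hg⟩ := hθ'
    have e1 : θ' = Cfsg.Agent.H79.conjIrr N g⁻¹ (Cfsg.Agent.H79.conjIrr N g θ') := by
      rw [Cfsg.Agent.H79.conjIrr_conjIrr, mul_inv_cancel, Cfsg.Agent.H79.conjIrr_one]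
    rw [e1, omega_conj_trunc N g⁻¹ y he.1]
    have hbb : blockOf M (Cfsg.Agent.H79.conjIrr N g θ').1 = blockOf M θ₀.1 :=
      blockOf_eq_of_mem hMp hg
    have hQ' : IsDefectGroup p M (blockOf M (Cfsg.Agent.H79.conjIrr N g θ').1)
        (Q.subgroupOf N) := by rw [hbb]; exact hQ
    exact omega_trunc_mem_of_br N hM _ Q hQN hQ' he
      (fun g hg => by rw [coeff_blockElt]; exact hcon g hg) (conjAlg_mem_invSubring N g⁻¹ hy)
  · rw [omega_trunc_eq_zero N _ (Cfsg.Agent.H79.orbitSet_stable N _) _ hBS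
      (Subring.mul_mem _ hy (cfSubring_le_invSubring N _ he)).1 θ' hθ']
    exact memLocalIdeal_zero hMp

/-- **Every character of a covered block lies under the covering block.** -/
theorem cover_all (hM : IsPModular p M) (θ₀ : IrrCharacter N) (χ₀ : IrrCharacter G)
    (hcov : classInner (fun n : N => χ₀.1 n) θ₀.1 ≠ 0) (θ : IrrCharacter N)
    (hθ : θ ∈ blockOf M θ₀.1) :
    ∃ χ ∈ blockOf M χ₀.1, classInner (fun n : N => χ.1 n) θ.1 ≠ 0 := by
  classical
  have hMp := isPrime_of_isPModular hM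
  by_contra hcon
  push Not at hcon
  apply not_coeffIdeal_blockElt hM χ₀
  have he := blockElt_mem hMp χ₀
  obtain ⟨S, hSdef⟩ : ∃ S : Set (IrrCharacter N), S = {θ' | ∃ χ ∈ blockOf M χ₀.1,
      classInner (fun n : N => χ.1 n) θ'.1 ≠ 0} := ⟨_, rfl⟩
  have hθS : θ ∉ S := by
    rw [hSdef]
    rintro ⟨χ, hχ, h⟩
    exact h (hcon χ hχ)
  have hSst : ∀ (g : G) (μ : IrrCharacter N), Cfsg.Agent.H79.conjIrr N g μ ∈ S ↔ μ ∈ S := by
    intro g μ
    rw [hSdef]
    constructor
    · rintro ⟨χ, hχ, h⟩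
      exact ⟨χ, hχ, (Cfsg.Agent.H79.constituents_stable N (irr_isClassFunction χ) g μ).mp h⟩
    · rintro ⟨χ, hχ, h⟩
      exact ⟨χ, hχ, (Cfsg.Agent.H79.constituents_stable N (irr_isClassFunction χ) g μ).mpr h⟩
  have hBS : ∀ χ ∈ blockOf M χ₀.1, ∃ μ ∈ S, classInner (fun n : N => χ.1 n) μ.1 ≠ 0 := by
    intro χ hχ
    obtain ⟨ψ, hψ⟩ := Cfsg.Agent.H79.exists_constituent_res N χ
    exact ⟨ψ, by rw [hSdef]; exact ⟨χ, hχ, hψ⟩, hψ⟩
  apply graded_nil N hMp (cfSubring_le_invSubring N _ he) (blockElt_mul_self _)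
  intro y hy θ'
  have hinv : ∀ y' ∈ invSubring N (localRing M hMp),
      y' * blockElt (blockOf M χ₀.1) ∈ invSubring N (localRing M hMp) := fun y' hy' =>
    Subring.mul_mem _ hy' (cfSubring_le_invSubring N _ he)
  by_cases hθ' : θ' ∈ S
  · have hθ'' : θ' ∈ Cfsg.Agent.H79.orbitSet N (blockOf M θ₀.1) := by
      rw [hSdef] at hθ'
      obtain ⟨χ, hχ, h⟩ := hθ'
      exact Cfsg.Agent.H79.mem_orbitSet_of_sameBlock_over hMp N χ₀ χ hχ θ₀ θ' hcov h
    obtain ⟨g, hg⟩ := hθ''
    have e1 : θ' = Cfsg.Agent.H79.conjIrr N g⁻¹ (Cfsg.Agent.H79.conjIrr N g θ') := by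
      rw [Cfsg.Agent.H79.conjIrr_conjIrr, mul_inv_cancel, Cfsg.Agent.H79.conjIrr_one]
    rw [e1, omega_conj_trunc N g⁻¹ y he.1]
    have hy' := conjAlg_mem_invSubring N g⁻¹ hy
    have hsame : SameBlock M (Cfsg.Agent.H79.conjIrr N g θ').1 θ.1 :=
      sameBlock_trans hMp (sameBlock_symm hg) hθ
    have h1 := omega_sub_omega_memLocalIdeal hMp _ _ (irr_isClassFunction _)
      (irr_isClassFunction θ) hsame (truncTo_mem_cfSubring (hinv _ hy'))
    rw [omega_trunc_eq_zero N S hSst _ hBS (hinv _ hy').1 θ hθS, sub_zero] at h1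
    exact h1
  · rw [omega_trunc_eq_zero N S hSst _ hBS (hinv _ hy).1 θ' hθ']
    exact memLocalIdeal_zero hMp

/-- Conjugate blocks of `N` have the same defect. -/
theorem blockDefect_blockOf_conjIrr (g : G) (μ : IrrCharacter N) :
    blockDefect p (blockOf M (Cfsg.Agent.H79.conjIrr N g μ).1) = blockDefect p (blockOf M μ.1) := by
  have himg : (fun χ : IrrCharacter N => (charDegree (χ : N → ℂ)).factorization p) ''
        blockOf M (Cfsg.Agent.H79.conjIrr N g μ).1
      = (fun χ : IrrCharacter N => (charDegree (χ : N → ℂ)).factorization p) ''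
        blockOf M μ.1 := by
    ext k
    constructor
    · rintro ⟨ν, hν, rfl⟩
      refine ⟨Cfsg.Agent.H79.conjIrr N g⁻¹ ν, ?_, ?_⟩
      · have e : Cfsg.Agent.H79.conjIrr N g (Cfsg.Agent.H79.conjIrr N g⁻¹ ν) = ν := by
          rw [Cfsg.Agent.H79.conjIrr_conjIrr, inv_mul_cancel, Cfsg.Agent.H79.conjIrr_one]
        have h1 : SameBlock M (Cfsg.Agent.H79.conjIrr N g μ).1
            (Cfsg.Agent.H79.conjIrr N g (Cfsg.Agent.H79.conjIrr N g⁻¹ ν)).1 := by
          rw [e]; exact hν
        exact (Cfsg.Agent.H79.sameBlock_conjIrr N g μ _).mp h1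
      · show (charDegree (Cfsg.Agent.H79.conjIrr N g⁻¹ ν).1).factorization p
          = (charDegree ν.1).factorization p
        unfold charDegree
        rw [Cfsg.Agent.H79.conjIrr_one_apply]
    · rintro ⟨ν, hν, rfl⟩
      refine ⟨Cfsg.Agent.H79.conjIrr N g ν,
        (Cfsg.Agent.H79.sameBlock_conjIrr N g μ ν).mpr hν, ?_⟩
      show (charDegree (Cfsg.Agent.H79.conjIrr N g ν).1).factorization p
        = (charDegree ν.1).factorization p
      unfold charDegree
      rw [Cfsg.Agent.H79.conjIrr_one_apply]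
  unfold blockDefect
  rw [himg]

/-- **Knörr's theorem.**  Let `B` cover the block `b` of the normal subgroup `N`, and let `Q ≤ N`
be a defect group of `b`.  Then `B` has a defect group `P` with `P ⊓ N = Q`. -/
theorem knorr_cover (hM : IsPModular p M) (θ₀ : IrrCharacter N) (χ₀ : IrrCharacter G)
    (hcov : classInner (fun n : N => χ₀.1 n) θ₀.1 ≠ 0)
    (Q : Subgroup G) (hQN : Q ≤ N)
    (hQ : IsDefectGroup p M (blockOf M θ₀.1) (Q.subgroupOf N)) :
    ∃ P : Subgroup G, IsDefectGroup p M (blockOf M χ₀.1) P ∧ P ⊓ N = Q := by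
  classical
  have hp : p.Prime := Fact.out
  have hMp := isPrime_of_isPModular hM
  have hQ'p : IsPGroup p (Q.subgroupOf N) := isPGroup_of_isDefectGroup hQ
  have hQp : IsPGroup p Q := by
    have h1 := hQ'p.map N.subtype
    rwa [Subgroup.subgroupOf_map_subtype, inf_eq_left.mpr hQN] at h1
  obtain ⟨g, hgQ, hg⟩ := exists_centralizing_coeff N hM θ₀ χ₀ hcov Q hQN hQ
  obtain ⟨k, hk⟩ := Cfsg.Agent.S0906.result p M hM (blockOf M χ₀.1) ⟨χ₀, rfl⟩
  have hQg : Q ≤ Subgroup.centralizer ({g} : Set G) := by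
    intro q hq
    rw [Subgroup.mem_centralizer_iff]
    intro h hh
    rw [Set.mem_singleton_iff] at hh
    subst hh
    exact (Subgroup.mem_centralizer_iff.mp hgQ q hq).symm
  obtain ⟨x, hx, hQx⟩ := exists_conj_centralized_of_block hM χ₀ k g
    (hk.2.2 χ₀ (mem_blockOf_self hMp χ₀)) hg Q hQp hQg
  obtain ⟨c, hc⟩ := isConj_iff.mp hx
  have hxdef : IsDefectClass M (blockOf M χ₀.1) x := by
    rw [← hc]; exact isDefectClass_conj hk c
  obtain ⟨S, hS⟩ := exists_sylow_centralizer_ge x Q hQp hQx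
  obtain ⟨P, hPdef⟩ : ∃ P : Subgroup G, P = (S : Subgroup (Subgroup.centralizer
      ({x} : Set G))).map (Subgroup.centralizer ({x} : Set G)).subtype := ⟨_, rfl⟩
  rw [← hPdef] at hS
  have hP : IsDefectGroup p M (blockOf M χ₀.1) P := ⟨x, hxdef, S, hPdef⟩
  refine ⟨P, hP, ?_⟩
  have hPp : IsPGroup p P := isPGroup_of_isDefectGroup hP
  have hPx : P ≤ Subgroup.centralizer ({x} : Set G) := by
    rw [hPdef]
    intro q hq
    obtain ⟨s, _, rfl⟩ := Subgroup.mem_map.mp hq
    exact s.2
  have hBS := over_orbitSet N hMp θ₀ χ₀ hcov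
  obtain ⟨n, hn, hnP⟩ := Cfsg.Agent.H79.exists_coeff_centralizing N hM
    (Cfsg.Agent.H79.orbitSet N (blockOf M θ₀.1)) (Cfsg.Agent.H79.orbitSet_stable N _)
    (Cfsg.Agent.H79.blockCoeff_memLocalRing_of_closed hMp _
      (Cfsg.Agent.H79.orbitSet_closed N hMp θ₀)) χ₀ hBS x hxdef.2.1 P hPp hPx
  obtain ⟨μ, hμA, hμ⟩ := Cfsg.Agent.H79.exists_blockOf_coeff_not_mem hMp _
    (Cfsg.Agent.H79.orbitSet_closed N hMp θ₀) n hn
  have hdle := Cfsg.Agent.H81.defect_le_of_blockCoeff hM (blockOf M μ.1) ⟨μ, rfl⟩ n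
    (blockCoeff_memLocalRing hMp μ n) hμ
  obtain ⟨t, ht⟩ := hμA
  have hdeq : blockDefect p (blockOf M μ.1) = blockDefect p (blockOf M θ₀.1) := by
    rw [← blockDefect_blockOf_conjIrr N t μ, blockOf_eq_of_mem hMp ht]
  rw [hdeq] at hdle
  have hle1 : (P ⊓ N).subgroupOf N ≤ Subgroup.centralizer ({n} : Set N) := by
    intro m hm
    rw [Subgroup.mem_subgroupOf] at hm
    rw [Subgroup.mem_centralizer_iff]
    intro h hh
    rw [Set.mem_singleton_iff] at hh
    subst hh
    apply Subtype.ext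
    have h1 := Subgroup.mem_centralizer_iff.mp hnP (m : G) hm.1
    exact h1.symm
  have hcardQ : Nat.card Q = p ^ blockDefect p (blockOf M θ₀.1) := by
    have h1 := card_defectGroup hM θ₀ _ hQ
    rw [← h1]
    exact (Nat.card_congr (Subgroup.subgroupOfEquivOfLe hQN).toEquiv).symm
  have hcardPN : Nat.card (P ⊓ N : Subgroup G) ≤ Nat.card Q := by
    have h2 : IsPGroup p ((P ⊓ N).subgroupOf N) := (hPp.to_le inf_le_left).comap_subtype
    obtain ⟨j, hj⟩ := IsPGroup.iff_card.mp h2
    have h3 : Nat.card ((P ⊓ N).subgroupOf N) ∣ Nat.card (Subgroup.centralizer ({n} : Set N)) :=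
      Subgroup.card_dvd_of_le hle1
    rw [hj] at h3
    have h4 : j ≤ (Nat.card (Subgroup.centralizer ({n} : Set N))).factorization p :=
      (hp.pow_dvd_iff_le_factorization Nat.card_pos.ne').mp h3
    have h5 : Nat.card (P ⊓ N : Subgroup G) = p ^ j := by
      rw [← hj]
      exact (Nat.card_congr (Subgroup.subgroupOfEquivOfLe inf_le_right).toEquiv).symm
    rw [h5, hcardQ]
    exact Nat.pow_le_pow_right hp.pos (h4.trans hdle)
  have hQle : Q ≤ P ⊓ N := le_inf hS hQN
  exact (Subgroup.eq_of_le_of_card_ge hQle hcardPN).symm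

end KnorrCover

end Cfsg.Agent.H20
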