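import Mathlib
import Cfsg.Prelude.Def_Blocks
import Cfsg.Prelude.Def_BlockLocal
import Cfsg.Agent.H20.KnorrCover
import Cfsg.Agent.H20.BrauerOver
import Cfsg.Agent.H20.FirstMain
import Cfsg.Agent.H20.FongReynolds2
import Cfsg.Agent.H79.BrauerCorr
import Cfsg.Agent.H79.BrauerSupport
import Cfsg.Agent.H80.MaxConj2
import Cfsg.Agent.H81.QuotDefect
import Cfsg.Agent.H84.BlockDom

/-!
# helper20: the Harris–Knörr correspondence

Let `N` be a normal subgroup of `G`, `Q ≤ N` a `p`-subgroup, `H = N_G(Q)`, `d` a block of `N`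
with defect group `Q` and `e` its Brauer correspondent in `N_N(Q) = H ∩ N`.  Block induction is a
bijection from the blocks of `H` covering `e` onto the blocks of `G` covering `d`.
-/

set_option autoImplicit false
set_option linter.style.haveILetI false
set_option linter.unusedSectionVars false

namespace Cfsg.Agent.H20

open Cfsg Cfsg.Agent.H4 Cfsg.Agent.H80

open scoped BigOperators ComplexConjugate

universe u

section IndSum

variable {G : Type u} [Group G] [Fintype G] {M : Ideal AlgInt}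

/-- Block induction, linearised: if the induced central character of `ξ` is congruent to the
central character of `χ`, then `χ` and `ξ` take congruent normalised values on every class
function of `G` with local-integral values. -/
theorem ind_sum_congr (hM : M.IsPrime) (H : Subgroup G) [Fintype H] (ξ : IrrCharacter H)
    (χ : IrrCharacter G)
    (hind : ∀ g : G, MemLocalIdeal M (inducedCentralChar H ξ.1 g - centralChar χ.1 g))
    (c : G → ℂ) (hc : ∀ g x : G, c (x * g * x⁻¹) = c g) (hcR : ∀ g, MemLocalRing M (c g)) :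
    MemLocalIdeal M ((∑ g : G, c g * χ.1 g) / χ.1 1 - (∑ h : H, c h * ξ.1 h) / ξ.1 1) := by
  have hξ1 : ξ.1 1 ≠ 0 := irr_one_ne_zero ξ
  have hsame : SameBlock M χ.1 (indFun H ξ.1) := by
    intro g
    have h1 := hind g
    rw [Cfsg.Agent.S0932.inducedCentralChar_eq] at h1
    have h2 := memLocalIdeal_neg h1
    convert h2 using 1
    ring
  have key := Cfsg.Agent.H79.sum_mul_div_sub_memLocalIdeal hM χ.1 (indFun H ξ.1)
    (irr_isClassFunction χ) (indFun_isClassFunction H ξ.1) hsame c hc hcR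
  rw [Cfsg.Agent.H79.sum_mul_indFun_div H c hc ξ.1 hξ1] at key
  exact key

/-- Conversely, the linearised congruence gives the congruence of central characters. -/
theorem ind_of_sum_congr (hM : M.IsPrime) (H : Subgroup G) [Fintype H] (ξ : IrrCharacter H)
    (χ : IrrCharacter G)
    (h : ∀ c : G → ℂ, (∀ g x : G, c (x * g * x⁻¹) = c g) → (∀ g, MemLocalRing M (c g)) →
      MemLocalIdeal M ((∑ g : G, c g * χ.1 g) / χ.1 1 - (∑ h : H, c h * ξ.1 h) / ξ.1 1)) :
    ∀ g : G, MemLocalIdeal M (inducedCentralChar H ξ.1 g - centralChar χ.1 g) := by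
  classical
  intro g
  have hc : ∀ y x : G, (if IsConj g (x * y * x⁻¹) then (1 : ℂ) else 0)
      = if IsConj g y then (1 : ℂ) else 0 := by
    intro y x
    have : IsConj g (x * y * x⁻¹) ↔ IsConj g y := by
      constructor
      · intro h1
        exact h1.trans (isConj_iff.mpr ⟨x⁻¹, by group⟩)
      · intro h1
        exact h1.trans (isConj_iff.mpr ⟨x, rfl⟩)
    simp only [this]
  have hcR : ∀ y : G, MemLocalRing M (if IsConj g y then (1 : ℂ) else 0) := by
    intro y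
    split_ifs
    · exact memLocalRing_one hM
    · exact memLocalRing_zero hM
  have h1 := h (fun x => if IsConj g x then (1 : ℂ) else 0) hc hcR
  have e1 : (∑ x : G, (if IsConj g x then (1 : ℂ) else 0) * χ.1 x) / χ.1 1
      = centralChar χ.1 g := by
    rw [← omega_classSum χ.1 (irr_isClassFunction χ) g]
    unfold omega
    simp only [coeff_classSum]
  have e2 : (∑ h : H, (if IsConj g (h : G) then (1 : ℂ) else 0) * ξ.1 h) / ξ.1 1
      = inducedCentralChar H ξ.1 g := by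
    rw [Cfsg.Agent.H79.inducedCentralChar_eq_sum_ite, Finset.sum_div]
    apply Finset.sum_congr rfl
    intro h _
    split_ifs
    · rw [one_mul]
    · rw [zero_mul, zero_div]
  rw [e1, e2] at h1
  have h2 := memLocalIdeal_neg h1
  rwa [neg_sub] at h2

end IndSum

section HK

variable {G : Type u} [Group G] [Fintype G] {p : ℕ} [Fact p.Prime] {M : Ideal AlgInt}
  (N : Subgroup G) [hN : N.Normal] [Fintype N] (Q : Subgroup G)

/-- `N ∩ N_G(Q)` as a subgroup of `N_G(Q)`. -/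
abbrev hkLH : Subgroup ↥(Subgroup.normalizer (Q : Set G)) :=
  N.subgroupOf (Subgroup.normalizer (Q : Set G))

/-- `N_N(Q)` as a subgroup of `N`. -/
abbrev hkLN : Subgroup ↥N :=
  Subgroup.normalizer ((Q.subgroupOf N : Subgroup N) : Set N)

/-- The identification of the two incarnations of `N_N(Q)`. -/
def hkIota (hQN : Q ≤ N) : ↥(hkLH N Q) ≃* ↥(hkLN N Q) where
  toFun x := ⟨⟨((x : ↥(Subgroup.normalizer (Q : Set G))) : G), Subgroup.mem_subgroupOf.mp x.2⟩,
    mem_normalizer_subgroupOf_of_mem Q N hQN ⟨_, Subgroup.mem_subgroupOf.mp x.2⟩ x.1.2⟩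
  invFun y := ⟨⟨((y : N) : G), coe_mem_normalizer_of_mem Q N hQN y.1 y.2⟩,
    Subgroup.mem_subgroupOf.mpr y.1.2⟩
  left_inv _ := Subtype.ext (Subtype.ext rfl)
  right_inv _ := Subtype.ext (Subtype.ext rfl)
  map_mul' _ _ := Subtype.ext (Subtype.ext rfl)

theorem coe_hkIota (hQN : Q ≤ N) (x : ↥(hkLH N Q)) :
    (((hkIota N Q hQN x : ↥(hkLN N Q)) : N) : G)
      = ((x : ↥(Subgroup.normalizer (Q : Set G))) : G) := rfl

theorem coe_hkIota_symm (hQN : Q ≤ N) (y : ↥(hkLN N Q)) :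
    ((((hkIota N Q hQN).symm y : ↥(hkLH N Q)) : ↥(Subgroup.normalizer (Q : Set G))) : G)
      = ((y : N) : G) := rfl

/-- **Covering goes up.**  Let `ψ ∈ Irr(N_G(Q))` lie over `ξ' ∈ Irr(N_N(Q))`; if the block of
`ξ'` induces the block of `θ ∈ Irr(N)` and the block of `ψ` induces the block of `χ ∈ Irr(G)`,
then `χ` lies over a member of the block of `θ`. -/
theorem hk_cover_of_induced (hM : M.IsPrime) (hQN : Q ≤ N)
    [Fintype ↥(Subgroup.normalizer (Q : Set G))] [Fintype ↥(hkLH N Q)] [Fintype ↥(hkLN N Q)]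
    (ψ : IrrCharacter ↥(Subgroup.normalizer (Q : Set G))) (ξ' : IrrCharacter ↥(hkLH N Q))
    (hover : classInner (fun l : ↥(hkLH N Q) => ψ.1 l) ξ'.1 ≠ 0)
    (θ : IrrCharacter N)
    (hindN : ∀ n : N, MemLocalIdeal M
      (inducedCentralChar (hkLN N Q) (eqvIrr (hkIota N Q hQN) ξ').1 n - centralChar θ.1 n))
    (χ : IrrCharacter G)
    (hindG : ∀ g : G, MemLocalIdeal M
      (inducedCentralChar (Subgroup.normalizer (Q : Set G)) ψ.1 g - centralChar χ.1 g)) :
    ∃ θ' ∈ blockOf M θ.1, classInner (fun n : N => χ.1 n) θ'.1 ≠ 0 := by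
  classical
  obtain ⟨A, hAdef⟩ : ∃ A : Set (IrrCharacter N),
      A = Cfsg.Agent.H79.orbitSet N (blockOf M θ.1) := ⟨_, rfl⟩
  have hAst : ∀ (g : G) (μ : IrrCharacter N), Cfsg.Agent.H79.conjIrr N g μ ∈ A ↔ μ ∈ A := by
    rw [hAdef]; exact Cfsg.Agent.H79.orbitSet_stable N _
  have hAcl : ∀ μ ∈ A, ∀ ν : IrrCharacter N, SameBlock M μ.1 ν.1 → ν ∈ A := by
    rw [hAdef]; exact Cfsg.Agent.H79.orbitSet_closed N hM θ
  have hθA : θ ∈ A := by
    rw [hAdef]; exact Cfsg.Agent.H79.subset_orbitSet N _ (mem_blockOf_self hM θ)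
  obtain ⟨CA, hCAdef⟩ : ∃ CA : Set (IrrCharacter G),
      CA = {χ : IrrCharacter G | ∃ μ ∈ A, classInner (fun n : N => χ.1 n) μ.1 ≠ 0} := ⟨_, rfl⟩
  obtain ⟨c, hcdef⟩ : ∃ c : G → ℂ, c = blockCoeff CA := ⟨_, rfl⟩
  have hcx : ∀ y : G, c y = extendByZero N (blockCoeff A) y := by
    intro y; rw [hcdef, hCAdef]; exact Cfsg.Agent.H79.blockCoeff_over_eq N A hAst y
  have hc : ∀ g x : G, c (x * g * x⁻¹) = c g := by
    intro g x; rw [hcdef]; exact blockCoeff_conj_invariant _ g x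
  have hzR : ∀ n : N, MemLocalRing M (blockCoeff A n) :=
    Cfsg.Agent.H79.blockCoeff_memLocalRing_of_closed hM A hAcl
  have hcR : ∀ g : G, MemLocalRing M (c g) := by
    intro g
    rw [hcx]
    by_cases hg : g ∈ N
    · rw [extendByZero_of_mem N _ hg]; exact hzR _
    · rw [extendByZero_of_not_mem N _ hg]; exact memLocalRing_zero hM
  -- step 1: from `G` to `N_G(Q)`
  have k1 := ind_sum_congr hM (Subgroup.normalizer (Q : Set G)) ψ χ hindG c hc hcR
  have e1 : ∑ g : G, c g * χ.1 g = if χ ∈ CA then χ.1 1 else 0 := by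
    rw [hcdef]; exact Cfsg.Agent.H79.sum_blockCoeff_mul_irr CA χ
  -- step 2: the sum over `N_G(Q)` is a sum over `N ∩ N_G(Q)`
  have e2 : ∑ h : ↥(Subgroup.normalizer (Q : Set G)), c h * ψ.1 h
      = ∑ l : ↥(hkLH N Q), c l * ψ.1 l := by
    rw [← sum_extendByZero_mul (hkLH N Q) (fun l : ↥(hkLH N Q) => c l) ψ.1]
    apply Finset.sum_congr rfl
    intro h _
    by_cases hh : h ∈ hkLH N Q
    · rw [extendByZero_of_mem _ _ hh]
    · rw [extendByZero_of_not_mem _ _ hh, hcx,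
        extendByZero_of_not_mem N _ (fun h' => hh (Subgroup.mem_subgroupOf.mpr h'))]
  -- step 3: from `ψ` to `ξ'`
  have e3 := Cfsg.Agent.H79.sum_mul_div_eq_of_over (hkLH N Q) ψ ξ' hover
    (fun h : ↥(Subgroup.normalizer (Q : Set G)) => c h)
    (fun g x => hc (g : G) (x : G))
    (fun g hg => by
      rw [hcx]
      exact extendByZero_of_not_mem N _ (fun h' => hg (Subgroup.mem_subgroupOf.mpr h')))
  -- step 4: reindexing along `hkIota`
  have e4 : ∑ l : ↥(hkLH N Q), c l * ξ'.1 l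
      = ∑ l : ↥(hkLN N Q), blockCoeff A l * (eqvIrr (hkIota N Q hQN) ξ').1 l := by
    rw [← Equiv.sum_comp (hkIota N Q hQN).toEquiv]
    apply Finset.sum_congr rfl
    intro l _
    have c1 : c ((l : ↥(Subgroup.normalizer (Q : Set G))) : G)
        = blockCoeff A ((hkIota N Q hQN l : ↥(hkLN N Q)) : N) := by
      rw [hcx]
      exact extendByZero_coe N (blockCoeff A) ((hkIota N Q hQN l : ↥(hkLN N Q)) : N)
    have c2 : (eqvIrr (hkIota N Q hQN) ξ').1 ((hkIota N Q hQN).toEquiv l) = ξ'.1 l := by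
      rw [eqvIrr_apply]
      exact congrArg ξ'.1 ((hkIota N Q hQN).symm_apply_apply l)
    rw [c2]
    exact congrArg (· * ξ'.1 l) c1
  -- step 5: from `N_N(Q)` to `N`
  have k2 := ind_sum_congr hM (hkLN N Q) (eqvIrr (hkIota N Q hQN) ξ') θ hindN (blockCoeff A)
    (fun g x => blockCoeff_conj_invariant A g x) hzR
  have e5 : ∑ n : N, blockCoeff A n * θ.1 n = θ.1 1 := by
    rw [Cfsg.Agent.H79.sum_blockCoeff_mul_irr A θ, if_pos hθA]
  have e6 : (eqvIrr (hkIota N Q hQN) ξ').1 1 = ξ'.1 1 := by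
    rw [eqvIrr_apply, map_one]
  have hθ1 : θ.1 1 ≠ 0 := irr_one_ne_zero θ
  have hχ1 : χ.1 1 ≠ 0 := irr_one_ne_zero χ
  rw [e5, div_self hθ1, ← e4, e6] at k2
  rw [e1, e2] at k1
  have e3' : (∑ l : ↥(hkLH N Q), c l * ψ.1 l) / ψ.1 1 = (∑ l : ↥(hkLH N Q), c l * ξ'.1 l) / ξ'.1 1 :=
    e3
  rw [e3'] at k1
  have hχCA : χ ∈ CA := by
    by_contra hnot
    rw [if_neg hnot, zero_div] at k1
    have h1 := memLocalIdeal_sub hM k2 k1
    have h2 : (1 - (∑ l : ↥(hkLH N Q), c l * ξ'.1 l) / ξ'.1 1)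
        - (0 - (∑ l : ↥(hkLH N Q), c l * ξ'.1 l) / ξ'.1 1) = 1 := by ring
    rw [h2] at h1
    exact not_memLocalIdeal_one hM h1
  rw [hCAdef] at hχCA
  obtain ⟨μ, hμA, hμ⟩ := hχCA
  rw [hAdef] at hμA
  obtain ⟨g, hg⟩ := hμA
  exact ⟨Cfsg.Agent.H79.conjIrr N g μ, hg,
    (Cfsg.Agent.H79.constituents_stable N (irr_isClassFunction χ) g μ).mpr hμ⟩

/-! ### Conjugation -/

theorem conjIrr_of_mem (n : N) (μ : IrrCharacter N) :
    Cfsg.Agent.H79.conjIrr N (n : G) μ = μ := by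
  apply Subtype.ext
  funext m
  rw [Cfsg.Agent.H79.conjIrr_apply]
  exact irr_isClassFunction μ m n

theorem conjIrr_eq_eqvIrr (g : G) (μ : IrrCharacter N) :
    Cfsg.Agent.H79.conjIrr N g μ = eqvIrr (MulAut.conjNormal g : N ≃* N).symm μ := by
  apply Subtype.ext
  funext m
  rw [Cfsg.Agent.H79.conjIrr_apply, eqvIrr_apply]
  rfl

omit hN [Fintype N] in
/-- In a finite group, an element conjugating `Q` into itself normalizes `Q`. -/
theorem mem_normalizer_of_conj_mem (h : G) (hh : ∀ q ∈ Q, h * q * h⁻¹ ∈ Q) :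
    h ∈ Subgroup.normalizer (Q : Set G) := by
  have hle : Q.map (MulAut.conj h).toMonoidHom ≤ Q := by
    rintro _ ⟨q, hq, rfl⟩
    exact hh q hq
  have heq : Q.map (MulAut.conj h).toMonoidHom = Q :=
    Subgroup.eq_of_le_of_card_ge hle
      (by rw [Subgroup.card_map_of_injective (MulAut.conj h).injective])
  rw [Subgroup.mem_normalizer_iff]
  intro q
  constructor
  · exact hh q
  · intro hq
    rw [← heq] at hq
    obtain ⟨q₀, hq₀, hq₀e⟩ := Subgroup.mem_map.mp hq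
    have h1 : q₀ = q := (MulAut.conj h).injective hq₀e
    rw [← h1]; exact hq₀

/-- Conjugating an induced pair by an element of `N_G(Q)`. -/
theorem hk_ind_conj (hM : M.IsPrime) (hQN : Q ≤ N)
    [Fintype ↥(Subgroup.normalizer (Q : Set G))] [Fintype ↥(hkLH N Q)] [Fintype ↥(hkLN N Q)]
    (ξ' : IrrCharacter ↥(hkLH N Q)) (θ : IrrCharacter N)
    (hindN : ∀ n : N, MemLocalIdeal M
      (inducedCentralChar (hkLN N Q) (eqvIrr (hkIota N Q hQN) ξ').1 n - centralChar θ.1 n))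
    (k : ↥(Subgroup.normalizer (Q : Set G))) :
    ∀ n : N, MemLocalIdeal M
      (inducedCentralChar (hkLN N Q)
          (eqvIrr (hkIota N Q hQN) (Cfsg.Agent.H79.conjIrr (hkLH N Q) k ξ')).1 n
        - centralChar (Cfsg.Agent.H79.conjIrr N (k : G) θ).1 n) := by
  classical
  apply ind_of_sum_congr hM (hkLN N Q) _ _
  intro c hc hcR
  obtain ⟨ck, hckdef⟩ : ∃ ck : N → ℂ,
      ck = fun n => c ((MulAut.conjNormal (k : G) : N ≃* N).symm n) := ⟨_, rfl⟩
  have hckx : ∀ n : N, ck n = c ((MulAut.conjNormal (k : G) : N ≃* N).symm n) := by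
    intro n; rw [hckdef]
  have hck : ∀ g x : N, ck (x * g * x⁻¹) = ck g := by
    intro g x
    rw [hckx, hckx, map_mul, map_mul, map_inv]
    exact hc _ _
  have hckR : ∀ g, MemLocalRing M (ck g) := by intro g; rw [hckx]; exact hcR _
  have key := ind_sum_congr hM (hkLN N Q) (eqvIrr (hkIota N Q hQN) ξ') θ hindN ck hck hckR
  have e1 : ∑ n : N, c n * (Cfsg.Agent.H79.conjIrr N (k : G) θ).1 n = ∑ n : N, ck n * θ.1 n := by
    rw [← Equiv.sum_comp (MulAut.conjNormal (k : G) : N ≃* N).toEquiv (fun n => ck n * θ.1 n)]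
    apply Finset.sum_congr rfl
    intro n _
    have c1 : ck ((MulAut.conjNormal (k : G) : N ≃* N).toEquiv n) = c n := by
      rw [hckx]
      exact congrArg c ((MulAut.conjNormal (k : G) : N ≃* N).symm_apply_apply n)
    rw [c1, Cfsg.Agent.H79.conjIrr_apply]
    rfl
  have e2 : ∑ l : ↥(hkLN N Q), c l * (eqvIrr (hkIota N Q hQN)
        (Cfsg.Agent.H79.conjIrr (hkLH N Q) k ξ')).1 l
      = ∑ l : ↥(hkLN N Q), ck l * (eqvIrr (hkIota N Q hQN) ξ').1 l := by
    obtain ⟨κ, hκdef⟩ : ∃ κ : ↥(hkLN N Q) ≃* ↥(hkLN N Q),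
        κ = (hkIota N Q hQN).symm.trans
          ((MulAut.conjNormal k : ↥(hkLH N Q) ≃* ↥(hkLH N Q)).trans (hkIota N Q hQN)) :=
      ⟨_, rfl⟩
    have hκ : ∀ l : ↥(hkLN N Q), (((κ l : ↥(hkLN N Q)) : N) : G)
        = (k : G) * ((l : N) : G) * (k : G)⁻¹ := by
      intro l; rw [hκdef]; rfl
    rw [← Equiv.sum_comp κ.toEquiv (fun l => ck l * (eqvIrr (hkIota N Q hQN) ξ').1 l)]
    apply Finset.sum_congr rfl
    intro l _
    have c1 : ck ((κ.toEquiv l : ↥(hkLN N Q)) : N) = c (l : N) := by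
      rw [hckx]
      apply congrArg c
      apply Subtype.ext
      rw [MulAut.conjNormal_symm_apply]
      have := hκ l
      rw [show ((κ.toEquiv l : ↥(hkLN N Q)) : N) = ((κ l : ↥(hkLN N Q)) : N) from rfl, this]
      group
    have c2 : (eqvIrr (hkIota N Q hQN) ξ').1 (κ.toEquiv l)
        = (eqvIrr (hkIota N Q hQN) (Cfsg.Agent.H79.conjIrr (hkLH N Q) k ξ')).1 l := by
      rw [eqvIrr_apply, eqvIrr_apply, Cfsg.Agent.H79.conjIrr_apply]
      apply congrArg ξ'.1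
      apply Subtype.ext
      apply Subtype.ext
      rw [hκdef]
      rfl
    rw [c1, c2]
  have e3 : (Cfsg.Agent.H79.conjIrr N (k : G) θ).1 1 = θ.1 1 :=
    Cfsg.Agent.H79.conjIrr_one_apply N _ θ
  have e4 : (eqvIrr (hkIota N Q hQN) (Cfsg.Agent.H79.conjIrr (hkLH N Q) k ξ')).1 1
      = (eqvIrr (hkIota N Q hQN) ξ').1 1 := by
    rw [eqvIrr_apply, eqvIrr_apply, map_one, Cfsg.Agent.H79.conjIrr_one_apply]
  rw [e1, e2, e3, e4]
  exact key

/-- If a block of `N_N(Q)` induces a block of `N` which is `G`-conjugate to a block with defect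
group `Q`, then the conjugating element may be taken in `N_G(Q)`. -/
theorem hk_exists_normalizer_conj (hM : IsPModular p M) (hQN : Q ≤ N) (hQ : IsPGroup p Q)
    [Fintype ↥(hkLN N Q)]
    (θ₀ : IrrCharacter N) (hdefd : IsDefectGroup p M (blockOf M θ₀.1) (Q.subgroupOf N))
    (ξ₁ : IrrCharacter ↥(hkLN N Q)) (θ₁ : IrrCharacter N)
    (hindN₁ : ∀ n : N, MemLocalIdeal M
      (inducedCentralChar (hkLN N Q) ξ₁.1 n - centralChar θ₁.1 n))
    (g : G) (hg : Cfsg.Agent.H79.conjIrr N g θ₁ ∈ blockOf M θ₀.1) :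
    ∃ k ∈ Subgroup.normalizer (Q : Set G), Cfsg.Agent.H79.conjIrr N k θ₁ ∈ blockOf M θ₀.1 := by
  classical
  have hp : p.Prime := Fact.out
  have hMp := isPrime_of_isPModular hM
  have hQ'p : IsPGroup p (Q.subgroupOf N) := hQ.comap_subtype
  have hdeq : blockDefect p (blockOf M θ₁.1) = blockDefect p (blockOf M θ₀.1) := by
    rw [← blockDefect_blockOf_conjIrr N g θ₁, blockOf_eq_of_mem hMp hg]
  obtain ⟨y, hy⟩ := Cfsg.Agent.S0906.result p M hM (blockOf M θ₁.1) ⟨θ₁, rfl⟩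
  obtain ⟨S⟩ := (inferInstance : Nonempty (Sylow p (Subgroup.centralizer ({y} : Set N))))
  obtain ⟨D, hDdef⟩ : ∃ D : Subgroup N, D = (S : Subgroup (Subgroup.centralizer
      ({y} : Set N))).map (Subgroup.centralizer ({y} : Set N)).subtype := ⟨_, rfl⟩
  have hD : IsDefectGroup p M (blockOf M θ₁.1) D := ⟨y, hy, S, hDdef⟩
  obtain ⟨l, hl1, hl2⟩ := Cfsg.Agent.H79.exists_coeff_centralChar_of_induced hMp (hkLN N Q)
    ξ₁ θ₁ hindN₁
  haveI hnorm : ((Q.subgroupOf N).subgroupOf (hkLN N Q)).Normal :=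
    Subgroup.normal_in_normalizer
  have hlc : l ∈ Subgroup.centralizer
      ((((Q.subgroupOf N).subgroupOf (hkLN N Q)) : Subgroup ↥(hkLN N Q)) : Set ↥(hkLN N Q)) := by
    by_contra hnot
    exact hl2 (Cfsg.Agent.H84.centralChar_memLocalIdeal_of_not_mem_centralizer hM
      ((Q.subgroupOf N).subgroupOf (hkLN N Q)) hQ'p.comap_subtype l hnot ξ₁)
  have hQl : Q.subgroupOf N ≤ Subgroup.centralizer ({(l : N)} : Set N) := by
    intro q hq
    rw [Subgroup.mem_centralizer_iff]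
    intro m hm
    rw [Set.mem_singleton_iff] at hm
    subst hm
    have hq' : (⟨q, Subgroup.le_normalizer hq⟩ : ↥(hkLN N Q))
        ∈ (Q.subgroupOf N).subgroupOf (hkLN N Q) := Subgroup.mem_subgroupOf.mpr hq
    have h1 := Subgroup.mem_centralizer_iff.mp hlc _ hq'
    exact (congrArg Subtype.val h1).symm
  obtain ⟨x, hx⟩ := Cfsg.Agent.H79.exists_conj_le_defectGroup hM θ₁ D hD (l : N) hl1
    (Q.subgroupOf N) hQ'p hQl
  have hcardD : Nat.card D = Nat.card (Q.subgroupOf N) := by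
    rw [card_defectGroup hM θ₁ D hD, card_defectGroup hM θ₀ _ hdefd, hdeq]
  have hDeq : (Q.subgroupOf N).map (MulAut.conj x).toMonoidHom = D := by
    apply Subgroup.eq_of_le_of_card_ge hx
    rw [hcardD, Subgroup.card_map_of_injective (MulAut.conj x).injective]
  have hconj : Cfsg.Agent.H79.conjIrr N g θ₁
      = eqvIrr (MulAut.conjNormal g : N ≃* N).symm θ₁ := conjIrr_eq_eqvIrr N g θ₁
  have hD2 := isDefectGroup_eqvIrr_image (MulAut.conjNormal g : N ≃* N).symm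
    (blockOf M θ₁.1) D hD
  rw [eqvIrr_image_blockOf, ← hconj, blockOf_eq_of_mem hMp hg] at hD2
  obtain ⟨x', hx'⟩ := isDefectGroup_conj_eq p hM ⟨θ₀, rfl⟩ hD2 hdefd
  refine ⟨(x : G)⁻¹ * g * (x' : G)⁻¹, ?_, ?_⟩
  · have hh : (x' : G) * g⁻¹ * (x : G) ∈ Subgroup.normalizer (Q : Set G) := by
      apply mem_normalizer_of_conj_mem
      intro q hq
      have hqN : (⟨q, hQN hq⟩ : N) ∈ Q.subgroupOf N := Subgroup.mem_subgroupOf.mpr hq
      have h1 : (MulAut.conj x) ⟨q, hQN hq⟩ ∈ D := by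
        rw [← hDeq]; exact Subgroup.mem_map_of_mem _ hqN
      have h2 : (MulAut.conjNormal g : N ≃* N).symm ((MulAut.conj x) ⟨q, hQN hq⟩)
          ∈ D.map (MulAut.conjNormal g : N ≃* N).symm.toMonoidHom :=
        Subgroup.mem_map_of_mem _ h1
      have h3 : (MulAut.conj x') ((MulAut.conjNormal g : N ≃* N).symm
          ((MulAut.conj x) ⟨q, hQN hq⟩)) ∈ Q.subgroupOf N := by
        rw [← hx']; exact Subgroup.mem_map_of_mem _ h2
      have h4 := Subgroup.mem_subgroupOf.mp h3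
      have h5 : (((MulAut.conj x') ((MulAut.conjNormal g : N ≃* N).symm
          ((MulAut.conj x) ⟨q, hQN hq⟩)) : N) : G)
          = (x' : G) * g⁻¹ * (x : G) * q * ((x' : G) * g⁻¹ * (x : G))⁻¹ := by
        simp only [MulAut.conj_apply, Subgroup.coe_mul, Subgroup.coe_inv,
          MulAut.conjNormal_symm_apply]
        group
      rw [← h5]; exact h4
    have h6 := Subgroup.inv_mem _ hh
    have h7 : ((x' : G) * g⁻¹ * (x : G))⁻¹ = (x : G)⁻¹ * g * (x' : G)⁻¹ := by group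
    rw [← h7]; exact h6
  · have e : Cfsg.Agent.H79.conjIrr N ((x : G)⁻¹ * g * (x' : G)⁻¹) θ₁
        = Cfsg.Agent.H79.conjIrr N g θ₁ := by
      rw [← Cfsg.Agent.H79.conjIrr_conjIrr, ← Cfsg.Agent.H79.conjIrr_conjIrr]
      have h8 : Cfsg.Agent.H79.conjIrr N (x : G)⁻¹ θ₁ = θ₁ := conjIrr_of_mem N x⁻¹ θ₁
      have h9 : Cfsg.Agent.H79.conjIrr N (x' : G)⁻¹ (Cfsg.Agent.H79.conjIrr N g θ₁)
          = Cfsg.Agent.H79.conjIrr N g θ₁ := conjIrr_of_mem N x'⁻¹ _
      rw [h8, h9]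
    rw [e]; exact hg

/-- **Covering goes down.**  If the block of `ψ ∈ Irr(N_G(Q))` induces the block of `χ`, which
covers the block `d` of `N` with defect group `Q`, then `ψ` lies over a member of the Brauer
correspondent of `d`. -/
theorem hk_cover_down (hM : IsPModular p M) (hQN : Q ≤ N) (hQ : IsPGroup p Q)
    [Fintype ↥(Subgroup.normalizer (Q : Set G))] [Fintype ↥(hkLH N Q)] [Fintype ↥(hkLN N Q)]
    (θ₀ : IrrCharacter N) (hdefd : IsDefectGroup p M (blockOf M θ₀.1) (Q.subgroupOf N))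
    (ξ₀ : IrrCharacter ↥(hkLN N Q))
    (hdefe : IsDefectGroup p M (blockOf M ξ₀.1) ((Q.subgroupOf N).subgroupOf (hkLN N Q)))
    (hind₀ : IsInducedBlock M (hkLN N Q) (blockOf M ξ₀.1) (blockOf M θ₀.1))
    (ψ : IrrCharacter ↥(Subgroup.normalizer (Q : Set G))) (χ : IrrCharacter G)
    (hindG : ∀ g : G, MemLocalIdeal M
      (inducedCentralChar (Subgroup.normalizer (Q : Set G)) ψ.1 g - centralChar χ.1 g))
    (hcov : classInner (fun n : N => χ.1 n) θ₀.1 ≠ 0) :
    ∃ ξ' : IrrCharacter ↥(hkLH N Q), eqvIrr (hkIota N Q hQN) ξ' ∈ blockOf M ξ₀.1 ∧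
      classInner (fun l : ↥(hkLH N Q) => ψ.1 l) ξ'.1 ≠ 0 := by
  classical
  have hMp := isPrime_of_isPModular hM
  have hQ'p : IsPGroup p (Q.subgroupOf N) := hQ.comap_subtype
  obtain ⟨ξ₁', hξ₁'⟩ := Cfsg.Agent.H79.exists_constituent_res (hkLH N Q) ψ
  obtain ⟨θ₁, hind₁, -⟩ := exists_isInducedBlock (P := Q.subgroupOf N) (H := hkLN N Q) hM hQ'p
    Subgroup.le_normalizer (Subgroup.centralizer_le_normalizer _) le_rfl
    (eqvIrr (hkIota N Q hQN) ξ₁')
  have hindN₁ : ∀ n : N, MemLocalIdeal M (inducedCentralChar (hkLN N Q)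
      (eqvIrr (hkIota N Q hQN) ξ₁').1 n - centralChar θ₁.1 n) :=
    fun n => hind₁.2.2 _ (mem_blockOf_self hMp _) θ₁ (mem_blockOf_self hMp θ₁) n
  obtain ⟨θ₁', hθ₁', hcov₁⟩ := hk_cover_of_induced N Q hMp hQN ψ ξ₁' hξ₁' θ₁ hindN₁ χ hindG
  obtain ⟨g, hg⟩ := Cfsg.Agent.H79.mem_orbitSet_of_sameBlock_over hMp N χ χ
    (sameBlock_refl hMp _) θ₀ θ₁' hcov hcov₁
  have hg₁ : Cfsg.Agent.H79.conjIrr N g θ₁ ∈ blockOf M θ₀.1 := by
    have h1 : SameBlock M (Cfsg.Agent.H79.conjIrr N g θ₁).1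
        (Cfsg.Agent.H79.conjIrr N g θ₁').1 :=
      (Cfsg.Agent.H79.sameBlock_conjIrr N g θ₁ θ₁').mpr hθ₁'
    exact sameBlock_trans hMp hg (sameBlock_symm h1)
  obtain ⟨k, hk, hkθ⟩ := hk_exists_normalizer_conj N Q hM hQN hQ θ₀ hdefd
    (eqvIrr (hkIota N Q hQN) ξ₁') θ₁ hindN₁ g hg₁
  have hindN₂ := hk_ind_conj N Q hMp hQN ξ₁' θ₁ hindN₁ ⟨k, hk⟩
  have hi2 := Cfsg.Agent.H79.isInducedBlock_of_congr hMp (hkLN N Q) _ _ hindN₂
  rw [blockOf_eq_of_mem hMp hkθ] at hi2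
  have huniq := first_main_unique hM (Q.subgroupOf N) hQ'p θ₀ ξ₀ _ hdefe hind₀ hi2
  refine ⟨Cfsg.Agent.H79.conjIrr (hkLH N Q) ⟨k, hk⟩ ξ₁', ?_, ?_⟩
  · rw [← huniq]; exact mem_blockOf_self hMp _
  · exact (Cfsg.Agent.H79.constituents_stable (hkLH N Q) (irr_isClassFunction ψ)
      ⟨k, hk⟩ ξ₁').mpr hξ₁'

/-- A block of `G` covering a block of `N` with defect group `Q` is induced from `N_G(Q)`. -/
theorem hk_exists_induced (hM : IsPModular p M) (hQN : Q ≤ N) (hQ : IsPGroup p Q)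
    [Fintype ↥(Subgroup.normalizer (Q : Set G))]
    (θ₀ : IrrCharacter N) (hdefd : IsDefectGroup p M (blockOf M θ₀.1) (Q.subgroupOf N))
    (χ : IrrCharacter G) (hcov : classInner (fun n : N => χ.1 n) θ₀.1 ≠ 0) :
    ∃ ψ : IrrCharacter ↥(Subgroup.normalizer (Q : Set G)),
      IsInducedBlock M (Subgroup.normalizer (Q : Set G)) (blockOf M ψ.1) (blockOf M χ.1) := by
  obtain ⟨g, hgQ, hg⟩ := exists_centralizing_coeff N hM θ₀ χ hcov Q hQN hdefd
  obtain ⟨ψ, hψ, -⟩ := Cfsg.Agent.H79.exists_isInducedBlock_of_coeff hM Q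
    (Subgroup.normalizer (Q : Set G)) hQ Subgroup.le_normalizer
    (Subgroup.centralizer_le_normalizer _) le_rfl χ g hgQ hg
  exact ⟨ψ, hψ⟩

end HK

section Over

variable {G : Type u} [Group G] [Fintype G] {p : ℕ} [Fact p.Prime] {M : Ideal AlgInt}

/-- Transitivity through the first main theorem: a block of `H ⊇ N_G(P)` with defect group `P`
inducing the block of `χ` comes from a block of `N_H(P) ≅ N_G(P)` with defect group `P` which
induces the block of `χ`. -/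
theorem exists_normalizer_induced_over (hM : IsPModular p M) (P H : Subgroup G) [Fintype H]
    (hP : IsPGroup p P) (hH : Subgroup.normalizer (P : Set G) ≤ H) (ψ : IrrCharacter H)
    (χ : IrrCharacter G)
    (hdef : IsDefectGroup p M (blockOf M ψ.1) (P.subgroupOf H))
    (hind : ∀ g : G, MemLocalIdeal M (inducedCentralChar H ψ.1 g - centralChar χ.1 g)) :
    ∃ ξ'' : IrrCharacter ↥(Subgroup.normalizer ((P.subgroupOf H : Subgroup H) : Set H)),
      IsInducedBlock M (Subgroup.normalizer ((P.subgroupOf H : Subgroup H) : Set H))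
        (blockOf M ξ''.1) (blockOf M ψ.1) ∧
      IsDefectGroup p M
        (blockOf M (eqvIrr (normEquiv P H (Subgroup.le_normalizer.trans hH) hH) ξ'').1)
        (P.subgroupOf (Subgroup.normalizer (P : Set G))) ∧
      IsInducedBlock M (Subgroup.normalizer (P : Set G))
        (blockOf M (eqvIrr (normEquiv P H (Subgroup.le_normalizer.trans hH) hH) ξ'').1)
        (blockOf M χ.1) := by
  classical
  have hMp := isPrime_of_isPModular hM
  have hPH : P ≤ H := Subgroup.le_normalizer.trans hH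
  have hPHp : IsPGroup p (P.subgroupOf H) := hP.comap_subtype
  letI : Fintype ↥(Subgroup.normalizer ((P.subgroupOf H : Subgroup H) : Set H)) :=
    Fintype.ofFinite _
  letI : Fintype ↥(Subgroup.normalizer (P : Set G)) := Fintype.ofFinite _
  obtain ⟨ξ'', hdef'', hind''⟩ := first_main_exists hM (P.subgroupOf H) hPHp ψ hdef
  refine ⟨ξ'', hind'', ?_, ?_⟩
  · rw [← eqvIrr_image_blockOf, ← map_normEquiv P H hPH hH]
    exact isDefectGroup_eqvIrr_image (normEquiv P H hPH hH) _ _ hdef''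
  · apply Cfsg.Agent.H79.isInducedBlock_of_congr hMp
    apply ind_of_sum_congr hMp
    intro c hc hcR
    have k1 := ind_sum_congr hMp H ψ χ hind c hc hcR
    have hindH : ∀ h : H, MemLocalIdeal M (inducedCentralChar
        (Subgroup.normalizer ((P.subgroupOf H : Subgroup H) : Set H)) ξ''.1 h
        - centralChar ψ.1 h) :=
      fun h => hind''.2.2 ξ'' (mem_blockOf_self hMp ξ'') ψ (mem_blockOf_self hMp ψ) h
    have k2 := ind_sum_congr hMp (Subgroup.normalizer ((P.subgroupOf H : Subgroup H) : Set H))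
      ξ'' ψ hindH (fun h : H => c h) (fun g x => hc (g : G) (x : G)) (fun g => hcR _)
    have e1 : ∑ k : ↥(Subgroup.normalizer ((P.subgroupOf H : Subgroup H) : Set H)),
        c ((k : H) : G) * ξ''.1 k
        = ∑ k₀ : ↥(Subgroup.normalizer (P : Set G)),
          c k₀ * (eqvIrr (normEquiv P H hPH hH) ξ'').1 k₀ := by
      rw [← Equiv.sum_comp (normEquiv P H hPH hH).toEquiv]
      apply Finset.sum_congr rfl
      intro k _
      have c2 : (eqvIrr (normEquiv P H hPH hH) ξ'').1 ((normEquiv P H hPH hH).toEquiv k)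
          = ξ''.1 k := by
        rw [eqvIrr_apply]
        exact congrArg ξ''.1 ((normEquiv P H hPH hH).symm_apply_apply k)
      rw [c2]
      rfl
    have e2 : (eqvIrr (normEquiv P H hPH hH) ξ'').1 1 = ξ''.1 1 := by
      rw [eqvIrr_apply, map_one]
    rw [← e1, e2]
    have k3 := memLocalIdeal_add hMp k1 k2
    rw [sub_add_sub_cancel] at k3
    exact k3

/-- A block of `H ⊇ N_G(P)` with defect group `P` induces a block with defect group `P`. -/
theorem defectGroup_of_induced_over (hM : IsPModular p M) (P H : Subgroup G) [Fintype H]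
    (hP : IsPGroup p P) (hH : Subgroup.normalizer (P : Set G) ≤ H) (ψ : IrrCharacter H)
    (χ : IrrCharacter G)
    (hdef : IsDefectGroup p M (blockOf M ψ.1) (P.subgroupOf H))
    (hind : ∀ g : G, MemLocalIdeal M (inducedCentralChar H ψ.1 g - centralChar χ.1 g)) :
    IsDefectGroup p M (blockOf M χ.1) P := by
  have hMp := isPrime_of_isPModular hM
  obtain ⟨ξ'', -, hdefN, hindN⟩ := exists_normalizer_induced_over hM P H hP hH ψ χ hdef hind
  obtain ⟨χ₀, hdefG, hindG⟩ := first_main_i hM P hP _ hdefN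
  rw [← isInducedBlock_unique hMp hindG hindN]
  exact hdefG

/-- Two blocks of `H ⊇ N_G(P)` with defect group `P` inducing the same block coincide. -/
theorem induced_over_unique (hM : IsPModular p M) (P H : Subgroup G) [Fintype H]
    (hP : IsPGroup p P) (hH : Subgroup.normalizer (P : Set G) ≤ H) (ψ ψ' : IrrCharacter H)
    (χ : IrrCharacter G)
    (hdef : IsDefectGroup p M (blockOf M ψ.1) (P.subgroupOf H))
    (hdef' : IsDefectGroup p M (blockOf M ψ'.1) (P.subgroupOf H))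
    (hind : ∀ g : G, MemLocalIdeal M (inducedCentralChar H ψ.1 g - centralChar χ.1 g))
    (hind' : ∀ g : G, MemLocalIdeal M (inducedCentralChar H ψ'.1 g - centralChar χ.1 g)) :
    blockOf M ψ'.1 = blockOf M ψ.1 := by
  have hMp := isPrime_of_isPModular hM
  have hPH : P ≤ H := Subgroup.le_normalizer.trans hH
  obtain ⟨ξ₁, hi₁, hdefN₁, hindN₁⟩ := exists_normalizer_induced_over hM P H hP hH ψ χ hdef hind
  obtain ⟨ξ₂, hi₂, -, hindN₂⟩ := exists_normalizer_induced_over hM P H hP hH ψ' χ hdef' hind'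
  have huniq := first_main_unique hM P hP χ _ _ hdefN₁ hindN₁ hindN₂
  have hmem : eqvIrr (normEquiv P H hPH hH) ξ₂ ∈ blockOf M (eqvIrr (normEquiv P H hPH hH) ξ₁).1 := by
    rw [← huniq]; exact mem_blockOf_self hMp _
  have hsame : SameBlock M ξ₁.1 ξ₂.1 := by
    have h1 := sameBlock_eqvIrr (M := M) (normEquiv P H hPH hH).symm hmem
    rwa [eqvIrr_symm_eqvIrr, eqvIrr_symm_eqvIrr] at h1
  have hbe : blockOf M ξ₂.1 = blockOf M ξ₁.1 := blockOf_eq_of_sameBlock hMp hsame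
  rw [hbe] at hi₂
  exact isInducedBlock_unique hMp hi₂ hi₁

end Over

section HK2

variable {G : Type u} [Group G] [Fintype G] {p : ℕ} [Fact p.Prime] {M : Ideal AlgInt}
  (N : Subgroup G) [hN : N.Normal] [Fintype N] (Q : Subgroup G)

omit [Fintype G] [Fintype N] in
/-- The normalizer of `P` normalizes `P ⊓ N`. -/
theorem normalizer_le_normalizer_inf (P : Subgroup G) :
    Subgroup.normalizer (P : Set G) ≤ Subgroup.normalizer ((P ⊓ N : Subgroup G) : Set G) := by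
  intro g hg
  rw [Subgroup.mem_normalizer_iff] at hg ⊢
  intro q
  constructor
  · rintro ⟨h1, h2⟩
    exact ⟨(hg q).mp h1, hN.conj_mem q h2 g⟩
  · rintro ⟨h1, h2⟩
    refine ⟨(hg q).mpr h1, ?_⟩
    have h3 := hN.conj_mem _ h2 g⁻¹
    have h4 : g⁻¹ * (g * q * g⁻¹) * g⁻¹⁻¹ = q := by group
    rwa [h4] at h3

/-- **Uniqueness.**  Two blocks of `N_G(Q)` covering the Brauer correspondent of `d` and inducing
the same block of `G` coincide. -/
theorem hk_unique (hM : IsPModular p M) (hQN : Q ≤ N)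
    [Fintype ↥(Subgroup.normalizer (Q : Set G))] [Fintype ↥(hkLH N Q)] [Fintype ↥(hkLN N Q)]
    (ξ₀ : IrrCharacter ↥(hkLN N Q))
    (hdefe : IsDefectGroup p M (blockOf M ξ₀.1) ((Q.subgroupOf N).subgroupOf (hkLN N Q)))
    (ψ ψ' : IrrCharacter ↥(Subgroup.normalizer (Q : Set G))) (χ : IrrCharacter G)
    (ε ε' : IrrCharacter ↥(hkLH N Q))
    (hε : eqvIrr (hkIota N Q hQN) ε ∈ blockOf M ξ₀.1)
    (hε' : eqvIrr (hkIota N Q hQN) ε' ∈ blockOf M ξ₀.1)
    (hover : classInner (fun l : ↥(hkLH N Q) => ψ.1 l) ε.1 ≠ 0)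
    (hover' : classInner (fun l : ↥(hkLH N Q) => ψ'.1 l) ε'.1 ≠ 0)
    (hind : ∀ g : G, MemLocalIdeal M
      (inducedCentralChar (Subgroup.normalizer (Q : Set G)) ψ.1 g - centralChar χ.1 g))
    (hind' : ∀ g : G, MemLocalIdeal M
      (inducedCentralChar (Subgroup.normalizer (Q : Set G)) ψ'.1 g - centralChar χ.1 g)) :
    blockOf M ψ'.1 = blockOf M ψ.1 := by
  classical
  have hMp := isPrime_of_isPModular hM
  -- the defect group of the block of `ε` (and `ε'`) in `N ∩ N_G(Q)`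
  have hmap : ((Q.subgroupOf N).subgroupOf (hkLN N Q)).map (hkIota N Q hQN).symm.toMonoidHom
      = (Q.subgroupOf (Subgroup.normalizer (Q : Set G))).subgroupOf (hkLH N Q) := by
    ext x
    constructor
    · rintro ⟨y, hy, rfl⟩
      exact hy
    · intro hx
      exact ⟨hkIota N Q hQN x, hx, (hkIota N Q hQN).symm_apply_apply x⟩
  have hdefL : ∀ ε₁ : IrrCharacter ↥(hkLH N Q), eqvIrr (hkIota N Q hQN) ε₁ ∈ blockOf M ξ₀.1 →
      IsDefectGroup p M (blockOf M ε₁.1)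
        ((Q.subgroupOf (Subgroup.normalizer (Q : Set G))).subgroupOf (hkLH N Q)) := by
    intro ε₁ hε₁
    have h1 := isDefectGroup_eqvIrr_image (hkIota N Q hQN).symm (blockOf M ξ₀.1) _ hdefe
    rw [hmap, eqvIrr_image_blockOf] at h1
    have h2 : ε₁ ∈ blockOf M (eqvIrr (hkIota N Q hQN).symm ξ₀).1 := by
      have h3 := sameBlock_eqvIrr (M := M) (hkIota N Q hQN).symm hε₁
      rwa [eqvIrr_symm_eqvIrr] at h3
    rw [blockOf_eq_of_mem hMp h2]
    exact h1
  have hQH : Q.subgroupOf (Subgroup.normalizer (Q : Set G)) ≤ hkLH N Q := by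
    intro x hx
    exact Subgroup.mem_subgroupOf.mpr (hQN (Subgroup.mem_subgroupOf.mp hx))
  obtain ⟨P', hP', hP'Q⟩ := knorr_cover (hkLH N Q) hM ε ψ hover
    (Q.subgroupOf (Subgroup.normalizer (Q : Set G))) hQH (hdefL ε hε)
  obtain ⟨P'', hP'', hP''Q⟩ := knorr_cover (hkLH N Q) hM ε' ψ' hover'
    (Q.subgroupOf (Subgroup.normalizer (Q : Set G))) hQH (hdefL ε' hε')
  -- pass to subgroups of `G`
  have key : ∀ (R : Subgroup ↥(Subgroup.normalizer (Q : Set G))),
      R ⊓ hkLH N Q = Q.subgroupOf (Subgroup.normalizer (Q : Set G)) →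
      (R.map (Subgroup.normalizer (Q : Set G)).subtype) ⊓ N = Q := by
    intro R hR
    ext g
    constructor
    · rintro ⟨⟨x, hx, rfl⟩, h2⟩
      have h3 : x ∈ R ⊓ hkLH N Q := ⟨hx, Subgroup.mem_subgroupOf.mpr h2⟩
      rw [hR] at h3
      exact Subgroup.mem_subgroupOf.mp h3
    · intro hg
      have h1 : (⟨g, Subgroup.le_normalizer hg⟩ : ↥(Subgroup.normalizer (Q : Set G)))
          ∈ Q.subgroupOf (Subgroup.normalizer (Q : Set G)) := Subgroup.mem_subgroupOf.mpr hg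
      rw [← hR] at h1
      exact ⟨⟨_, h1.1, rfl⟩, hQN hg⟩
  have hsub : ∀ (R : Subgroup ↥(Subgroup.normalizer (Q : Set G))),
      (R.map (Subgroup.normalizer (Q : Set G)).subtype).subgroupOf
        (Subgroup.normalizer (Q : Set G)) = R := fun R =>
    Subgroup.comap_map_eq_self_of_injective (Subgroup.subtype_injective _) R
  have hnorm : ∀ (R : Subgroup ↥(Subgroup.normalizer (Q : Set G))),
      R ⊓ hkLH N Q = Q.subgroupOf (Subgroup.normalizer (Q : Set G)) →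
      Subgroup.normalizer ((R.map (Subgroup.normalizer (Q : Set G)).subtype : Subgroup G) : Set G)
        ≤ Subgroup.normalizer (Q : Set G) := by
    intro R hR
    have h1 := normalizer_le_normalizer_inf N (R.map (Subgroup.normalizer (Q : Set G)).subtype)
    rwa [key R hR] at h1
  obtain ⟨P₁, hP₁def⟩ : ∃ P₁ : Subgroup G,
      P₁ = P'.map (Subgroup.normalizer (Q : Set G)).subtype := ⟨_, rfl⟩
  obtain ⟨P₂, hP₂def⟩ : ∃ P₂ : Subgroup G,
      P₂ = P''.map (Subgroup.normalizer (Q : Set G)).subtype := ⟨_, rfl⟩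
  have hP₁p : IsPGroup p P₁ := by
    rw [hP₁def]; exact (isPGroup_of_isDefectGroup hP').map _
  have hP₂p : IsPGroup p P₂ := by
    rw [hP₂def]; exact (isPGroup_of_isDefectGroup hP'').map _
  have hP₁N : Subgroup.normalizer (P₁ : Set G) ≤ Subgroup.normalizer (Q : Set G) := by
    rw [hP₁def]; exact hnorm P' hP'Q
  have hP₂N : Subgroup.normalizer (P₂ : Set G) ≤ Subgroup.normalizer (Q : Set G) := by
    rw [hP₂def]; exact hnorm P'' hP''Q
  have hP₁sub : P₁.subgroupOf (Subgroup.normalizer (Q : Set G)) = P' := by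
    rw [hP₁def]; exact hsub P'
  have hP₂sub : P₂.subgroupOf (Subgroup.normalizer (Q : Set G)) = P'' := by
    rw [hP₂def]; exact hsub P''
  have hP₁Q : P₁ ⊓ N = Q := by rw [hP₁def]; exact key P' hP'Q
  have hP₂Q : P₂ ⊓ N = Q := by rw [hP₂def]; exact key P'' hP''Q
  -- both are defect groups of the block of `χ`
  have hd₁ : IsDefectGroup p M (blockOf M χ.1) P₁ :=
    defectGroup_of_induced_over hM P₁ _ hP₁p hP₁N ψ χ (by rw [hP₁sub]; exact hP') hind
  have hd₂ : IsDefectGroup p M (blockOf M χ.1) P₂ :=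
    defectGroup_of_induced_over hM P₂ _ hP₂p hP₂N ψ' χ (by rw [hP₂sub]; exact hP'') hind'
  obtain ⟨x, hx⟩ := isDefectGroup_conj_eq p hM ⟨χ, rfl⟩ hd₁ hd₂
  have hxQ : x ∈ Subgroup.normalizer (Q : Set G) := by
    apply mem_normalizer_of_conj_mem
    intro q hq
    rw [← hP₁Q] at hq
    have h1 : x * q * x⁻¹ ∈ P₂ := by
      rw [← hx]
      exact ⟨q, hq.1, rfl⟩
    have h2 : x * q * x⁻¹ ∈ P₂ ⊓ N := ⟨h1, hN.conj_mem q hq.2 x⟩
    rwa [hP₂Q] at h2
  -- `P''` is a defect group of the block of `ψ` as well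
  have hconj : P'.map (MulAut.conj (⟨x, hxQ⟩ : ↥(Subgroup.normalizer (Q : Set G)))).toMonoidHom
      = P'' := by
    rw [← hP₂sub]
    ext y
    constructor
    · rintro ⟨a, ha, rfl⟩
      rw [Subgroup.mem_subgroupOf, ← hx]
      refine ⟨(a : G), ?_, rfl⟩
      rw [hP₁def]
      exact ⟨a, ha, rfl⟩
    · intro hy
      rw [Subgroup.mem_subgroupOf, ← hx] at hy
      obtain ⟨b, hb, hbe⟩ := hy
      rw [hP₁def] at hb
      obtain ⟨a, ha, rfl⟩ := hb
      refine ⟨a, ha, ?_⟩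
      apply Subtype.ext
      exact hbe
  have hdψ : IsDefectGroup p M (blockOf M ψ.1)
      (P₂.subgroupOf (Subgroup.normalizer (Q : Set G))) := by
    rw [hP₂sub, ← hconj]
    exact Cfsg.Agent.H81.isDefectGroup_map_conj hP' _
  exact induced_over_unique hM P₂ _ hP₂p hP₂N ψ ψ' χ hdψ (by rw [hP₂sub]; exact hP'')
    hind hind'

/-- **The Harris–Knörr correspondence**, in native form. -/
theorem harris_knorr_native (hM : IsPModular p M) (hQN : Q ≤ N) (hQ : IsPGroup p Q)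
    [Fintype ↥(Subgroup.normalizer (Q : Set G))] [Fintype ↥(hkLH N Q)] [Fintype ↥(hkLN N Q)]
    (d : Set (IrrCharacter N)) (hdefd : IsDefectGroup p M d (Q.subgroupOf N))
    (eN : Set (IrrCharacter ↥(hkLN N Q)))
    (hdefe : IsDefectGroup p M eN ((Q.subgroupOf N).subgroupOf (hkLN N Q)))
    (hind₀ : IsInducedBlock M (hkLN N Q) eN d) :
    (∀ c : Set (IrrCharacter ↥(Subgroup.normalizer (Q : Set G))), IsPBlock M c →
      (∃ ψ ∈ c, ∃ ε : IrrCharacter ↥(hkLH N Q), eqvIrr (hkIota N Q hQN) ε ∈ eN ∧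
        classInner (fun l : ↥(hkLH N Q) => ψ.1 l) ε.1 ≠ 0) →
      ∃! B : Set (IrrCharacter G), IsInducedBlock M (Subgroup.normalizer (Q : Set G)) c B ∧
        (∃ χ ∈ B, ∃ θ ∈ d, classInner (fun n : N => χ.1 n) θ.1 ≠ 0)) ∧
    (∀ B : Set (IrrCharacter G), IsPBlock M B →
      (∃ χ ∈ B, ∃ θ ∈ d, classInner (fun n : N => χ.1 n) θ.1 ≠ 0) →
      ∃! c : Set (IrrCharacter ↥(Subgroup.normalizer (Q : Set G))),
        (IsPBlock M c ∧ ∃ ψ ∈ c, ∃ ε : IrrCharacter ↥(hkLH N Q),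
          eqvIrr (hkIota N Q hQN) ε ∈ eN ∧
          classInner (fun l : ↥(hkLH N Q) => ψ.1 l) ε.1 ≠ 0) ∧
        IsInducedBlock M (Subgroup.normalizer (Q : Set G)) c B) := by
  classical
  have hMp := isPrime_of_isPModular hM
  obtain ⟨ξ₀, rfl⟩ := hind₀.1
  constructor
  · rintro c ⟨ψ₁, rfl⟩ ⟨ψ, hψ, ε, hε, hover⟩
    obtain ⟨θ₀, hdθ⟩ := hind₀.2.1
    have hθ₀ : θ₀ ∈ d := by rw [hdθ]; exact mem_blockOf_self hMp θ₀
    rw [← blockOf_eq_of_mem hMp hψ]
    obtain ⟨χ₁, hI, -⟩ := exists_isInducedBlock (P := Q) (H := Subgroup.normalizer (Q : Set G))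
      hM hQ Subgroup.le_normalizer (Subgroup.centralizer_le_normalizer _) le_rfl ψ
    have hindG : ∀ g : G, MemLocalIdeal M
        (inducedCentralChar (Subgroup.normalizer (Q : Set G)) ψ.1 g - centralChar χ₁.1 g) :=
      fun g => hI.2.2 ψ (mem_blockOf_self hMp ψ) χ₁ (mem_blockOf_self hMp χ₁) g
    have hindN : ∀ n : N, MemLocalIdeal M (inducedCentralChar (hkLN N Q)
        (eqvIrr (hkIota N Q hQN) ε).1 n - centralChar θ₀.1 n) :=
      fun n => hind₀.2.2 _ hε θ₀ hθ₀ n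
    obtain ⟨θ', hθ', hcov⟩ := hk_cover_of_induced N Q hMp hQN ψ ε hover θ₀ hindN χ₁ hindG
    refine ⟨blockOf M χ₁.1, ⟨hI, χ₁, mem_blockOf_self hMp χ₁, θ', ?_, hcov⟩, ?_⟩
    · rw [hdθ]; exact hθ'
    · rintro B' ⟨hI', -⟩
      exact isInducedBlock_unique hMp hI' hI
  · rintro B ⟨χ₁, rfl⟩ ⟨χ, hχ, θ, hθ, hcov⟩
    obtain ⟨θ₀, hdθ⟩ := hind₀.2.1
    have hdeq : d = blockOf M θ.1 := by
      rw [hdθ] at hθ ⊢
      exact (blockOf_eq_of_mem hMp hθ).symm
    rw [← blockOf_eq_of_mem hMp hχ]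
    rw [hdeq] at hdefd hind₀
    obtain ⟨ψ, hI⟩ := hk_exists_induced N Q hM hQN hQ θ hdefd χ hcov
    have hindG : ∀ g : G, MemLocalIdeal M
        (inducedCentralChar (Subgroup.normalizer (Q : Set G)) ψ.1 g - centralChar χ.1 g) :=
      fun g => hI.2.2 ψ (mem_blockOf_self hMp ψ) χ (mem_blockOf_self hMp χ) g
    obtain ⟨ξ', hξ', hover⟩ := hk_cover_down N Q hM hQN hQ θ hdefd ξ₀ hdefe hind₀ ψ χ hindG hcov
    refine ⟨blockOf M ψ.1, ⟨⟨⟨ψ, rfl⟩, ψ, mem_blockOf_self hMp ψ, ξ', hξ', hover⟩, hI⟩, ?_⟩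
    rintro c' ⟨⟨⟨ψ₁, rfl⟩, ψ', hψ', ε', hε', hover'⟩, hI'⟩
    rw [← blockOf_eq_of_mem hMp hψ'] at hI' ⊢
    have hindG' : ∀ g : G, MemLocalIdeal M
        (inducedCentralChar (Subgroup.normalizer (Q : Set G)) ψ'.1 g - centralChar χ.1 g) :=
      fun g => hI'.2.2 ψ' (mem_blockOf_self hMp ψ') χ (mem_blockOf_self hMp χ) g
    exact hk_unique N Q hM hQN ξ₀ hdefe ψ ψ' χ ξ' ε' hξ' hε' hover hover' hindG hindG'

end HK2

section Final

variable {G : Type u} [Group G] [Fintype G] {p : ℕ} [Fact p.Prime] {M : Ideal AlgInt}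
  (N : Subgroup G) [hN : N.Normal] [Fintype N] (Q : Subgroup G)

/-- `N_G(Q) ⊓ N` as a subgroup of `G`, identified with `N ∩ N_G(Q)` inside `N_G(Q)`. -/
def hkPhi : ↥(Subgroup.normalizer (Q : Set G) ⊓ N) ≃* ↥(hkLH N Q) where
  toFun l := ⟨⟨(l : G), l.2.1⟩, Subgroup.mem_subgroupOf.mpr l.2.2⟩
  invFun x := ⟨((x : ↥(Subgroup.normalizer (Q : Set G))) : G),
    ⟨x.1.2, Subgroup.mem_subgroupOf.mp x.2⟩⟩
  left_inv _ := Subtype.ext rfl
  right_inv _ := Subtype.ext (Subtype.ext rfl)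
  map_mul' _ _ := Subtype.ext (Subtype.ext rfl)

/-- Restriction to `N_G(Q) ⊓ N`, in the two incarnations. -/
theorem classInner_hkPhi [Fintype ↥(Subgroup.normalizer (Q : Set G) ⊓ N)] [Fintype ↥(hkLH N Q)]
    (ψ : ↥(Subgroup.normalizer (Q : Set G)) → ℂ)
    (ξ : IrrCharacter ↥(Subgroup.normalizer (Q : Set G) ⊓ N)) :
    classInner (fun l : ↥(hkLH N Q) => ψ l) (eqvIrr (hkPhi N Q) ξ).1
      = classInner (fun l : ↥(Subgroup.normalizer (Q : Set G) ⊓ N) =>
          ψ (Subgroup.inclusion inf_le_left l)) ξ.1 := by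
  unfold classInner
  rw [Nat.card_congr (hkPhi N Q).toEquiv.symm]
  congr 1
  rw [← Equiv.sum_comp (hkPhi N Q).toEquiv]
  apply Finset.sum_congr rfl
  intro l _
  rw [eqvIrr_apply]
  have h1 : (hkPhi N Q).symm ((hkPhi N Q).toEquiv l) = l := (hkPhi N Q).symm_apply_apply l
  rw [h1]
  rfl

/-- Induced central characters, computed in `N` and inside `N`. -/
theorem inducedCentralChar_hk (hQN : Q ≤ N)
    (ξ : IrrCharacter ↥(Subgroup.normalizer (Q : Set G) ⊓ N)) (n : N) :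
    inducedCentralChar (hkLN N Q) (eqvIrr ((hkPhi N Q).trans (hkIota N Q hQN)) ξ).1 n
      = inducedCentralCharIn N (Subgroup.normalizer (Q : Set G) ⊓ N) ξ.1 (n : G) := by
  unfold inducedCentralCharIn inducedCentralChar
  symm
  apply finsum_mem_eq_of_bijOn ((hkPhi N Q).trans (hkIota N Q hQN))
  · refine ⟨?_, (MulEquiv.injective _).injOn, ?_⟩
    · intro k hk
      obtain ⟨x, hx⟩ := hk
      show IsConj n (((hkPhi N Q).trans (hkIota N Q hQN) k : ↥(hkLN N Q)) : N)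
      rw [isConj_iff]
      refine ⟨x⁻¹, ?_⟩
      apply Subtype.ext
      show ((x⁻¹ * n * x⁻¹⁻¹ : N) : G) = (k : G)
      push_cast
      rw [← hx]
      group
    · intro k' hk'
      obtain ⟨c, hc⟩ := isConj_iff.mp hk'
      refine ⟨((hkPhi N Q).trans (hkIota N Q hQN)).symm k', ⟨c⁻¹, ?_⟩,
        MulEquiv.apply_symm_apply _ _⟩
      have h1 : ((((hkPhi N Q).trans (hkIota N Q hQN)).symm k' :
          ↥(Subgroup.normalizer (Q : Set G) ⊓ N)) : G) = ((k' : N) : G) := rfl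
      rw [h1, ← hc]
      push_cast
      group
  · intro k _
    rw [eqvIrr_apply, eqvIrr_apply, MulEquiv.symm_apply_apply, map_one]

theorem map_hk (hQN : Q ≤ N) :
    (Q.subgroupOf (Subgroup.normalizer (Q : Set G) ⊓ N)).map
        ((hkPhi N Q).trans (hkIota N Q hQN)).toMonoidHom
      = (Q.subgroupOf N).subgroupOf (hkLN N Q) := by
  ext y
  constructor
  · rintro ⟨l, hl, rfl⟩
    exact hl
  · intro hy
    exact ⟨((hkPhi N Q).trans (hkIota N Q hQN)).symm y, hy, MulEquiv.apply_symm_apply _ y⟩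

/-- **The Harris–Knörr correspondence.** -/
theorem harris_knorr (hM : IsPModular p M) (hQ : IsPGroup p Q) (hQN : Q ≤ N)
    [Fintype ↥(Subgroup.normalizer (Q : Set G) ⊓ N)]
    (d : Set (IrrCharacter N)) (hdQ : IsDefectGroup p M d (Q.subgroupOf N))
    (e : Set (IrrCharacter ↥(Subgroup.normalizer (Q : Set G) ⊓ N)))
    (heQ : IsDefectGroup p M e (Q.subgroupOf (Subgroup.normalizer (Q : Set G) ⊓ N)))
    (hed : IsInducedBlockIn M N (Subgroup.normalizer (Q : Set G) ⊓ N) e d) :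
    (∀ c : Set (IrrCharacter ↥(Subgroup.normalizer (Q : Set G))), IsPBlock M c →
      (∃ ψ ∈ c, ∃ ξ ∈ e, classInner (fun l : ↥(Subgroup.normalizer (Q : Set G) ⊓ N) =>
        (ψ : ↥(Subgroup.normalizer (Q : Set G)) → ℂ) (Subgroup.inclusion inf_le_left l))
        (ξ : ↥(Subgroup.normalizer (Q : Set G) ⊓ N) → ℂ) ≠ 0) →
      ∃! B : Set (IrrCharacter G), IsInducedBlock M (Subgroup.normalizer (Q : Set G)) c B ∧
        (∃ χ ∈ B, ∃ θ ∈ d, classInner (fun n : N => (χ : G → ℂ) n) (θ : N → ℂ) ≠ 0)) ∧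
    (∀ B : Set (IrrCharacter G), IsPBlock M B →
      (∃ χ ∈ B, ∃ θ ∈ d, classInner (fun n : N => (χ : G → ℂ) n) (θ : N → ℂ) ≠ 0) →
      ∃! c : Set (IrrCharacter ↥(Subgroup.normalizer (Q : Set G))),
        (IsPBlock M c ∧ ∃ ψ ∈ c, ∃ ξ ∈ e,
          classInner (fun l : ↥(Subgroup.normalizer (Q : Set G) ⊓ N) =>
            (ψ : ↥(Subgroup.normalizer (Q : Set G)) → ℂ) (Subgroup.inclusion inf_le_left l))
            (ξ : ↥(Subgroup.normalizer (Q : Set G) ⊓ N) → ℂ) ≠ 0) ∧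
        IsInducedBlock M (Subgroup.normalizer (Q : Set G)) c B) := by
  classical
  letI : Fintype ↥(Subgroup.normalizer (Q : Set G)) := Fintype.ofFinite _
  letI : Fintype ↥(hkLH N Q) := Fintype.ofFinite _
  letI : Fintype ↥(hkLN N Q) := Fintype.ofFinite _
  obtain ⟨φ, hφdef⟩ : ∃ φ : ↥(Subgroup.normalizer (Q : Set G) ⊓ N) ≃* ↥(hkLN N Q),
      φ = (hkPhi N Q).trans (hkIota N Q hQN) := ⟨_, rfl⟩
  obtain ⟨eN, heNdef⟩ : ∃ eN : Set (IrrCharacter ↥(hkLN N Q)), eN = eqvIrr φ '' e := ⟨_, rfl⟩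
  have hdefe : IsDefectGroup p M eN ((Q.subgroupOf N).subgroupOf (hkLN N Q)) := by
    rw [heNdef, hφdef, ← map_hk N Q hQN]
    exact isDefectGroup_eqvIrr_image _ e _ heQ
  have hind₀ : IsInducedBlock M (hkLN N Q) eN d := by
    refine ⟨?_, hed.2.1, ?_⟩
    · rw [heNdef]; exact isPBlock_eqvIrr_image φ hed.1
    · rintro ξN hξN θ hθ n
      rw [heNdef] at hξN
      obtain ⟨ξ, hξ, rfl⟩ := hξN
      rw [hφdef, inducedCentralChar_hk N Q hQN ξ n]
      exact hed.2.2 ξ hξ θ hθ n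
  have hcomp : ∀ ξ : IrrCharacter ↥(Subgroup.normalizer (Q : Set G) ⊓ N),
      eqvIrr φ ξ = eqvIrr (hkIota N Q hQN) (eqvIrr (hkPhi N Q) ξ) := by
    intro ξ
    rw [hφdef]
    exact Subtype.ext rfl
  have hcoviff : ∀ c : Set (IrrCharacter ↥(Subgroup.normalizer (Q : Set G))),
      (∃ ψ ∈ c, ∃ ξ ∈ e, classInner (fun l : ↥(Subgroup.normalizer (Q : Set G) ⊓ N) =>
        (ψ : ↥(Subgroup.normalizer (Q : Set G)) → ℂ) (Subgroup.inclusion inf_le_left l))
        (ξ : ↥(Subgroup.normalizer (Q : Set G) ⊓ N) → ℂ) ≠ 0)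
      ↔ (∃ ψ ∈ c, ∃ ε : IrrCharacter ↥(hkLH N Q), eqvIrr (hkIota N Q hQN) ε ∈ eN ∧
        classInner (fun l : ↥(hkLH N Q) => ψ.1 l) ε.1 ≠ 0) := by
    intro c
    constructor
    · rintro ⟨ψ, hψ, ξ, hξ, h⟩
      refine ⟨ψ, hψ, eqvIrr (hkPhi N Q) ξ, ?_, ?_⟩
      · rw [heNdef, ← hcomp]; exact ⟨ξ, hξ, rfl⟩
      · rw [classInner_hkPhi]; exact h
    · rintro ⟨ψ, hψ, ε, hε, h⟩
      rw [heNdef] at hε
      obtain ⟨ξ, hξ, hξe⟩ := hε
      rw [hcomp] at hξe
      have h1 : eqvIrr (hkPhi N Q) ξ = ε := eqvIrr_injective (hkIota N Q hQN) hξe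
      refine ⟨ψ, hψ, ξ, hξ, ?_⟩
      rw [← classInner_hkPhi, h1]; exact h
  have main := harris_knorr_native N Q hM hQN hQ d hdQ eN hdefe hind₀
  constructor
  · intro c hc hcov
    exact main.1 c hc ((hcoviff c).mp hcov)
  · intro B hB hcov
    obtain ⟨c, hc, huniq⟩ := main.2 B hB hcov
    refine ⟨c, ⟨⟨hc.1.1, (hcoviff c).mpr hc.1.2⟩, hc.2⟩, ?_⟩
    rintro c' ⟨⟨hc'1, hc'2⟩, hc'3⟩
    exact huniq c' ⟨⟨hc'1, (hcoviff c').mp hc'2⟩, hc'3⟩

end Final

end Cfsg.Agent.H20
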