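import Mathlib
import Cfsg.Prelude.Def_Blocks
import Cfsg.Agent.H20.HarrisKnorr
import Cfsg.Agent.H79.CoverInduced
import Cfsg.Agent.H79.NormalBlocks
import Cfsg.Agent.S0906

/-!
# helper20: blocks induced from subgroups containing the centralizer of a defect group

Let `b` be a block of `H ≤ G` with defect group `D₀` and `C_G(D₀) ≤ H`.  Then `b^G` is defined and
has a defect group `D` with `Z(D) ≤ Z(D₀) ≤ D₀ ≤ D` (Brauer).

* `ind_trans_down`, `ind_trans_up` : transitivity of block induction through a subgroup of a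
  subgroup, identified with a subgroup of `G`.
* `exists_root_of_normal_defect` : a block with normal defect group `Q` is induced from a block of
  any normal `K ⊇ Q C(Q)` with defect group `Q`.
* `exists_cover_defect_inf` : a block of `K ⊇ Q C(Q)` (all normal) with defect group `Q` induces a
  block with a defect group `P` such that `P ⊓ K = Q`.
* `cent_defect_aux` : the main recursion.
-/

set_option autoImplicit false
set_option linter.style.haveILetI false
set_option linter.unusedSectionVars false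

namespace Cfsg.Agent.H20

open Cfsg Cfsg.Agent.H4 Cfsg.Agent.H80

open scoped BigOperators ComplexConjugate

universe u

section IndTrans

variable {G : Type u} [Group G] [Fintype G] {M : Ideal AlgInt}

/-- Transitivity of block induction, downwards. -/
theorem ind_trans_down (hM : M.IsPrime) (X : Subgroup G) [Fintype X] (A : Subgroup X) [Fintype A]
    (A₁ : Subgroup G) [Fintype A₁] (φ : A ≃* A₁)
    (hφ : ∀ a : A, ((φ a : A₁) : G) = ((a : X) : G))
    (θ : IrrCharacter A) (ψ : IrrCharacter X) (χ : IrrCharacter G)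
    (h1 : ∀ x : X, MemLocalIdeal M (inducedCentralChar A θ.1 x - centralChar ψ.1 x))
    (h2 : ∀ g : G, MemLocalIdeal M (inducedCentralChar X ψ.1 g - centralChar χ.1 g)) :
    ∀ g : G, MemLocalIdeal M (inducedCentralChar A₁ (eqvIrr φ θ).1 g - centralChar χ.1 g) := by
  apply ind_of_sum_congr hM
  intro c hc hcR
  have k1 := ind_sum_congr hM X ψ χ h2 c hc hcR
  have k2 := ind_sum_congr hM A θ ψ h1 (fun x : X => c x) (fun g x => hc (g : G) (x : G))
    (fun g => hcR _)
  have e1 : ∑ a : A, c ((a : X) : G) * θ.1 a = ∑ a₁ : A₁, c a₁ * (eqvIrr φ θ).1 a₁ := by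
    rw [← Equiv.sum_comp φ.toEquiv]
    apply Finset.sum_congr rfl
    intro a _
    have c2 : (eqvIrr φ θ).1 (φ.toEquiv a) = θ.1 a := by
      rw [eqvIrr_apply]
      exact congrArg θ.1 (φ.symm_apply_apply a)
    have c3 : ((φ.toEquiv a : A₁) : G) = ((a : X) : G) := hφ a
    rw [c2, c3]
  have e2 : (eqvIrr φ θ).1 1 = θ.1 1 := by
    rw [eqvIrr_apply, map_one]
  rw [← e1, e2]
  have k3 := memLocalIdeal_add hM k1 k2
  rw [sub_add_sub_cancel] at k3
  exact k3

/-- Transitivity of block induction, upwards. -/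
theorem ind_trans_up (hM : M.IsPrime) (X : Subgroup G) [Fintype X] (A : Subgroup X) [Fintype A]
    (A₁ : Subgroup G) [Fintype A₁] (φ : A ≃* A₁)
    (hφ : ∀ a : A, ((φ a : A₁) : G) = ((a : X) : G))
    (θ : IrrCharacter A) (ψ : IrrCharacter X) (χ : IrrCharacter G)
    (h1 : ∀ x : X, MemLocalIdeal M (inducedCentralChar A θ.1 x - centralChar ψ.1 x))
    (h3 : ∀ g : G, MemLocalIdeal M
      (inducedCentralChar A₁ (eqvIrr φ θ).1 g - centralChar χ.1 g)) :
    ∀ g : G, MemLocalIdeal M (inducedCentralChar X ψ.1 g - centralChar χ.1 g) := by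
  apply ind_of_sum_congr hM
  intro c hc hcR
  have k3 := ind_sum_congr hM A₁ (eqvIrr φ θ) χ h3 c hc hcR
  have k2 := ind_sum_congr hM A θ ψ h1 (fun x : X => c x) (fun g x => hc (g : G) (x : G))
    (fun g => hcR _)
  have e1 : ∑ a : A, c ((a : X) : G) * θ.1 a = ∑ a₁ : A₁, c a₁ * (eqvIrr φ θ).1 a₁ := by
    rw [← Equiv.sum_comp φ.toEquiv]
    apply Finset.sum_congr rfl
    intro a _
    have c2 : (eqvIrr φ θ).1 (φ.toEquiv a) = θ.1 a := by
      rw [eqvIrr_apply]
      exact congrArg θ.1 (φ.symm_apply_apply a)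
    have c3 : ((φ.toEquiv a : A₁) : G) = ((a : X) : G) := hφ a
    rw [c2, c3]
  have e2 : (eqvIrr φ θ).1 1 = θ.1 1 := by
    rw [eqvIrr_apply, map_one]
  rw [← e1, e2] at k3
  have k4 := memLocalIdeal_add hM k3 (memLocalIdeal_neg k2)
  convert k4 using 1
  ring

end IndTrans

section GroupFacts

variable {G : Type u} [Group G]

/-- `N_G(Q)` normalizes `Q C_G(Q)`. -/
theorem normalizer_le_normalizer_sup_centralizer (Q : Subgroup G) :
    Subgroup.normalizer (Q : Set G) ≤
      Subgroup.normalizer ((Q ⊔ Subgroup.centralizer (Q : Set G) : Subgroup G) : Set G) := by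
  have key : ∀ n : G, n ∈ Subgroup.normalizer (Q : Set G) → ∀ x : G,
      x ∈ Q ⊔ Subgroup.centralizer (Q : Set G) →
        n * x * n⁻¹ ∈ Q ⊔ Subgroup.centralizer (Q : Set G) := by
    intro n hn x hx
    have hle : Q ⊔ Subgroup.centralizer (Q : Set G) ≤
        (Q ⊔ Subgroup.centralizer (Q : Set G)).comap (MulAut.conj n).toMonoidHom := by
      apply sup_le
      · intro q hq
        rw [Subgroup.mem_comap]
        apply Subgroup.mem_sup_left
        exact (Subgroup.mem_normalizer_iff.mp hn q).mp hq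
      · intro c hc
        rw [Subgroup.mem_comap]
        apply Subgroup.mem_sup_right
        rw [Subgroup.mem_centralizer_iff]
        intro q hq
        have hq' : n⁻¹ * q * n ∈ Q := by
          have h := (Subgroup.mem_normalizer_iff.mp (Subgroup.inv_mem _ hn) q).mp hq
          rwa [inv_inv] at h
        have hcq := Subgroup.mem_centralizer_iff.mp hc (n⁻¹ * q * n) hq'
        show q * (n * c * n⁻¹) = n * c * n⁻¹ * q
        calc q * (n * c * n⁻¹) = n * ((n⁻¹ * q * n) * c) * n⁻¹ := by group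
          _ = n * (c * (n⁻¹ * q * n)) * n⁻¹ := by rw [hcq]
          _ = n * c * n⁻¹ * q := by group
    exact hle hx
  intro n hn
  rw [Subgroup.mem_normalizer_iff]
  intro x
  constructor
  · exact key n hn x
  · intro hx
    have h := key n⁻¹ (Subgroup.inv_mem _ hn) _ hx
    have e : n⁻¹ * (n * x * n⁻¹) * n⁻¹⁻¹ = x := by group
    rwa [e] at h

/-- The image in `G` of `N_H(D₀)`: it contains `D₀`, contains `C_G(D₀)` when `C_G(D₀) ≤ H`, and
normalizes `D₀`. -/
theorem map_normalizer_facts (H : Subgroup G) (D₀ : Subgroup H)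
    (hC : Subgroup.centralizer ((D₀.map H.subtype : Subgroup G) : Set G) ≤ H) :
    D₀.map H.subtype ≤ (Subgroup.normalizer (D₀ : Set H)).map H.subtype ∧
    Subgroup.centralizer ((D₀.map H.subtype : Subgroup G) : Set G) ≤
      (Subgroup.normalizer (D₀ : Set H)).map H.subtype ∧
    (Subgroup.normalizer (D₀ : Set H)).map H.subtype ≤
      Subgroup.normalizer ((D₀.map H.subtype : Subgroup G) : Set G) := by
  refine ⟨Subgroup.map_mono Subgroup.le_normalizer, ?_, ?_⟩
  · intro c hc
    have hcH : c ∈ H := hC hc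
    refine ⟨⟨c, hcH⟩, ?_, rfl⟩
    apply Subgroup.centralizer_le_normalizer
    rw [Subgroup.mem_centralizer_iff]
    intro d hd
    apply Subtype.ext
    exact Subgroup.mem_centralizer_iff.mp hc (d : G) ⟨d, hd, rfl⟩
  · rintro _ ⟨n, hn, rfl⟩
    rw [Subgroup.mem_normalizer_iff]
    intro q
    constructor
    · rintro ⟨d, hd, rfl⟩
      exact ⟨n * d * n⁻¹, (Subgroup.mem_normalizer_iff.mp hn d).mp hd, rfl⟩
    · rintro ⟨d, hd, hdq⟩
      refine ⟨n⁻¹ * d * n, ?_, ?_⟩
      · have h := (Subgroup.mem_normalizer_iff.mp (Subgroup.inv_mem _ hn) d).mp hd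
        rwa [inv_inv] at h
      · have hdq' : (d : G) = (n : G) * q * (n : G)⁻¹ := hdq
        show (n : G)⁻¹ * (d : G) * (n : G) = q
        rw [hdq']
        group

theorem map_subgroupOfEquivOfLe (Q : Subgroup G) {K X : Subgroup G} (h : K ≤ X) :
    ((Q.subgroupOf X).subgroupOf (K.subgroupOf X)).map
        (Subgroup.subgroupOfEquivOfLe h).toMonoidHom = Q.subgroupOf K := by
  ext y
  constructor
  · rintro ⟨a, ha, rfl⟩
    exact ha
  · intro hy
    exact ⟨(Subgroup.subgroupOfEquivOfLe h).symm y, hy,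
      (Subgroup.subgroupOfEquivOfLe h).apply_symm_apply y⟩

theorem map_subgroupOfEquivOfLe_symm (Q : Subgroup G) {K X : Subgroup G} (h : K ≤ X) :
    (Q.subgroupOf K).map (Subgroup.subgroupOfEquivOfLe h).symm.toMonoidHom
      = (Q.subgroupOf X).subgroupOf (K.subgroupOf X) := by
  ext y
  constructor
  · rintro ⟨a, ha, rfl⟩
    exact ha
  · intro hy
    exact ⟨Subgroup.subgroupOfEquivOfLe h y, hy,
      (Subgroup.subgroupOfEquivOfLe h).symm_apply_apply y⟩

theorem centralizer_subgroupOf_le (Q : Subgroup G) {K X : Subgroup G} (hQX : Q ≤ X)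
    (hCK : Subgroup.centralizer (Q : Set G) ≤ K) :
    Subgroup.centralizer ((Q.subgroupOf X : Subgroup X) : Set X) ≤ K.subgroupOf X := by
  intro x hx
  rw [Subgroup.mem_subgroupOf]
  apply hCK
  rw [Subgroup.mem_centralizer_iff]
  intro q hq
  have h := Subgroup.mem_centralizer_iff.mp hx ⟨q, hQX hq⟩
    (by rw [SetLike.mem_coe, Subgroup.mem_subgroupOf]; exact hq)
  exact congrArg Subtype.val h

end GroupFacts

section CD

variable {G : Type u} [Group G] [Fintype G] {p : ℕ} [Fact p.Prime] {M : Ideal AlgInt}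

/-- First main theorem inside `H`, transported to the subgroup `N_H(D₀)` of `G`. -/
theorem exists_normalizer_root (hM : IsPModular p M) (H : Subgroup G) (ψ : IrrCharacter H)
    (D₀ : Subgroup H) (hdef : IsDefectGroup p M (blockOf M ψ.1) D₀) :
    ∃ ξ₀ : IrrCharacter ↥((Subgroup.normalizer (D₀ : Set H)).map H.subtype),
      IsDefectGroup p M (blockOf M ξ₀.1)
        ((D₀.map H.subtype).subgroupOf ((Subgroup.normalizer (D₀ : Set H)).map H.subtype)) ∧
      ∀ χ : IrrCharacter G,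
        (∀ g : G, MemLocalIdeal M (inducedCentralChar
          ((Subgroup.normalizer (D₀ : Set H)).map H.subtype) ξ₀.1 g - centralChar χ.1 g)) ↔
        (∀ g : G, MemLocalIdeal M (inducedCentralChar H ψ.1 g - centralChar χ.1 g)) := by
  classical
  have hMp := isPrime_of_isPModular hM
  letI : Fintype H := Fintype.ofFinite H
  letI : Fintype ↥(Subgroup.normalizer (D₀ : Set H)) := Fintype.ofFinite _
  letI : Fintype ↥((Subgroup.normalizer (D₀ : Set H)).map H.subtype) := Fintype.ofFinite _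
  have hD₀p : IsPGroup p D₀ := isPGroup_of_isDefectGroup hdef
  obtain ⟨ξ'', hdef'', hind''⟩ := first_main_exists hM D₀ hD₀p ψ hdef
  obtain ⟨φ₀, hφ₀⟩ : ∃ φ₀ : ↥(Subgroup.normalizer (D₀ : Set H)) ≃*
      ↥((Subgroup.normalizer (D₀ : Set H)).map H.subtype),
      φ₀ = (Subgroup.normalizer (D₀ : Set H)).equivMapOfInjective H.subtype
        H.subtype_injective := ⟨_, rfl⟩
  have hφ₀c : ∀ a : ↥(Subgroup.normalizer (D₀ : Set H)),
      ((φ₀ a : ↥((Subgroup.normalizer (D₀ : Set H)).map H.subtype)) : G) = ((a : H) : G) := by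
    intro a
    rw [hφ₀]
    exact Subgroup.coe_equivMapOfInjective_apply _ _ _ a
  have h1 : ∀ x : H, MemLocalIdeal M
      (inducedCentralChar (Subgroup.normalizer (D₀ : Set H)) ξ''.1 x - centralChar ψ.1 x) :=
    fun x => hind''.2.2 ξ'' (mem_blockOf_self hMp ξ'') ψ (mem_blockOf_self hMp ψ) x
  refine ⟨eqvIrr φ₀ ξ'', ?_, fun χ => ⟨fun h3 => ?_, fun h2 => ?_⟩⟩
  · have h := isDefectGroup_eqvIrr_image φ₀ _ _ hdef''
    rw [eqvIrr_image_blockOf] at h
    have hsub : (D₀.subgroupOf (Subgroup.normalizer (D₀ : Set H))).map φ₀.toMonoidHom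
        = (D₀.map H.subtype).subgroupOf ((Subgroup.normalizer (D₀ : Set H)).map H.subtype) := by
      ext y
      constructor
      · rintro ⟨a, ha, rfl⟩
        rw [Subgroup.mem_subgroupOf]
        exact ⟨(a : H), ha, (hφ₀c a).symm⟩
      · intro hy
        rw [Subgroup.mem_subgroupOf] at hy
        obtain ⟨d, hd, hdy⟩ := hy
        refine ⟨φ₀.symm y, ?_, φ₀.apply_symm_apply y⟩
        have e : ((φ₀.symm y : ↥(Subgroup.normalizer (D₀ : Set H))) : H) = d := by
          apply Subtype.ext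
          rw [← hφ₀c (φ₀.symm y), MulEquiv.apply_symm_apply]
          exact hdy.symm
        show ((φ₀.symm y : ↥(Subgroup.normalizer (D₀ : Set H))) : H) ∈ D₀
        rw [e]
        exact hd
    rw [hsub] at h
    exact h
  · exact ind_trans_up hMp H _ _ φ₀ hφ₀c ξ'' ψ χ h1 h3
  · exact ind_trans_down hMp H _ _ φ₀ hφ₀c ξ'' ψ χ h1 h2

/-- Packaged form of `exists_normalizer_root` with the subgroup `N₀` abstracted. -/
theorem exists_normalizer_root' (hM : IsPModular p M) (H : Subgroup G) (ψ : IrrCharacter H)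
    (D₀ : Subgroup H) (Q : Subgroup G) (hQ : Q = D₀.map H.subtype)
    (hdef : IsDefectGroup p M (blockOf M ψ.1) D₀)
    (hC : Subgroup.centralizer (Q : Set G) ≤ H) :
    ∃ (N₀ : Subgroup G) (ξ₀ : IrrCharacter N₀), Q ≤ N₀ ∧
      Subgroup.centralizer (Q : Set G) ≤ N₀ ∧ N₀ ≤ Subgroup.normalizer (Q : Set G) ∧
      IsDefectGroup p M (blockOf M ξ₀.1) (Q.subgroupOf N₀) ∧
      ∀ χ : IrrCharacter G,
        (∀ g : G, MemLocalIdeal M (inducedCentralChar N₀ ξ₀.1 g - centralChar χ.1 g)) ↔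
        (∀ g : G, MemLocalIdeal M (inducedCentralChar H ψ.1 g - centralChar χ.1 g)) := by
  subst hQ
  obtain ⟨h1, h2, h3⟩ := map_normalizer_facts H D₀ hC
  obtain ⟨ξ₀, h4, h5⟩ := exists_normalizer_root hM H ψ D₀ hdef
  exact ⟨_, ξ₀, h1, h2, h3, h4, h5⟩

/-- A block with a normal defect group `Q` is induced from a block with defect group `Q` of any
normal subgroup `K ⊇ Q C(Q)`. -/
theorem exists_root_of_normal_defect (hM : IsPModular p M)
    (Q K : Subgroup G) [hQn : Q.Normal] [hKn : K.Normal] [Fintype K] (hQK : Q ≤ K)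
    (hCK : Subgroup.centralizer (Q : Set G) ≤ K) (ξ : IrrCharacter G)
    (hdef : IsDefectGroup p M (blockOf M ξ.1) Q) :
    ∃ θ₀ : IrrCharacter K, IsDefectGroup p M (blockOf M θ₀.1) (Q.subgroupOf K) ∧
      IsInducedBlock M K (blockOf M θ₀.1) (blockOf M ξ.1) := by
  classical
  have hMp := isPrime_of_isPModular hM
  have hQp : IsPGroup p Q := isPGroup_of_isDefectGroup hdef
  obtain ⟨θ₀, hcov⟩ := Cfsg.Agent.H79.exists_constituent_res K ξ
  obtain ⟨k0, hk0⟩ := Cfsg.Agent.S0906.result p M hM (blockOf M θ₀.1) ⟨θ₀, rfl⟩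
  obtain ⟨S⟩ : Nonempty (Sylow p (Subgroup.centralizer ({k0} : Set K))) := inferInstance
  obtain ⟨R, hRdef⟩ : ∃ R : Subgroup K, R = (S : Subgroup (Subgroup.centralizer
      ({k0} : Set K))).map (Subgroup.centralizer ({k0} : Set K)).subtype := ⟨_, rfl⟩
  have hR : IsDefectGroup p M (blockOf M θ₀.1) R := ⟨k0, hk0, S, hRdef⟩
  have hRsub : (R.map K.subtype).subgroupOf K = R :=
    Subgroup.comap_map_eq_self_of_injective K.subtype_injective R
  obtain ⟨P, hP, hPK⟩ := knorr_cover K hM θ₀ ξ hcov (R.map K.subtype)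
    (Subgroup.map_subtype_le R) (by rw [hRsub]; exact hR)
  obtain ⟨x, hx⟩ := Cfsg.Agent.H80.isDefectGroup_conj_eq p hM ⟨ξ, rfl⟩ hdef hP
  have hPQ : P = Q := by
    rw [← hx]
    ext y
    constructor
    · rintro ⟨q, hq, rfl⟩
      exact hQn.conj_mem q hq x
    · intro hy
      refine ⟨x⁻¹ * y * x, ?_, ?_⟩
      · have h := hQn.conj_mem y hy x⁻¹
        rwa [inv_inv] at h
      · show x * (x⁻¹ * y * x) * x⁻¹ = y
        group
  have hRQ : R.map K.subtype = Q := by
    rw [← hPK, hPQ]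
    exact inf_eq_left.mpr hQK
  refine ⟨θ₀, ?_, ?_⟩
  · have e : Q.subgroupOf K = R := by rw [← hRQ]; exact hRsub
    rw [e]
    exact hR
  · exact Cfsg.Agent.H79.isInducedBlock_of_covers hM Q hQp K hQK hCK θ₀ ξ θ₀
      (mem_blockOf_self hMp θ₀) hcov

/-- A block with defect group `Q` of a normal subgroup `K ⊇ Q C(Q)` (`Q` normal) induces a block
with a defect group `P` such that `P ⊓ K = Q`. -/
theorem exists_cover_defect_inf (hM : IsPModular p M)
    (Q K : Subgroup G) [hQn : Q.Normal] [hKn : K.Normal] [Fintype K] (hQK : Q ≤ K)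
    (hCK : Subgroup.centralizer (Q : Set G) ≤ K) (θ' : IrrCharacter K)
    (hdef : IsDefectGroup p M (blockOf M θ'.1) (Q.subgroupOf K)) :
    ∃ ψN : IrrCharacter G, IsInducedBlock M K (blockOf M θ'.1) (blockOf M ψN.1) ∧
      ∃ P : Subgroup G, IsDefectGroup p M (blockOf M ψN.1) P ∧ P ⊓ K = Q := by
  classical
  have hMp := isPrime_of_isPModular hM
  have hQp : IsPGroup p Q := by
    have h1 := (isPGroup_of_isDefectGroup hdef).map K.subtype
    rwa [Subgroup.subgroupOf_map_subtype, inf_eq_left.mpr hQK] at h1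
  have hKN : K ≤ Subgroup.normalizer (Q : Set G) := by
    rw [Subgroup.normalizer_eq_top]
    exact le_top
  obtain ⟨ψN, hψN, -⟩ := exists_isInducedBlock hM hQp hQK hCK hKN θ'
  refine ⟨ψN, hψN, ?_⟩
  have hcong : ∀ n : K, MemLocalIdeal M
      (centralChar ψN.1 (n : G) - inducedCentralChar K θ'.1 (n : G)) := by
    intro n
    have h1 := hψN.2.2 θ' (mem_blockOf_self hMp θ') ψN (mem_blockOf_self hMp ψN) (n : G)
    have h2 := memLocalIdeal_neg h1
    rwa [neg_sub] at h2
  obtain ⟨μ, ⟨g, hg⟩, hμ⟩ := Cfsg.Agent.H79.exists_over_of_congr K hMp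
    (Cfsg.Agent.H79.orbitSet K (blockOf M θ'.1))
    (Cfsg.Agent.H79.orbitSet_stable K _) (Cfsg.Agent.H79.orbitSet_closed K hMp θ') ψN θ'
    (Cfsg.Agent.H79.subset_orbitSet K _ (mem_blockOf_self hMp θ')) hcong
  have hμ' : classInner (fun n : K => ψN.1 n) (Cfsg.Agent.H79.conjIrr K g μ).1 ≠ 0 :=
    (Cfsg.Agent.H79.constituents_stable K (irr_isClassFunction ψN) g μ).mpr hμ
  have hblk : blockOf M (Cfsg.Agent.H79.conjIrr K g μ).1 = blockOf M θ'.1 :=
    blockOf_eq_of_mem hMp hg
  exact knorr_cover K hM (Cfsg.Agent.H79.conjIrr K g μ) ψN hμ' Q hQK (by rw [hblk]; exact hdef)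

/-- **Brauer.**  Let the block of `ψ ∈ Irr(H)` have defect group `D₀` with `C_G(D₀) ≤ H`, and let
it induce the block of `χ`.  Then the block of `χ` has a defect group `D ≥ D₀` all of whose
central elements lie in `D₀`. -/
theorem cent_defect_aux (hM : IsPModular p M) :
    ∀ (n : ℕ) (H : Subgroup G) (ψ : IrrCharacter H) (D₀ : Subgroup H) (χ : IrrCharacter G),
      IsDefectGroup p M (blockOf M ψ.1) D₀ →
      Subgroup.centralizer ((D₀.map H.subtype : Subgroup G) : Set G) ≤ H →
      (∀ g : G, MemLocalIdeal M (inducedCentralChar H ψ.1 g - centralChar χ.1 g)) →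
      Nat.card G - Nat.card D₀ ≤ n →
      ∃ D : Subgroup G, IsDefectGroup p M (blockOf M χ.1) D ∧ D₀.map H.subtype ≤ D ∧
        ∀ z ∈ D, (∀ d ∈ D, z * d = d * z) → z ∈ D₀.map H.subtype := by
  classical
  have hp : p.Prime := Fact.out
  have hMp := isPrime_of_isPModular hM
  intro n
  induction n using Nat.strong_induction_on with
  | _ n ih =>
  intro H ψ D₀ χ hdef hC hind hn
  obtain ⟨Q, hQdef⟩ : ∃ Q : Subgroup G, Q = D₀.map H.subtype := ⟨_, rfl⟩
  rw [← hQdef] at hC ⊢
  have hD₀p : IsPGroup p D₀ := isPGroup_of_isDefectGroup hdef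
  have hQp : IsPGroup p Q := by rw [hQdef]; exact hD₀p.map _
  have hQcard : Nat.card Q = Nat.card D₀ := by
    rw [hQdef]
    exact Subgroup.card_map_of_injective H.subtype_injective
  obtain ⟨N₀, ξ₀, hQN₀, hCN₀, hN₀N, hξ₀def, hξ₀iff⟩ :=
    exists_normalizer_root' hM H ψ D₀ Q hQdef hdef hC
  have hξ₀ind := (hξ₀iff χ).mpr hind
  obtain ⟨K, hKdef⟩ : ∃ K : Subgroup G, K = Q ⊔ Subgroup.centralizer (Q : Set G) := ⟨_, rfl⟩
  have hQK : Q ≤ K := by rw [hKdef]; exact le_sup_left
  have hCK : Subgroup.centralizer (Q : Set G) ≤ K := by rw [hKdef]; exact le_sup_right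
  have hKN₀ : K ≤ N₀ := by rw [hKdef]; exact sup_le hQN₀ hCN₀
  have hNK : Subgroup.normalizer (Q : Set G) ≤ Subgroup.normalizer (K : Set G) := by
    rw [hKdef]; exact normalizer_le_normalizer_sup_centralizer Q
  -- inside `N₀`
  letI : Fintype ↥N₀ := Fintype.ofFinite _
  letI : Fintype ↥K := Fintype.ofFinite _
  letI : Fintype ↥(K.subgroupOf N₀) := Fintype.ofFinite _
  haveI hQn₀ : (Q.subgroupOf N₀).Normal := Subgroup.normal_subgroupOf_of_le_normalizer hN₀N
  haveI hKn₀ : (K.subgroupOf N₀).Normal :=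
    Subgroup.normal_subgroupOf_of_le_normalizer (hN₀N.trans hNK)
  obtain ⟨θ₀, hθ₀def, hθ₀ind⟩ := exists_root_of_normal_defect hM (Q.subgroupOf N₀)
    (K.subgroupOf N₀) (Subgroup.subgroupOf_mono N₀ hQK)
    (centralizer_subgroupOf_le Q hQN₀ hCK) ξ₀ hξ₀def
  obtain ⟨θ, hθeq⟩ : ∃ θ : IrrCharacter K,
      θ = eqvIrr (Subgroup.subgroupOfEquivOfLe hKN₀) θ₀ := ⟨_, rfl⟩
  have hθind : ∀ g : G, MemLocalIdeal M (inducedCentralChar K θ.1 g - centralChar χ.1 g) := by
    rw [hθeq]
    exact ind_trans_down hMp N₀ (K.subgroupOf N₀) K (Subgroup.subgroupOfEquivOfLe hKN₀)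
      (fun a => rfl) θ₀ ξ₀ χ
      (fun x => hθ₀ind.2.2 θ₀ (mem_blockOf_self hMp θ₀) ξ₀ (mem_blockOf_self hMp ξ₀) x) hξ₀ind
  have hθdef : IsDefectGroup p M (blockOf M θ.1) (Q.subgroupOf K) := by
    have h := isDefectGroup_eqvIrr_image (Subgroup.subgroupOfEquivOfLe hKN₀) _ _ hθ₀def
    rw [eqvIrr_image_blockOf, map_subgroupOfEquivOfLe] at h
    rw [hθeq]
    exact h
  -- inside `N_G(Q)`
  have hQN : Q ≤ Subgroup.normalizer (Q : Set G) := Subgroup.le_normalizer
  have hKN : K ≤ Subgroup.normalizer (Q : Set G) := by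
    rw [hKdef]; exact sup_le hQN (Subgroup.centralizer_le_normalizer _)
  letI : Fintype ↥(Subgroup.normalizer (Q : Set G)) := Fintype.ofFinite _
  letI : Fintype ↥(K.subgroupOf (Subgroup.normalizer (Q : Set G))) := Fintype.ofFinite _
  haveI hQn : (Q.subgroupOf (Subgroup.normalizer (Q : Set G))).Normal :=
    Subgroup.normal_subgroupOf_of_le_normalizer le_rfl
  haveI hKn : (K.subgroupOf (Subgroup.normalizer (Q : Set G))).Normal :=
    Subgroup.normal_subgroupOf_of_le_normalizer hNK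
  have hθ'def : IsDefectGroup p M
      (blockOf M (eqvIrr (Subgroup.subgroupOfEquivOfLe hKN).symm θ).1)
      ((Q.subgroupOf (Subgroup.normalizer (Q : Set G))).subgroupOf
        (K.subgroupOf (Subgroup.normalizer (Q : Set G)))) := by
    have h := isDefectGroup_eqvIrr_image (Subgroup.subgroupOfEquivOfLe hKN).symm _ _ hθdef
    rw [eqvIrr_image_blockOf, map_subgroupOfEquivOfLe_symm] at h
    exact h
  obtain ⟨ψN, hψNind', P, hP, hPK⟩ := exists_cover_defect_inf hM
    (Q.subgroupOf (Subgroup.normalizer (Q : Set G)))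
    (K.subgroupOf (Subgroup.normalizer (Q : Set G))) (Subgroup.subgroupOf_mono _ hQK)
    (centralizer_subgroupOf_le Q hQN hCK) (eqvIrr (Subgroup.subgroupOfEquivOfLe hKN).symm θ)
    hθ'def
  have hψNind : ∀ g : G, MemLocalIdeal M
      (inducedCentralChar (Subgroup.normalizer (Q : Set G)) ψN.1 g - centralChar χ.1 g) := by
    apply ind_trans_up hMp (Subgroup.normalizer (Q : Set G))
      (K.subgroupOf (Subgroup.normalizer (Q : Set G))) K
      (Subgroup.subgroupOfEquivOfLe hKN) (fun a => rfl)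
      (eqvIrr (Subgroup.subgroupOfEquivOfLe hKN).symm θ) ψN χ
      (fun x => hψNind'.2.2 _ (mem_blockOf_self hMp _) ψN (mem_blockOf_self hMp ψN) x)
    rw [eqvIrr_eqvIrr_symm]
    exact hθind
  have hQ'P : Q.subgroupOf (Subgroup.normalizer (Q : Set G)) ≤ P := by
    rw [← hPK]; exact inf_le_left
  have hQP₁ : Q ≤ P.map (Subgroup.normalizer (Q : Set G)).subtype := by
    intro q hq
    exact ⟨⟨q, hQN hq⟩, hQ'P (by rw [Subgroup.mem_subgroupOf]; exact hq), rfl⟩
  have hQ'card : Nat.card ↥(Q.subgroupOf (Subgroup.normalizer (Q : Set G))) = Nat.card Q :=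
    Nat.card_congr (Subgroup.subgroupOfEquivOfLe hQN).toEquiv
  by_cases hcase : Nat.card P ≤ Nat.card D₀
  · have hPQ' : P = Q.subgroupOf (Subgroup.normalizer (Q : Set G)) := by
      symm
      apply Subgroup.eq_of_le_of_card_ge hQ'P
      rw [hQ'card, hQcard]
      exact hcase
    rw [hPQ'] at hP
    obtain ⟨χ₁, hχ₁def, hχ₁ind⟩ := first_main_i hM Q hQp ψN hP
    have hblk : blockOf M χ₁.1 = blockOf M χ.1 :=
      isInducedBlock_unique hMp hχ₁ind
        (Cfsg.Agent.H79.isInducedBlock_of_congr hMp _ ψN χ hψNind)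
    refine ⟨Q, ?_, le_rfl, fun z hz _ => hz⟩
    rw [← hblk]
    exact hχ₁def
  · push Not at hcase
    have hPG : Nat.card P ≤ Nat.card G :=
      (Subgroup.card_le_card_group P).trans (Subgroup.card_le_card_group _)
    obtain ⟨D, hD, hPD, hZ⟩ := ih (Nat.card G - Nat.card P) (by omega)
      (Subgroup.normalizer (Q : Set G)) ψN P χ hP
      ((Subgroup.centralizer_le (SetLike.coe_subset_coe.mpr hQP₁)).trans
        (Subgroup.centralizer_le_normalizer _)) hψNind le_rfl
    refine ⟨D, hD, hQP₁.trans hPD, fun z hz hzc => ?_⟩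
    obtain ⟨z', hz'P, rfl⟩ := hZ z hz hzc
    have hzK : (z' : G) ∈ K := by
      apply hCK
      rw [Subgroup.mem_centralizer_iff]
      intro q hq
      exact (hzc q ((hQP₁.trans hPD) hq)).symm
    have hz'Q : z' ∈ Q.subgroupOf (Subgroup.normalizer (Q : Set G)) := by
      rw [← hPK]
      exact Subgroup.mem_inf.mpr ⟨hz'P, Subgroup.mem_subgroupOf.mpr hzK⟩
    exact Subgroup.mem_subgroupOf.mp hz'Q

end CD

end Cfsg.Agent.H20
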