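import Mathlib
import Cfsg.Agent.H48.EpDefs

namespace Cfsg.Agent.H20.Ep

theorem even_mod_of_even {m c : ℕ} (hm : Even m) (hc : Even c) : Even (m % c) := by
  rw [Nat.even_iff]
  rw [Nat.mod_mod_of_dvd _ (even_iff_two_dvd.mp hc)]
  exact Nat.even_iff.mp hm

theorem c_even {i c : ℕ} (hc : c = (if Even i then i else 2 * i)) : Even c := by
  by_cases h : Even i
  · rw [if_pos h] at hc; rw [hc]; exact h
  · rw [if_neg h] at hc; rw [hc]; exact even_two_mul i

theorem c_pos {i c : ℕ} (hi : 0 < i) (hc : c = (if Even i then i else 2 * i)) : 0 < c := by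
  by_cases h : Even i
  · rw [if_pos h] at hc; omega
  · rw [if_neg h] at hc; omega

theorem arBack : Cfsg.Agent.H48.Ep.StArBack := by
  intro d m i c A hi hc hmE hm2 hmd hR hA1 hcA hAdm
  have hcE : Even c := c_even hc
  have hcpos : 0 < c := c_pos hi hc
  have hdm := Nat.div_add_mod (2 * d) c
  have hmm := Nat.div_add_mod m c
  have hklt := Nat.mod_lt (2 * d) hcpos
  have hblt := Nat.mod_lt m hcpos
  have hbE : Even (m % c) := even_mod_of_even hmE hcE
  have hAn : A ≤ 2 * d / c := by
    rw [Nat.le_div_iff_mul_le hcpos]
    rw [Nat.mul_comm]; exact hcA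
  have hcAn : c * A ≤ c * (2 * d / c) := Nat.mul_le_mul_left _ hAn
  by_cases hbig : m / c ≤ A
  swap
  · -- j = A, e = m - c * A
    have h1 : c * (A + 1) ≤ c * (m / c) := Nat.mul_le_mul_left _ (by omega)
    have h2 : c * (A + 1) = c * A + c := by ring
    refine ⟨A, m - c * A, le_refl _, by omega, ?_, by omega, ?_, ?_⟩
    · rw [Nat.even_sub (by omega)]
      exact ⟨fun _ => Even.mul_right hcE A, fun _ => hmE⟩
    · intro h; omega
    · intro h; omega
  by_cases hEi : Even i
  swap
  · have hodd : Odd i := Nat.not_even_iff_odd.mp hEi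
    rcases hR with hR | hR
    swap
    · exact absurd hR.1 hEi
    refine ⟨m / c, m % c, hbig, by omega, hbE, hmm, fun _ => Or.inl hodd, fun _ _ => Or.inl hodd⟩
  · have hci : c = i := by rw [if_pos hEi] at hc; exact hc
    subst hci
    have hnodd : ¬ Odd c := Nat.not_odd_iff_even.mpr hEi
    rcases hR with hR | hR
    · exact absurd hR.1 hnodd
    obtain ⟨-, hR⟩ := hR
    rcases hR with ⟨hk0, hR⟩ | ⟨him, hR⟩
    · rcases hR with hno | ⟨hb0, haE⟩
      · -- k = 0, n odd
        have hAne : A ≠ 2 * d / c := by
          intro hEq
          have : c * A = 2 * d := by rw [hEq]; omega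
          rcases hAdm this with h | h
          · exact hnodd h
          · rw [hEq] at h
            exact (Nat.not_even_iff_odd.mpr hno) h
        have hAlt : A + 1 ≤ 2 * d / c := by omega
        have h1 : c * (A + 1) ≤ c * (2 * d / c) := Nat.mul_le_mul_left _ hAlt
        have h2 : c * (A + 1) = c * A + c := by ring
        by_cases hb0 : m % c = 0
        · by_cases haE : Even (m / c)
          · refine ⟨m / c, 0, hbig, by omega, Even.zero, by omega, fun _ => Or.inr haE, ?_⟩
            intro _ h; exact absurd rfl h
          · have ha1 : 1 ≤ m / c := by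
              rcases Nat.eq_zero_or_pos (m / c) with h | h
              · rw [h] at haE; exact absurd Even.zero haE
              · exact h
            obtain ⟨a', ha'⟩ : ∃ a', m / c = a' + 1 := ⟨m / c - 1, by omega⟩
            have h3 : c * (a' + 1) = c * a' + c := by ring
            rw [ha'] at hmm haE hbig
            refine ⟨a', c, by omega, by omega, hEi, by omega, ?_, ?_⟩
            · intro h; omega
            · intro h _
              right
              have hA1' : c * (A + 1) = c * (2 * d / c) := by omega
              have hA2 : A + 1 = 2 * d / c := Nat.eq_of_mul_eq_mul_left hcpos hA1'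
              rw [← hA2] at hno
              rw [Nat.even_iff]
              rw [Nat.even_iff] at haE
              rw [Nat.odd_iff] at hno
              omega
        · refine ⟨m / c, m % c, hbig, by omega, hbE, hmm, ?_, ?_⟩
          · intro h; exact absurd h hb0
          · intro h; omega
      · refine ⟨m / c, 0, hbig, by omega, Even.zero, by omega, fun _ => Or.inr haE, ?_⟩
        intro _ h; exact absurd rfl h
    · rcases hR with ⟨hbk, hb0⟩ | ⟨hkb, hb0, hev⟩ | ⟨hk0, hb0, haE⟩
      · refine ⟨m / c, m % c, hbig, by omega, hbE, hmm, ?_, ?_⟩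
        · intro h; omega
        · intro h; omega
      · refine ⟨m / c, m % c, hbig, by omega, hbE, hmm, ?_, ?_⟩
        · intro h; omega
        · intro h _
          right
          have hA1' : c * A = c * (2 * d / c) := by omega
          have hA2 : A = 2 * d / c := Nat.eq_of_mul_eq_mul_left hcpos hA1'
          have h5 : 2 * d + m - 2 * (2 * d % c) = c * (2 * d / c + m / c) := by
            rw [Nat.mul_add]; omega
          rw [h5, Nat.mul_div_cancel_left _ hcpos] at hev
          rw [hA2]
          rw [Nat.even_iff]
          rw [Nat.even_iff] at hev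
          omega
      · refine ⟨m / c, 0, hbig, by omega, Even.zero, by omega, fun _ => Or.inr haE, ?_⟩
        intro _ h; exact absurd rfl h

end Cfsg.Agent.H20.Ep

example : Cfsg.Agent.H48.Ep.StArBack := Cfsg.Agent.H20.Ep.arBack
#print axioms Cfsg.Agent.H20.Ep.arBack
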