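import Mathlib
import Cfsg.Agent.H48.EpDefs
import Cfsg.Agent.H20.EpArBack

namespace Cfsg.Agent.H20.Ep

theorem divmod_unique {c j e m : ℕ} (hc : 0 < c) (he : e < c) (h : c * j + e = m) :
    m / c = j ∧ m % c = e := by
  subst h
  constructor
  · rw [Nat.mul_add_div hc, Nat.div_eq_of_lt he]; rfl
  · rw [Nat.mul_add_mod]; exact Nat.mod_eq_of_lt he

theorem arFwd : Cfsg.Agent.H48.Ep.StArFwd := by
  intro d m i c hi hc hmE hm2 hmd hd4 hR
  have hcE : Even c := c_even hc
  have hcpos : 0 < c := c_pos hi hc
  have hdm := Nat.div_add_mod (2 * d) c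
  have hmm := Nat.div_add_mod m c
  have hklt := Nat.mod_lt (2 * d) hcpos
  have hblt := Nat.mod_lt m hcpos
  by_cases hEi : Even i
  · have hci : c = i := by rw [if_pos hEi] at hc; exact hc
    subst hci
    have hnodd : ¬ Odd c := Nat.not_odd_iff_even.mpr hEi
    -- unpack ¬ RhsOdd
    have hR1 : ¬ (2 * d % c = 0 ∧ (Odd (2 * d / c) ∨ (m % c = 0 ∧ Even (m / c)))) := by
      intro h; exact hR (Or.inr ⟨hEi, Or.inl h⟩)
    have hR2 : c ≤ m → ¬ ((m % c < 2 * d % c ∧ 0 < m % c) ∨
               (2 * d % c = m % c ∧ 0 < m % c ∧
                 Even ((2 * d + m - 2 * (2 * d % c)) / c)) ∨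
               (0 < 2 * d % c ∧ m % c = 0 ∧ Even (m / c))) := by
      intro hcm h; exact hR (Or.inr ⟨hEi, Or.inr ⟨hcm, h⟩⟩)
    have hadm : c * (2 * d / c) = 2 * d → (Odd c ∨ Even (2 * d / c)) := by
      intro h
      right
      by_contra hne
      exact hR1 ⟨by omega, Or.inl (Nat.not_even_iff_odd.mp hne)⟩
    by_cases hmc : m < c
    · have ha0 : m / c = 0 := Nat.div_eq_of_lt hmc
      have hb : m % c = m := Nat.mod_eq_of_lt hmc
      by_cases hn : 2 * d / c = 0
      · right
        refine ⟨hmc, Or.inl ?_⟩
        rw [hn] at hdm; omega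
      have hn1 : 1 ≤ 2 * d / c := Nat.pos_of_ne_zero hn
      by_cases hgood : m < 2 * d % c ∨ (m = 2 * d % c ∧ Even (2 * d / c))
      · right
        refine ⟨hmc, Or.inr ⟨2 * d / c, hn1, by omega, hadm, by omega, ?_⟩⟩
        rcases hgood with h | ⟨h1, h2⟩
        · left; omega
        · right; exact ⟨by omega, Or.inr h2⟩
      · left
        refine ⟨2 * d / c, hn1, by omega, hadm, ?_⟩
        intro j e hj he hje h0 hfull
        have hj0 : j = 0 := by
          rcases Nat.eq_zero_or_pos j with h | h
          · exact h
          · have : c * 1 ≤ c * j := Nat.mul_le_mul_left _ h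
            omega
        subst hj0
        have hem : e = m := by omega
        subst hem
        have hek : e = 2 * d % c := by
          by_contra hne
          exact hgood (Or.inl (by omega))
        have := hfull (by omega) (by omega)
        rcases this with h | h
        · exact hnodd h
        · exact hgood (Or.inr ⟨hek, by simpa using h⟩)
    · have hcm : c ≤ m := by omega
      have hR2' := hR2 hcm
      have ha1 : 1 ≤ m / c := by
        rcases Nat.eq_zero_or_pos (m / c) with h | h
        · rw [h] at hmm; omega
        · exact h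
      have hn1 : 1 ≤ 2 * d / c := by
        rcases Nat.eq_zero_or_pos (2 * d / c) with h | h
        · rw [h] at hdm; omega
        · exact h
      left
      refine ⟨2 * d / c, hn1, by omega, hadm, ?_⟩
      intro j e hj he hje h0 hfull
      have hek : e ≤ 2 * d % c := by omega
      obtain ⟨hja, heb⟩ := divmod_unique hcpos (by omega) hje
      subst hja
      subst heb
      by_cases hk0 : 2 * d % c = 0
      · have hb0 : m % c = 0 := by omega
        rcases h0 hb0 with h | h
        · exact hnodd h
        · exact hR1 ⟨hk0, Or.inr ⟨hb0, h⟩⟩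
      · by_cases hb0 : m % c = 0
        · rcases h0 hb0 with h | h
          · exact hnodd h
          · exact hR2' (Or.inr (Or.inr ⟨by omega, hb0, h⟩))
        · by_cases hlt : m % c < 2 * d % c
          · exact hR2' (Or.inl ⟨hlt, by omega⟩)
          · have hbk : m % c = 2 * d % c := by omega
            rcases hfull (by omega) hb0 with h | h
            · exact hnodd h
            · apply hR2'
              right; left
              refine ⟨hbk.symm, by omega, ?_⟩
              have h5 : 2 * d + m - 2 * (2 * d % c) = c * (2 * d / c + m / c) := by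
                rw [Nat.mul_add]; omega
              rw [h5, Nat.mul_div_cancel_left _ hcpos]
              rw [Nat.even_iff]
              rw [Nat.even_iff] at h
              omega
  · have hodd : Odd i := Nat.not_even_iff_odd.mp hEi
    have hR' : ¬ (c ≤ m ∧ m % c ≤ 2 * d % c) := by
      intro h; exact hR (Or.inl ⟨hodd, h⟩)
    by_cases hmc : m < c
    · have hb : m % c = m := Nat.mod_eq_of_lt hmc
      by_cases h2 : 2 * d < c
      · right; exact ⟨hmc, Or.inl h2⟩
      have hn1 : 1 ≤ 2 * d / c := by
        rcases Nat.eq_zero_or_pos (2 * d / c) with h | h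
        · rw [h] at hdm; omega
        · exact h
      by_cases hmk : m ≤ 2 * d % c
      · right
        refine ⟨hmc, Or.inr ⟨2 * d / c, hn1, by omega, fun _ => Or.inl hodd, by omega, ?_⟩⟩
        rcases Nat.lt_or_ge m (2 * d % c) with h | h
        · left; omega
        · right; exact ⟨by omega, Or.inl hodd⟩
      · left
        refine ⟨2 * d / c, hn1, by omega, fun _ => Or.inl hodd, ?_⟩
        intro j e hj he hje _ _
        have hj0 : j = 0 := by
          rcases Nat.eq_zero_or_pos j with h | h
          · exact h
          · have : c * 1 ≤ c * j := Nat.mul_le_mul_left _ h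
            omega
        subst hj0
        omega
    · have hcm : c ≤ m := by omega
      have hn1 : 1 ≤ 2 * d / c := by
        rcases Nat.eq_zero_or_pos (2 * d / c) with h | h
        · rw [h] at hdm; omega
        · exact h
      left
      refine ⟨2 * d / c, hn1, by omega, fun _ => Or.inl hodd, ?_⟩
      intro j e hj he hje _ _
      have hek : e ≤ 2 * d % c := by omega
      obtain ⟨hja, heb⟩ := divmod_unique hcpos (by omega) hje
      apply hR'
      exact ⟨hcm, by omega⟩

end Cfsg.Agent.H20.Ep

example : Cfsg.Agent.H48.Ep.StArFwd := Cfsg.Agent.H20.Ep.arFwd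
#print axioms Cfsg.Agent.H20.Ep.arFwd
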