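import Mathlib
import Cfsg.Agent.H95.FlagDefs
import Cfsg.Agent.H19.TwoTrans

/-!
helper20: S2423-B for helper95 — the inner product of two coset permutation characters is the
number of double cosets (Burnside's lemma on `G ⧸ H × G ⧸ K`).
-/

set_option autoImplicit false
set_option linter.style.haveILetI false

namespace Cfsg.Agent.H20.Flag

open MulAction

theorem card_fixedBy_prod_two {G α β : Type*} [Group G] [MulAction G α] [MulAction G β] (g : G) :
    Nat.card (fixedBy (α × β) g) = Nat.card (fixedBy α g) * Nat.card (fixedBy β g) := by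
  rw [← Nat.card_prod]
  apply Nat.card_congr
  refine ⟨fun p => (⟨p.1.1, ?_⟩, ⟨p.1.2, ?_⟩), fun q => ⟨(q.1.1, q.2.1), ?_⟩, ?_, ?_⟩
  · have := p.2
    rw [mem_fixedBy, Prod.smul_def] at this
    exact congrArg Prod.fst this
  · have := p.2
    rw [mem_fixedBy, Prod.smul_def] at this
    exact congrArg Prod.snd this
  · rw [mem_fixedBy, Prod.smul_mk]
    have h1 := q.1.2
    have h2 := q.2.2
    rw [mem_fixedBy] at h1 h2
    rw [h1, h2]
  · intro p; rfl
  · intro q; rfl

theorem card_quotient_eq_card_range {Ω T : Type*} (s : Setoid Ω) (F : Ω → T)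
    (hF : ∀ a b, F a = F b ↔ s.r a b) : Nat.card (Quotient s) = Nat.card (Set.range F) := by
  apply Nat.card_congr
  refine Equiv.ofBijective (Quotient.lift (fun a => (⟨F a, a, rfl⟩ : Set.range F)) ?_) ⟨?_, ?_⟩
  · intro a b hab
    exact Subtype.ext ((hF a b).2 hab)
  · intro x y
    induction x using Quotient.inductionOn with
    | _ a =>
      induction y using Quotient.inductionOn with
      | _ b =>
        intro h
        exact Quotient.sound ((hF a b).1 (congrArg Subtype.val h))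
  · rintro ⟨_, a, rfl⟩
    exact ⟨Quotient.mk s a, rfl⟩

theorem inner_fixedPointCharacter_eq_card_range {G : Type*} [Group G] [Fintype G]
    (H K : Subgroup G)
    {T : Type*} (I : G → T) (hI : ∀ g g' : G, I g = I g' ↔ ∃ h ∈ H, ∃ k ∈ K, g' = h * g * k) :
    (Nat.card G : ℂ)⁻¹ * ∑ g : G, Cfsg.fixedPointCharacter H g * Cfsg.fixedPointCharacter K g
      = (Nat.card (Set.range I) : ℂ) := by
  classical
  have h1 : ∀ g : G, Cfsg.fixedPointCharacter H g * Cfsg.fixedPointCharacter K g
      = ((Nat.card (fixedBy ((G ⧸ H) × (G ⧸ K)) g) : ℕ) : ℂ) := by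
    intro g
    rw [card_fixedBy_prod_two, Nat.cast_mul]
    rfl
  simp_rw [h1]
  rw [← Nat.cast_sum, Cfsg.Agent.H19.sum_card_fixedBy G ((G ⧸ H) × (G ⧸ K)), Nat.cast_mul]
  have hG : (Nat.card G : ℂ) ≠ 0 := by
    exact_mod_cast Nat.card_pos.ne'
  rw [mul_comm, mul_assoc, mul_inv_cancel₀ hG, mul_one]
  congr 1
  let f0 : (G ⧸ H) → (G ⧸ K) → T := fun a b =>
    Quotient.liftOn₂' a b (fun x y => I (x⁻¹ * y)) (by
      intro a₁ b₁ a₂ b₂ ha hb
      rw [QuotientGroup.leftRel_apply] at ha hb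
      show I (a₁⁻¹ * b₁) = I (a₂⁻¹ * b₂)
      rw [hI]
      refine ⟨(a₁⁻¹ * a₂)⁻¹, H.inv_mem ha, b₁⁻¹ * b₂, hb, ?_⟩
      group)
  have hf0 : ∀ x y : G, f0 (x : G ⧸ H) (y : G ⧸ K) = I (x⁻¹ * y) := fun x y => rfl
  have hrange : Set.range (fun ω : (G ⧸ H) × (G ⧸ K) => f0 ω.1 ω.2) = Set.range I := by
    ext t
    constructor
    · rintro ⟨⟨a, b⟩, rfl⟩
      induction a using QuotientGroup.induction_on with
      | H x =>
        induction b using QuotientGroup.induction_on with
        | H y => exact ⟨x⁻¹ * y, (hf0 x y).symm⟩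
    · rintro ⟨g, rfl⟩
      refine ⟨(((1 : G) : G ⧸ H), ((g : G) : G ⧸ K)), ?_⟩
      show f0 ((1 : G) : G ⧸ H) ((g : G) : G ⧸ K) = I g
      rw [hf0, inv_one, one_mul]
  rw [← hrange]
  apply card_quotient_eq_card_range
  rintro ⟨a, b⟩ ⟨a', b'⟩
  induction a using QuotientGroup.induction_on with
  | H x =>
    induction b using QuotientGroup.induction_on with
    | H y =>
      induction a' using QuotientGroup.induction_on with
      | H x' =>
        induction b' using QuotientGroup.induction_on with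
        | H y' =>
          show f0 (x : G ⧸ H) (y : G ⧸ K) = f0 (x' : G ⧸ H) (y' : G ⧸ K) ↔ _
          rw [hf0, hf0, hI]
          show _ ↔ (((x : G ⧸ H), (y : G ⧸ K)) : (G ⧸ H) × (G ⧸ K)) ∈
            orbit G (((x' : G ⧸ H), (y' : G ⧸ K)) : (G ⧸ H) × (G ⧸ K))
          rw [mem_orbit_iff]
          constructor
          · rintro ⟨h, hh, k, hk, e⟩
            refine ⟨x * h⁻¹ * x'⁻¹, ?_⟩
            rw [Prod.smul_mk]
            refine Prod.ext ?_ ?_
            · show ((x * h⁻¹ * x'⁻¹ * x' : G) : G ⧸ H) = (x : G ⧸ H)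
              rw [QuotientGroup.eq]
              have e1 : (x * h⁻¹ * x'⁻¹ * x')⁻¹ * x = h := by group
              rw [e1]; exact hh
            · show ((x * h⁻¹ * x'⁻¹ * y' : G) : G ⧸ K) = (y : G ⧸ K)
              rw [QuotientGroup.eq]
              have e1 : (x * h⁻¹ * x'⁻¹ * y')⁻¹ * y = (x'⁻¹ * y')⁻¹ * h * x⁻¹ * y := by group
              rw [e1, e]
              have e2 : (h * (x⁻¹ * y) * k)⁻¹ * h * x⁻¹ * y = k⁻¹ := by group
              rw [e2]; exact K.inv_mem hk
          · rintro ⟨g, hg⟩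
            rw [Prod.smul_mk] at hg
            have hg1 : ((g * x' : G) : G ⧸ H) = (x : G ⧸ H) := congrArg Prod.fst hg
            have hg2 : ((g * y' : G) : G ⧸ K) = (y : G ⧸ K) := congrArg Prod.snd hg
            rw [QuotientGroup.eq] at hg1 hg2
            refine ⟨(g * x')⁻¹ * x, hg1, ((g * y')⁻¹ * y)⁻¹, K.inv_mem hg2, ?_⟩
            group

end Cfsg.Agent.H20.Flag
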