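import Mathlib
import Cfsg.Prelude.Def_LinearParabolics
import Cfsg.Prelude.Def_Characters
import Cfsg.Agent.H16.PermChar
import Cfsg.Agent.H4.Chars
import Cfsg.Agent.H4.Irr

/-!
helper20: S2421-C3 for helper95 — coset permutation characters are characters, and the
alternating sums `unipotentCharacterGL` are generalized characters.
-/

set_option autoImplicit false
set_option linter.style.haveILetI false

namespace Cfsg.Agent.H20.Flag

universe u

theorem isCharacter_fixedPointCharacter {G : Type u} [Group G] [Finite G] (H : Subgroup G) :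
    Cfsg.IsCharacter G (Cfsg.fixedPointCharacter H) := by
  classical
  haveI : Fintype (G ⧸ H) := Fintype.ofFinite _
  have h := Cfsg.Agent.H4.isCharacter_of_rep (Cfsg.permRep ℂ G (G ⧸ H))
  have e : (Cfsg.permRep ℂ G (G ⧸ H)).character = Cfsg.fixedPointCharacter H := by
    funext g
    rw [Cfsg.Agent.H16.character_permRep]
    rfl
  rwa [e] at h

theorem isGeneralizedCharacter_unipotentCharacterGL {F : Type*} [Field F] [Fintype F] {n : ℕ}
    (ν : Fin n → ℕ) :
    Cfsg.IsGeneralizedCharacter (Matrix.GeneralLinearGroup (Fin n) F)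
      (Cfsg.unipotentCharacterGL n F ν) := by
  classical
  haveI : Finite (Matrix.GeneralLinearGroup (Fin n) F) := inferInstance
  let par : Equiv.Perm (Fin n) → Matrix.GeneralLinearGroup (Fin n) F → ℂ := fun κ =>
    Cfsg.fixedPointCharacter (Cfsg.parabolicGL n F fun i => ν i + i.val - (κ i).val)
  have hpar : ∀ κ, Cfsg.IsCharacter (Matrix.GeneralLinearGroup (Fin n) F) (par κ) :=
    fun κ => isCharacter_fixedPointCharacter _
  let s1 : Finset (Equiv.Perm (Fin n)) := Finset.univ.filter
    (fun κ => (∀ i : Fin n, (κ i).val ≤ ν i + i.val) ∧ Equiv.Perm.sign κ = 1)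
  let s2 : Finset (Equiv.Perm (Fin n)) := Finset.univ.filter
    (fun κ => (∀ i : Fin n, (κ i).val ≤ ν i + i.val) ∧ Equiv.Perm.sign κ = -1)
  refine ⟨∑ κ ∈ s1, par κ, ∑ κ ∈ s2, par κ,
    Cfsg.Agent.H4.isCharacter_sum s1 par (fun κ _ => hpar κ),
    Cfsg.Agent.H4.isCharacter_sum s2 par (fun κ _ => hpar κ), ?_⟩
  funext g
  rw [Pi.sub_apply, Finset.sum_apply, Finset.sum_apply]
  show (∑ κ : Equiv.Perm (Fin n),
    if ∀ i : Fin n, (κ i).val ≤ ν i + i.val then
      ((Equiv.Perm.sign κ : ℤ) : ℂ) * par κ g else 0) = _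
  rw [Finset.sum_filter, Finset.sum_filter, ← Finset.sum_sub_distrib]
  apply Finset.sum_congr rfl
  intro κ _
  by_cases hc : ∀ i : Fin n, (κ i).val ≤ ν i + i.val
  · rcases Int.units_eq_one_or (Equiv.Perm.sign κ) with h1 | h1
    · have h2 : ¬ (Equiv.Perm.sign κ = -1) := by rw [h1]; decide
      simp [hc, h1]
    · have h2 : ¬ (Equiv.Perm.sign κ = 1) := by rw [h1]; decide
      simp [hc, h1]
  · simp [hc]

end Cfsg.Agent.H20.Flag
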