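import Mathlib
import Cfsg.Agent.S2424

/-!
helper20: S2421-C4 for helper95 — the degree of `unipotentCharacterGL` is a positive real.
-/

set_option autoImplicit false
set_option linter.style.haveILetI false

namespace Cfsg.Agent.H20.Flag

theorem unipotentCharacterGL_one_re_pos {F : Type*} [Field F] [Fintype F] {n : ℕ} (ν : Fin n → ℕ)
    (hmono : Monotone ν) (hsum : ∑ i, ν i = n) :
    0 < (Cfsg.unipotentCharacterGL n F ν 1).re := by
  classical
  set q : ℕ := Fintype.card F with hq
  have hq2 : 0 < q := Fintype.card_pos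
  have hres := Cfsg.Agent.S2424.result (F := F) (q := q) rfl ν hmono hsum
  have hpos : ∀ m : ℕ, 0 < ∑ l ∈ Finset.range (m + 1), q ^ l := by
    intro m
    have h1 : q ^ 0 ≤ ∑ l ∈ Finset.range (m + 1), q ^ l :=
      Finset.single_le_sum (f := fun l => q ^ l) (fun _ _ => Nat.zero_le _)
        (Finset.mem_range.2 (Nat.succ_pos m))
    simp only [pow_zero] at h1
    omega
  have hlt : ∀ m m' : ℕ, m < m' →
      (∑ l ∈ Finset.range m, q ^ l) < ∑ l ∈ Finset.range m', q ^ l := by
    intro m m' hmm
    apply Finset.sum_lt_sum_of_subset (i := m)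
    · intro x hx
      rw [Finset.mem_range] at hx ⊢
      omega
    · exact Finset.mem_range.2 hmm
    · simp
    · exact pow_pos hq2 m
    · intro j _ _
      exact Nat.zero_le _
  -- real versions
  set a : ℝ := (q : ℝ) ^ (n * (n - 1) * (n - 2) / 6) *
    ∏ i : Fin n, ∏ j ∈ Finset.range (ν i + i.val),
      ((∑ l ∈ Finset.range (j + 1), q ^ l : ℕ) : ℝ) with ha
  set b : ℝ := (∏ j ∈ Finset.range n, ((∑ l ∈ Finset.range (j + 1), q ^ l : ℕ) : ℝ)) *
    ∏ i : Fin n, ∏ j ∈ Finset.univ.filter (fun j : Fin n => i < j),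
      (((∑ l ∈ Finset.range (ν j + j.val), q ^ l : ℕ) : ℝ) -
        ((∑ l ∈ Finset.range (ν i + i.val), q ^ l : ℕ) : ℝ)) with hb
  have hapos : 0 < a := by
    rw [ha]
    apply mul_pos
    · exact pow_pos (by exact_mod_cast hq2) _
    · apply Finset.prod_pos
      intro i _
      apply Finset.prod_pos
      intro j _
      exact_mod_cast hpos j
  have hbpos : 0 < b := by
    rw [hb]
    apply mul_pos
    · apply Finset.prod_pos
      intro j _
      exact_mod_cast hpos j
    · apply Finset.prod_pos
      intro i _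
      apply Finset.prod_pos
      intro j hj
      rw [Finset.mem_filter] at hj
      have h1 : ν i + i.val < ν j + j.val := by
        have h2 : ν i ≤ ν j := hmono hj.2.le
        have h3 : i.val < j.val := hj.2
        omega
      have h4 := hlt _ _ h1
      rw [sub_pos]
      exact_mod_cast h4
  have hA : Cfsg.unipotentCharacterGL n F ν 1 * (a : ℂ) = (b : ℂ) := by
    rw [ha, hb]
    push_cast
    rw [← mul_assoc]
    exact_mod_cast hres
  have hane : (a : ℂ) ≠ 0 := by
    exact_mod_cast hapos.ne'
  have hχ : Cfsg.unipotentCharacterGL n F ν 1 = ((b / a : ℝ) : ℂ) := by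
    rw [Complex.ofReal_div, eq_div_iff hane]
    exact hA
  rw [hχ, Complex.ofReal_re]
  exact div_pos hbpos hapos

end Cfsg.Agent.H20.Flag
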