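import Cfsg.Agent.H79.HcDefs
import Cfsg.Agent.H82.Irr
import Cfsg.Agent.H82.PermChar

/-!
# S4440 pieces P1 (for helper79): `StmtAvg` and `StmtQV`

* `irr_sum_coset_of_trivial`, `irr_sum_coset_of_nontrivial`: for an irreducible character `χ`
  and a normal subgroup `V`, `Σ_{y ∈ V} χ (g y)` is `|V| χ(g)` if `χ` is trivial on `V`, and `0`
  otherwise.
* `inflate_image_quotSet`: the inflations of the members of `quotSet V U` are the members of `U`
  trivial on `V`.
* `stmtAvg : StmtAvg`, `stmtQV p : StmtQV p`.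
-/

set_option autoImplicit false

namespace Cfsg.Agent.H20.Hc

open Cfsg Cfsg.Agent.H79.Hc

universe u

/-- For an irreducible character `χ` trivial on the normal subgroup `V`, the sum of the values
of `χ` over the coset `g V` is `|V| χ(g)`. -/
theorem irr_sum_coset_of_trivial {G : Type u} [Group G] [Finite G] (V : Subgroup G) [V.Normal]
    (χ : IrrCharacter G) (h : ∀ v ∈ V, (χ : G → ℂ) v = (χ : G → ℂ) 1) (g : G) :
    ∑ᶠ y ∈ (V : Set G), (χ : G → ℂ) (g * y) = (Nat.card V : ℂ) * (χ : G → ℂ) g := by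
  classical
  have hVfin : (V : Set G).Finite := Set.toFinite _
  have h1 : ∀ y ∈ (V : Set G), (χ : G → ℂ) (g * y) = (χ : G → ℂ) g := fun y hy =>
    (Cfsg.Agent.H82.irr_mul_of_mem_irrKer χ (x := y) (h y hy) g).2
  rw [finsum_mem_congr rfl h1, finsum_mem_eq_finite_toFinset_sum _ hVfin, Finset.sum_const,
    nsmul_eq_mul, ← Set.ncard_eq_toFinset_card _ hVfin]
  congr 2

/-- For an irreducible character `χ` not trivial on the normal subgroup `V`, the sum of the
values of `χ` over any coset `g V` vanishes. -/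
theorem irr_sum_coset_of_nontrivial {G : Type u} [Group G] [Finite G] (V : Subgroup G)
    [V.Normal] (χ : IrrCharacter G) (h : ∃ v ∈ V, (χ : G → ℂ) v ≠ (χ : G → ℂ) 1) (g : G) :
    ∑ᶠ y ∈ (V : Set G), (χ : G → ℂ) (g * y) = 0 := by
  classical
  let : Fintype G := Fintype.ofFinite G
  have hVfin : (V : Set G).Finite := Set.toFinite _
  have h0 := Cfsg.Agent.H82.irr_sum_normal_mul_eq_zero χ V h g
  rw [finsum_mem_eq_finite_toFinset_sum _ hVfin, ← h0]
  refine Finset.sum_congr (by ext; simp) (fun y _ => ?_)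
  have h2 := Cfsg.Agent.H82.irr_conj χ (g * y) y
  rw [← h2]
  group

/-- The inflations of the members of `quotSet V U` are the members of `U` trivial on `V`. -/
theorem inflate_image_quotSet {G : Type u} [Group G] [Finite G] (V : Subgroup G) [V.Normal]
    (U : Set (IrrCharacter G)) :
    Cfsg.Agent.H82.inflate V '' quotSet V U =
      {χ : IrrCharacter G | χ ∈ U ∧ ∀ v ∈ V, (χ : G → ℂ) v = (χ : G → ℂ) 1} := by
  ext χ
  constructor
  · rintro ⟨ξ, ⟨χ', hχ'U, hχ'⟩, rfl⟩
    have heq : Cfsg.Agent.H82.inflate V ξ = χ' := by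
      apply Subtype.ext
      funext g
      rw [Cfsg.Agent.H82.inflate_apply, hχ' g]
      rfl
    refine ⟨by rw [heq]; exact hχ'U, fun v hv => Cfsg.Agent.H82.inflate_mem V ξ v hv⟩
  · rintro ⟨hχU, hχV⟩
    obtain ⟨ξ, hξ⟩ := Cfsg.Agent.H82.exists_deflate V χ hχV
    refine ⟨ξ, ⟨χ, hχU, fun g => ?_⟩, hξ⟩
    rw [← hξ, Cfsg.Agent.H82.inflate_apply]
    rfl

/-- **S4440-P1 (AVG).** -/
theorem stmtAvg : StmtAvg.{u} := by
  intro G _ _ V _ U g
  classical
  have : Finite (IrrCharacter G) := Cfsg.Agent.H4.finite_irr G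
  have hVfin : (V : Set G).Finite := Set.toFinite _
  have hUfin : U.Finite := Set.toFinite _
  -- the left-hand side
  have hL : ∑ᶠ y ∈ (V : Set G), wsum U (g * y) =
      ∑ᶠ χ ∈ U, (χ : G → ℂ) 1 * ∑ᶠ y ∈ (V : Set G), (χ : G → ℂ) (g * y) := by
    unfold wsum
    rw [finsum_mem_comm _ hVfin hUfin]
    refine finsum_mem_congr rfl fun χ _ => ?_
    rw [mul_finsum_mem]
  -- the right-hand side
  have hR : wsum (quotSet V U) (QuotientGroup.mk' V g) =
      ∑ᶠ χ ∈ {χ : IrrCharacter G | χ ∈ U ∧ ∀ v ∈ V, (χ : G → ℂ) v = (χ : G → ℂ) 1},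
        (χ : G → ℂ) 1 * (χ : G → ℂ) g := by
    rw [← inflate_image_quotSet,
      finsum_mem_image ((Cfsg.Agent.H82.inflate_injective V).injOn)]
    rfl
  rw [hL, hR, mul_finsum_mem]
  rw [finsum_mem_inter_support_eq _ U
    {χ : IrrCharacter G | χ ∈ U ∧ ∀ v ∈ V, (χ : G → ℂ) v = (χ : G → ℂ) 1}]
  · refine finsum_mem_congr rfl fun χ hχ => ?_
    rw [irr_sum_coset_of_trivial V χ hχ.2 g]
    ring
  · ext χ
    simp only [Set.mem_inter_iff, Function.mem_support, Set.mem_ofPred_eq]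
    constructor
    · rintro ⟨hχU, hne⟩
      refine ⟨⟨hχU, ?_⟩, hne⟩
      by_contra hcon
      push Not at hcon
      rw [irr_sum_coset_of_nontrivial V χ hcon g, mul_zero] at hne
      exact hne rfl
    · rintro ⟨⟨hχU, -⟩, hne⟩
      exact ⟨hχU, hne⟩

/-- **S4440-P1 (QV).** -/
theorem stmtQV (p : ℕ) : StmtQV.{u} p := by
  intro G _ _ V _ U hU q hq
  obtain ⟨g, rfl⟩ := QuotientGroup.mk'_surjective V q
  have h := stmtAvg.{u} G V U g
  have h0 : ∑ᶠ y ∈ (V : Set G), wsum U (g * y) = 0 := by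
    refine finsum_mem_eq_zero_of_forall_eq_zero fun y hy => hU _ ?_
    have h1 : orderOf (QuotientGroup.mk' V (g * y)) ∣ orderOf (g * y) :=
      orderOf_map_dvd _ _
    have h3 : QuotientGroup.mk' V y = 1 := (QuotientGroup.eq_one_iff y).mpr hy
    have h2 : QuotientGroup.mk' V (g * y) = QuotientGroup.mk' V g := by
      rw [map_mul, h3, mul_one]
    rw [h2] at h1
    exact hq.trans h1
  rw [h0] at h
  have hV : (Nat.card V : ℂ) ≠ 0 := by
    exact_mod_cast Nat.card_pos.ne'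
  exact (mul_eq_zero.mp h.symm).resolve_left hV

end Cfsg.Agent.H20.Hc
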