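import Cfsg.Agent.H79.HcDefs
import Cfsg.Agent.H4.Irr

/-!
# S4440 piece P4 (for helper79): `StmtDet` from `StmtAvg`, `StmtRegDet` and `StmtLI`
-/

set_option autoImplicit false

namespace Cfsg.Agent.H20.Hc

open Cfsg Cfsg.Agent.H79.Hc

universe u

/-- The weighted sum of a set of irreducible characters is a class function. -/
theorem isClassFunction_wsum {G : Type u} [Group G] (W : Set (IrrCharacter G)) :
    IsClassFunction G (wsum W) := by
  intro a b
  unfold wsum
  refine finsum_mem_congr rfl fun χ _ => ?_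
  rw [Cfsg.Agent.H4.irr_isClassFunction χ a b]

/-- **S4440-P4 (DET).** -/
theorem stmtDet (p : ℕ) (hAvg : StmtAvg.{u}) (hRegDet : StmtRegDet.{u} p) (hLI : StmtLI.{u}) :
    StmtDet.{u} p := by
  intro G _ _ V _ hV U U' hU hU' hq
  have hVfin : (V : Set G).Finite := Set.toFinite _
  have hf : ∀ g : G, wsum U g - wsum U' g = 0 := by
    refine hRegDet G V hV (fun x => wsum U x - wsum U' x) ?_ ?_ ?_
    · intro a b
      show wsum U (b * a * b⁻¹) - wsum U' (b * a * b⁻¹) = wsum U a - wsum U' a
      rw [isClassFunction_wsum U a b, isClassFunction_wsum U' a b]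
    · intro x hx
      show wsum U x - wsum U' x = 0
      rw [hU x hx, hU' x hx, sub_zero]
    · intro g
      show ∑ᶠ y ∈ (V : Set G), (wsum U (g * y) - wsum U' (g * y)) = 0
      rw [finsum_mem_sub_distrib _ _ hVfin, hAvg G V U g, hAvg G V U' g, hq, sub_self]
  exact hLI G U U' (fun x => sub_eq_zero.mp (hf x))

end Cfsg.Agent.H20.Hc
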