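/-
helper20 library: a Bessel-type inequality for almost orthogonal families.

* `sum_le_of_orth`: if `⟨V z, V z⟩ = ⟨V z, χ⟩ = m z`, `⟨χ, χ⟩ = 1`, and every `V z` is
  non-orthogonal to at most `e` members of the family, then `∑ m z ≤ e`.
-/
import Mathlib
import Cfsg.Agent.H4.Irr
import Cfsg.Agent.H84.Major2

set_option autoImplicit false
set_option linter.style.haveILetI false
set_option linter.unusedSectionVars false
set_option linter.unusedVariables false

namespace Cfsg.Agent.H20

open Cfsg Cfsg.Agent.H4 Cfsg.Agent.H84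
open scoped ComplexConjugate

universe u

section OrthCount

variable {G : Type u} [Group G] [Fintype G]

theorem classInner_self_re_nonneg' (f : G → ℂ) : 0 ≤ (classInner f f).re := by
  rw [classInner_self_eq, Complex.ofReal_re]
  exact classInner_self_nonneg f

theorem classInner_re_symm (f g : G → ℂ) : (classInner f g).re = (classInner g f).re := by
  rw [← classInner_conj_symm g f, Complex.conj_re]

theorem classInner_ne_zero_symm (f g : G → ℂ) : classInner f g ≠ 0 ↔ classInner g f ≠ 0 := by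
  rw [← classInner_conj_symm g f]
  simp

/-- **Bessel-type inequality**. -/
theorem sum_le_of_orth {ι : Type*} (Z : Finset ι) (V : ι → G → ℂ) (χ : G → ℂ) (m : ι → ℝ)
    (e : ℕ) (he : 0 < e) (hχ : classInner χ χ = 1)
    (hVV : ∀ z ∈ Z, classInner (V z) (V z) = (m z : ℂ))
    (hVχ : ∀ z ∈ Z, classInner (V z) χ = (m z : ℂ))
    (hrel : ∀ z ∈ Z, (Z.filter (fun z' => classInner (V z) (V z') ≠ 0)).card ≤ e) :
    ∑ z ∈ Z, m z ≤ e := by
  classical
  have heR : (0 : ℝ) < (e : ℝ) := by exact_mod_cast he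
  have hm0 : ∀ z ∈ Z, 0 ≤ m z := by
    intro z hz
    have h1 := classInner_self_re_nonneg' (V z)
    rw [hVV z hz, Complex.ofReal_re] at h1
    exact h1
  -- pairwise bound
  have hpair : ∀ z ∈ Z, ∀ z' ∈ Z, (classInner (V z) (V z')).re ≤ (m z + m z') / 2 := by
    intro z hz z' hz'
    have h1 := classInner_self_re_nonneg' (V z - V z')
    rw [classInner_sub_left, classInner_sub_right, classInner_sub_right, hVV z hz, hVV z' hz']
      at h1
    simp only [Complex.sub_re, Complex.ofReal_re] at h1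
    have h2 := classInner_re_symm (V z') (V z)
    linarith
  obtain ⟨S, hS⟩ : ∃ S : ℝ, S = ∑ z ∈ Z, m z := ⟨_, rfl⟩
  obtain ⟨u, hu⟩ : ∃ u : G → ℂ, u = ∑ z ∈ Z, V z := ⟨_, rfl⟩
  have huχ : classInner u χ = (S : ℂ) := by
    rw [hu, classInner_sum_left, hS, Complex.ofReal_sum]
    exact Finset.sum_congr rfl (fun z hz => hVχ z hz)
  have hχu : classInner χ u = (S : ℂ) := by
    rw [← classInner_conj_symm, huχ, Complex.conj_ofReal]
  have huu : (classInner u u).re = ∑ z ∈ Z, ∑ z' ∈ Z, (classInner (V z) (V z')).re := by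
    rw [hu, classInner_sum_left, Complex.re_sum]
    apply Finset.sum_congr rfl
    intro z _
    rw [classInner_sum_right, Complex.re_sum]
  -- the double sum is at most `e S`
  have hcount : ∀ z ∈ Z, ∑ z' ∈ Z, (if classInner (V z) (V z') ≠ 0 then (1 : ℝ) else 0) ≤ e := by
    intro z hz
    rw [← Finset.sum_filter, Finset.sum_const, nsmul_eq_mul, mul_one]
    exact_mod_cast hrel z hz
  have hcount' : ∀ z' ∈ Z, ∑ z ∈ Z, (if classInner (V z) (V z') ≠ 0 then (1 : ℝ) else 0) ≤ e := by
    intro z' hz'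
    have h1 := hcount z' hz'
    have h2 : ∑ z ∈ Z, (if classInner (V z) (V z') ≠ 0 then (1 : ℝ) else 0) =
        ∑ z ∈ Z, (if classInner (V z') (V z) ≠ 0 then (1 : ℝ) else 0) := by
      apply Finset.sum_congr rfl
      intro z _
      by_cases h : classInner (V z) (V z') ≠ 0
      · rw [if_pos h, if_pos ((classInner_ne_zero_symm _ _).mp h)]
      · rw [if_neg h, if_neg (fun h' => h ((classInner_ne_zero_symm _ _).mp h'))]
    rw [h2]
    exact h1
  have hdouble : ∑ z ∈ Z, ∑ z' ∈ Z, (classInner (V z) (V z')).re ≤ e * S := by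
    have h1 : ∀ z ∈ Z, ∀ z' ∈ Z, (classInner (V z) (V z')).re ≤
        (if classInner (V z) (V z') ≠ 0 then (1 : ℝ) else 0) * ((m z + m z') / 2) := by
      intro z hz z' hz'
      by_cases h : classInner (V z) (V z') ≠ 0
      · rw [if_pos h, one_mul]
        exact hpair z hz z' hz'
      · push Not at h
        rw [if_neg (by rw [h]; simp), zero_mul, h]
        simp
    have h2 : ∑ z ∈ Z, ∑ z' ∈ Z, (classInner (V z) (V z')).re ≤
        ∑ z ∈ Z, ∑ z' ∈ Z,
          (if classInner (V z) (V z') ≠ 0 then (1 : ℝ) else 0) * ((m z + m z') / 2) :=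
      Finset.sum_le_sum (fun z hz => Finset.sum_le_sum (fun z' hz' => h1 z hz z' hz'))
    have h3 : ∑ z ∈ Z, ∑ z' ∈ Z,
          (if classInner (V z) (V z') ≠ 0 then (1 : ℝ) else 0) * ((m z + m z') / 2) =
        (1 / 2) * ∑ z ∈ Z, m z * ∑ z' ∈ Z, (if classInner (V z) (V z') ≠ 0 then (1 : ℝ) else 0)
        + (1 / 2) * ∑ z' ∈ Z, m z' *
            ∑ z ∈ Z, (if classInner (V z) (V z') ≠ 0 then (1 : ℝ) else 0) := by
      have e1 : ∑ z ∈ Z, ∑ z' ∈ Z,
          (if classInner (V z) (V z') ≠ 0 then (1 : ℝ) else 0) * ((m z + m z') / 2) =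
          (1 / 2) * ∑ z ∈ Z, ∑ z' ∈ Z,
            m z * (if classInner (V z) (V z') ≠ 0 then (1 : ℝ) else 0) +
          (1 / 2) * ∑ z ∈ Z, ∑ z' ∈ Z,
            m z' * (if classInner (V z) (V z') ≠ 0 then (1 : ℝ) else 0) := by
        rw [Finset.mul_sum, Finset.mul_sum, ← Finset.sum_add_distrib]
        apply Finset.sum_congr rfl
        intro z _
        rw [Finset.mul_sum, Finset.mul_sum, ← Finset.sum_add_distrib]
        apply Finset.sum_congr rfl
        intro z' _
        ring
      rw [e1]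
      congr 1
      · congr 1
        apply Finset.sum_congr rfl
        intro z _
        rw [Finset.mul_sum]
      · congr 1
        rw [Finset.sum_comm]
        apply Finset.sum_congr rfl
        intro z' _
        rw [Finset.mul_sum]
    have h4 : ∑ z ∈ Z, m z * ∑ z' ∈ Z, (if classInner (V z) (V z') ≠ 0 then (1 : ℝ) else 0) ≤
        ∑ z ∈ Z, m z * e :=
      Finset.sum_le_sum (fun z hz => mul_le_mul_of_nonneg_left (hcount z hz) (hm0 z hz))
    have h5 : ∑ z' ∈ Z, m z' *
        ∑ z ∈ Z, (if classInner (V z) (V z') ≠ 0 then (1 : ℝ) else 0) ≤ ∑ z' ∈ Z, m z' * e :=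
      Finset.sum_le_sum (fun z hz => mul_le_mul_of_nonneg_left (hcount' z hz) (hm0 z hz))
    rw [← Finset.sum_mul, ← hS] at h4 h5
    rw [h3] at h2
    linarith
  -- the final positivity
  obtain ⟨c, hc⟩ : ∃ c : ℝ, c = 1 / (e : ℝ) := ⟨_, rfl⟩
  have hpos := classInner_self_re_nonneg' (χ - (c : ℂ) • u)
  rw [classInner_sub_left, classInner_sub_right, classInner_sub_right, classInner_smul_left,
    classInner_smul_left, classInner_smul_right, classInner_smul_right, hχ, huχ, hχu,
    Complex.conj_ofReal] at hpos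
  simp only [Complex.sub_re, Complex.one_re, Complex.mul_re, Complex.ofReal_re,
    Complex.ofReal_im, zero_mul, sub_zero, mul_zero] at hpos
  rw [huu] at hpos
  have hc0 : 0 ≤ c := by rw [hc]; positivity
  have h6 : c * (c * ∑ z ∈ Z, ∑ z' ∈ Z, (classInner (V z) (V z')).re) ≤ c * (c * (e * S)) :=
    mul_le_mul_of_nonneg_left (mul_le_mul_of_nonneg_left hdouble hc0) hc0
  have h7 : c * (c * (e * S)) = c * S := by
    rw [hc]
    field_simp
  have h8 : 0 ≤ 1 - c * S := by linarith
  rw [hc] at h8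
  have h9 : 1 / (e : ℝ) * S ≤ 1 := by linarith
  rw [one_div, inv_mul_le_iff₀ heR, mul_one] at h9
  rw [← hS]
  exact h9

end OrthCount

end Cfsg.Agent.H20
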