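/-
helper20 library: the induced section functions are invariant under conjugation of the
subsection.

* `classInner_comp_eqv`, `blockPart_eqvIrr_image`: transport along a group isomorphism.
* `secInd_eqvIrr_image`: for `ψ : C ≃* C'` given by conjugation by `a`,
  `secInd C' (ψ b) (a x a⁻¹) χ = secInd C b x χ`.
-/
import Mathlib
import Cfsg.Agent.H20.FiveH
import Cfsg.Agent.H80.EqvIrr

set_option autoImplicit false
set_option linter.style.haveILetI false
set_option linter.unusedSectionVars false
set_option linter.unusedVariables false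

namespace Cfsg.Agent.H20

open Cfsg Cfsg.Agent.H4 Cfsg.Agent.H84 Cfsg.Agent.H80
open scoped ComplexConjugate

universe u

section Eqv

variable {K K' : Type u} [Group K] [Group K'] [Fintype K] [Fintype K']

theorem classInner_comp_eqv (ψ : K ≃* K') (f g : K → ℂ) :
    classInner (fun k' : K' => f (ψ.symm k')) (fun k' : K' => g (ψ.symm k')) = classInner f g := by
  unfold classInner
  rw [Nat.card_congr ψ.toEquiv.symm]
  congr 1
  exact Equiv.sum_comp ψ.symm.toEquiv (fun k => f k * conj (g k))

theorem blockPart_eqvIrr_image (ψ : K ≃* K') (A : Set (IrrCharacter K)) (F : K → ℂ) (k' : K') :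
    blockPart (eqvIrr ψ '' A) (fun k' : K' => F (ψ.symm k')) k' = blockPart A F (ψ.symm k') := by
  rw [blockPart_apply', blockPart_apply',
    finsum_mem_image (fun a _ b _ h => eqvIrr_injective ψ h)]
  apply finsum_congr
  intro ξ
  apply finsum_congr
  intro _
  have h1 : ((eqvIrr ψ ξ : IrrCharacter K') : K' → ℂ) = fun k' : K' => (ξ : K → ℂ) (ψ.symm k') := by
    funext k'
    exact eqvIrr_apply ψ ξ k'
  rw [h1, classInner_comp_eqv]

end Eqv

section SecConj

variable {G : Type u} [Group G] [Fintype G] {p : ℕ}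

/-- The section part for the conjugate subsection. -/
theorem secPart_eqvIrr_image (a x : G) (C C' : Subgroup G) [Fintype C] [Fintype C']
    (ψ : C ≃* C') (hψ : ∀ c : C, ((ψ c : C') : G) = a * (c : G) * a⁻¹)
    (b : Set (IrrCharacter C)) (χ : IrrCharacter G) (c' : C') :
    secPart p C' (eqvIrr ψ '' b) (a * x * a⁻¹) χ c' = secPart p C b x χ (ψ.symm c') := by
  classical
  have hsymm : ∀ c' : C', ((ψ.symm c' : C) : G) = a⁻¹ * (c' : G) * a := by
    intro c'
    have h1 := hψ (ψ.symm c')
    rw [MulEquiv.apply_symm_apply] at h1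
    rw [h1]
    group
  have hord : orderOf (ψ.symm c') = orderOf c' := MulEquiv.orderOf_eq ψ.symm c'
  unfold secPart
  rw [Cfsg.Agent.H81.pRegularPart_apply, Cfsg.Agent.H81.pRegularPart_apply, hord]
  split_ifs with h
  · rfl
  · have hF : (fun c : C' => (χ : G → ℂ) (a * x * a⁻¹ * (c : G))) =
        fun c : C' => (fun c₁ : C => (χ : G → ℂ) (x * (c₁ : G))) (ψ.symm c) := by
      funext c
      show (χ : G → ℂ) (a * x * a⁻¹ * (c : G)) = (χ : G → ℂ) (x * ((ψ.symm c : C) : G))
      rw [hsymm, ← irr_isClassFunction χ (x * (a⁻¹ * (c : G) * a)) a]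
      group
    rw [hF]
    exact blockPart_eqvIrr_image ψ b (fun c₁ : C => (χ : G → ℂ) (x * (c₁ : G))) c'

/-- The extended section part for the conjugate subsection. -/
theorem secExt_eqvIrr_image (a x : G) (C C' : Subgroup G) [Fintype C] [Fintype C']
    (ψ : C ≃* C') (hψ : ∀ c : C, ((ψ c : C') : G) = a * (c : G) * a⁻¹)
    (b : Set (IrrCharacter C)) (χ : IrrCharacter G) (u : G) :
    secExt p C' (eqvIrr ψ '' b) (a * x * a⁻¹) χ u = secExt p C b x χ (a⁻¹ * u * a) := by
  classical
  unfold secExt
  rw [← Equiv.sum_comp ψ.toEquiv]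
  apply Finset.sum_congr rfl
  intro c _
  have h1 : (a * x * a⁻¹ * ((ψ.toEquiv c : C') : G) = u) ↔ (x * (c : G) = a⁻¹ * u * a) := by
    have e : ((ψ.toEquiv c : C') : G) = a * (c : G) * a⁻¹ := hψ c
    rw [e]
    constructor
    · intro h
      rw [← h]
      group
    · intro h
      have : a * x * a⁻¹ * (a * (c : G) * a⁻¹) = a * (x * (c : G)) * a⁻¹ := by group
      rw [this, h]
      group
  have h2 : secPart p C' (eqvIrr ψ '' b) (a * x * a⁻¹) χ (ψ.toEquiv c) = secPart p C b x χ c := by
    rw [secPart_eqvIrr_image a x C C' ψ hψ b χ]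
    congr 1
    exact ψ.symm_apply_apply c
  rw [h2]
  by_cases h : x * (c : G) = a⁻¹ * u * a
  · rw [if_pos h, if_pos (h1.mpr h)]
  · rw [if_neg h, if_neg (fun h' => h (h1.mp h'))]

/-- **Conjugation invariance**: the induced section function of the conjugate subsection
`(a x a⁻¹, ψ b)` equals that of `(x, b)`. -/
theorem secInd_eqvIrr_image (a x : G) (C C' : Subgroup G) [Fintype C] [Fintype C']
    (ψ : C ≃* C') (hψ : ∀ c : C, ((ψ c : C') : G) = a * (c : G) * a⁻¹)
    (b : Set (IrrCharacter C)) (χ : IrrCharacter G) :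
    secInd p C' (eqvIrr ψ '' b) (a * x * a⁻¹) χ = secInd p C b x χ := by
  classical
  funext g
  unfold secInd
  rw [Nat.card_congr ψ.toEquiv.symm]
  congr 1
  rw [← Equiv.sum_comp (Equiv.mulRight a)
    (fun t => secExt p C b x χ (t⁻¹ * g * t))]
  apply Finset.sum_congr rfl
  intro t _
  rw [secExt_eqvIrr_image a x C C' ψ hψ b χ, Equiv.coe_mulRight]
  congr 1
  group

end SecConj

end Cfsg.Agent.H20
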