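/-
helper20 library: the induced section functions `secInd` as class functions on `G`.

* `classInner_secInd`: `⟨secInd χ, f⟩_G = ⟨secPart χ, f(x ·)⟩_C` for a class function `f`.
* `classInner_secInd_secInd`: `⟨secInd_b χ, secInd_b' χ'⟩_G = ⟨secPart_b χ, secPart_b' χ'⟩_C`.
* `classInner_secInd_irr`: `⟨secInd χ, ψ⟩_G = m_{χψ}`.
* `classInner_secPart_eq_zero`: section parts for different blocks of `C` are orthogonal.
* `exists_conj_of_classInner_secInd_ne_zero`: section functions of non-conjugate `p`-elements
  are orthogonal.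
-/
import Mathlib
import Cfsg.Agent.H20.FiveH
import Cfsg.Agent.H84.SectionCount

set_option autoImplicit false
set_option linter.style.haveILetI false
set_option linter.unusedSectionVars false
set_option linter.unusedVariables false

namespace Cfsg.Agent.H20

open Cfsg Cfsg.Agent.H4 Cfsg.Agent.H84
open scoped ComplexConjugate

universe u

section SecPair

variable {G : Type u} [Group G] [Fintype G] {p : ℕ} {M : Ideal AlgInt}

theorem secInd_isClassFunction (C : Subgroup G) [Fintype C] (b : Set (IrrCharacter C)) (x : G)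
    (χ : IrrCharacter G) : IsClassFunction G (secInd p C b x χ) :=
  fun g h => secInd_conj C b x χ g h

/-- The pairing of the induced section function with a class function of `G`. -/
theorem classInner_secInd (C : Subgroup G) [Fintype C] (b : Set (IrrCharacter C)) (x : G)
    (χ : IrrCharacter G) (f : G → ℂ) (hf : IsClassFunction G f) :
    classInner (secInd p C b x χ) f =
      classInner (secPart p C b x χ) (fun c : C => f (x * (c : G))) := by
  classical
  have hC0 : (Nat.card C : ℂ) ≠ 0 := by exact_mod_cast (Nat.card_pos (α := C)).ne'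
  have hG0 : (Nat.card G : ℂ) ≠ 0 := by exact_mod_cast (Nat.card_pos (α := G)).ne'
  have h1 : ∀ t : G, ∑ g : G, secExt p C b x χ (t⁻¹ * g * t) * conj (f g) =
      ∑ u : G, secExt p C b x χ u * conj (f u) := by
    intro t
    rw [← Equiv.sum_comp (MulAut.conj t).toEquiv
      (fun g => secExt p C b x χ (t⁻¹ * g * t) * conj (f g))]
    apply Finset.sum_congr rfl
    intro u _
    have e1 : (MulAut.conj t).toEquiv u = t * u * t⁻¹ := by simp
    rw [e1, hf]
    congr 2
    group
  have h2 : ∑ g : G, secInd p C b x χ g * conj (f g) =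
      (Nat.card C : ℂ)⁻¹ * ∑ t : G, ∑ g : G, secExt p C b x χ (t⁻¹ * g * t) * conj (f g) := by
    rw [Finset.sum_comm, Finset.mul_sum]
    apply Finset.sum_congr rfl
    intro g _
    unfold secInd
    rw [mul_assoc, Finset.sum_mul]
  unfold classInner
  rw [h2, Finset.sum_congr rfl (fun t _ => h1 t), Finset.sum_const, Finset.card_univ,
    nsmul_eq_mul, sum_secExt_mul, Nat.card_eq_fintype_card (α := G)]
  have hG0' : (Fintype.card G : ℂ) ≠ 0 := by
    rw [← Nat.card_eq_fintype_card]; exact hG0
  field_simp

/-- Inner products of induced section functions for the same `p`-element. -/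
theorem classInner_secInd_secInd (hp : p.Prime) (x : G) (hx : ∃ k : ℕ, orderOf x = p ^ k)
    (C : Subgroup G) [Fintype C] (hxC : ∀ c ∈ C, x * c = c * x)
    (hCx : ∀ g : G, g * x = x * g → g ∈ C) (b b' : Set (IrrCharacter C))
    (χ χ' : IrrCharacter G) :
    classInner (secInd p C b x χ) (secInd p C b' x χ') =
      classInner (secPart p C b x χ) (secPart p C b' x χ') := by
  classical
  rw [classInner_secInd C b x χ _ (secInd_isClassFunction C b' x χ')]
  unfold classInner
  congr 1
  apply Finset.sum_congr rfl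
  intro c _
  by_cases hc : p ∣ orderOf c
  · rw [secPart_of_dvd p C b x χ hc, zero_mul, zero_mul]
  · show secPart p C b x χ c * conj (secInd p C b' x χ' (x * (c : G))) = _
    rw [secInd_mul hp x hx C hxC hCx b' χ' c hc]

/-- The pairing of the induced section function with an irreducible character is the
contribution number. -/
theorem classInner_secInd_irr [Fact p.Prime] (hM : IsPModular p M) (x : G) (C : Subgroup G)
    [Fintype C] (hxC : ∀ c ∈ C, x * c = c * x) (ψ₀ : IrrCharacter C) (χ ψ : IrrCharacter G) :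
    classInner (secInd p C (blockOf M (ψ₀ : C → ℂ)) x χ) (ψ : G → ℂ) =
      contrib p C (blockOf M (ψ₀ : C → ℂ)) x χ ψ := by
  have hG0 : (Nat.card G : ℂ) ≠ 0 := by exact_mod_cast (Nat.card_pos (α := G)).ne'
  have h0 := irr_one_ne_zero ψ
  rw [classInner_secInd C _ x χ _ (irr_isClassFunction ψ), contrib_eq_omega hM x C hxC ψ₀ χ ψ,
    omega_secElt]
  field_simp

/-- Section parts for different blocks of `C` are orthogonal. -/
theorem classInner_secPart_eq_zero (hM : IsPModular p M) (C : Subgroup G) [Fintype C]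
    (b b' : Set (IrrCharacter C)) (hb : IsPBlock M b) (hb' : IsPBlock M b') (hne : b ≠ b')
    (x : G) (χ χ' : IrrCharacter G) :
    classInner (secPart p C b x χ) (secPart p C b' x χ') = 0 := by
  classical
  have hMp := isPrime_of_isPModular hM
  unfold secPart
  rw [pRegularPart_blockPart, pRegularPart_blockPart, classInner_sum_left]
  apply Finset.sum_eq_zero
  intro ξ hξ
  rw [mem_irrFinset] at hξ
  rw [classInner_smul_left, classInner_sum_right]
  apply mul_eq_zero_of_right
  apply Finset.sum_eq_zero
  intro ξ' hξ'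
  rw [mem_irrFinset] at hξ'
  rw [classInner_smul_right, classInner_pReg_right]
  apply mul_eq_zero_of_right
  have h1 : regInner p ξ ξ' = 0 := by
    apply regInner_eq_zero hM
    intro hmem
    apply hne
    obtain ⟨ξ₁, rfl⟩ := hb
    obtain ⟨ξ₂, rfl⟩ := hb'
    have e1 := Cfsg.Agent.H80.blockOf_eq_of_mem hMp hξ
    have e2 := Cfsg.Agent.H80.blockOf_eq_of_mem hMp hξ'
    have e3 := Cfsg.Agent.H80.blockOf_eq_of_mem hMp hmem
    rw [← e1, ← e2, e3]
  unfold regInner at h1
  exact h1

omit [Fintype G] in
/-- If the induced section function does not vanish at `g`, then `g` lies in the `p`-section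
of `x`. -/
theorem exists_of_secInd_ne_zero [Fintype G] (C : Subgroup G) [Fintype C]
    (b : Set (IrrCharacter C)) (x : G) (χ : IrrCharacter G) (g : G)
    (h : secInd p C b x χ g ≠ 0) :
    ∃ t : G, ∃ c : C, ¬ p ∣ orderOf c ∧ x * (c : G) = t⁻¹ * g * t := by
  classical
  by_contra hcon
  apply h
  unfold secInd
  rw [Finset.sum_eq_zero, mul_zero]
  intro t _
  apply secExt_eq_zero
  intro c hc hct
  exact hcon ⟨t, c, hc, hct⟩

/-- Induced section functions of non-conjugate `p`-elements are orthogonal. -/
theorem exists_conj_of_classInner_secInd_ne_zero (hp : p.Prime) (x x' : G)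
    (hx : ∃ k : ℕ, orderOf x = p ^ k) (hx' : ∃ k : ℕ, orderOf x' = p ^ k)
    (C C' : Subgroup G) [Fintype C] [Fintype C'] (hxC : ∀ c ∈ C, x * c = c * x)
    (hxC' : ∀ c ∈ C', x' * c = c * x') (b : Set (IrrCharacter C)) (b' : Set (IrrCharacter C'))
    (χ χ' : IrrCharacter G)
    (h : classInner (secInd p C b x χ) (secInd p C' b' x' χ') ≠ 0) :
    ∃ a : G, a * x * a⁻¹ = x' := by
  classical
  unfold classInner at h
  have h1 : ∑ g : G, secInd p C b x χ g * conj (secInd p C' b' x' χ' g) ≠ 0 := by
    intro h0
    rw [h0, mul_zero] at h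
    exact h rfl
  obtain ⟨g, -, hg⟩ := Finset.exists_ne_zero_of_sum_ne_zero h1
  have hg1 : secInd p C b x χ g ≠ 0 := left_ne_zero_of_mul hg
  have hg2 : secInd p C' b' x' χ' g ≠ 0 := by
    intro h0
    apply hg
    rw [h0, map_zero, mul_zero]
  obtain ⟨t, c, hc, hct⟩ := exists_of_secInd_ne_zero C b x χ g hg1
  obtain ⟨t', c', hc', hct'⟩ := exists_of_secInd_ne_zero C' b' x' χ' g hg2
  have hco : ¬ p ∣ orderOf (c : G) := by rwa [Subgroup.orderOf_coe]
  have hco' : ¬ p ∣ orderOf (c' : G) := by rwa [Subgroup.orderOf_coe]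
  have ha : (t'⁻¹ * t) * (x * (c : G)) * (t'⁻¹ * t)⁻¹ = x' * (c' : G) := by
    rw [hct, hct']
    group
  exact ⟨t'⁻¹ * t, (conj_eq_of_translate' hp hx hx' (hxC c c.2) (hxC' c' c'.2) hco hco' ha).1⟩

end SecPair

end Cfsg.Agent.H20
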