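/-
helper20 library: a trace bound for totally positive elements divisible by `p^h`.

* `card_mul_pow_le_sum_of_pos`: if the values `f(ζ^γ)` (`γ` prime to `n`) of an integer
  polynomial are positive reals, all divisible by `p^h` in the local ring, then their sum is at
  least `φ(n) p^h`.
-/
import Mathlib
import Cfsg.Prelude.Def_Blocks
import Cfsg.Agent.H20.TwoAdic

set_option autoImplicit false
set_option linter.style.haveILetI false
set_option linter.unusedSectionVars false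
set_option linter.unusedVariables false

namespace Cfsg.Agent.H20

open Cfsg Cfsg.Agent.H4 Polynomial

/-- **AM–GM trace bound**: if the values `f(ζ^γ)` (`γ` prime to `n`) are positive reals `r γ`,
each divisible by `p^h` in the local ring, then `∑_γ r γ ≥ φ(n) p^h`. -/
theorem card_mul_pow_le_sum_of_pos {p : ℕ} {M : Ideal AlgInt} (hM : IsPModular p M) {n : ℕ}
    (hn : 0 < n) {ζ : ℂ} (hζ : IsPrimitiveRoot ζ n) (f : ℤ[X]) (h : ℕ) (r : ℕ → ℝ)
    (hr : ∀ γ ∈ (Finset.range n).filter (fun i => i.Coprime n),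
      0 < r γ ∧ aeval (ζ ^ γ) f = (r γ : ℂ))
    (hR : ∀ γ ∈ (Finset.range n).filter (fun i => i.Coprime n),
      ∃ ρ : ℂ, MemLocalRing M ρ ∧ aeval (ζ ^ γ) f = (p : ℂ) ^ h * ρ) :
    (((Finset.range n).filter (fun i => i.Coprime n)).card : ℝ) * (p : ℝ) ^ h ≤
      ∑ γ ∈ (Finset.range n).filter (fun i => i.Coprime n), r γ := by
  classical
  have hp : p.Prime := hM.1
  have hMp := isPrime_of_isPModular hM
  have hp0 : (p : ℂ) ≠ 0 := by exact_mod_cast hp.ne_zero
  have hpR : (0 : ℝ) < (p : ℝ) := by exact_mod_cast hp.pos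
  obtain ⟨I, hI⟩ : ∃ I : Finset ℕ, I = (Finset.range n).filter (fun i => i.Coprime n) := ⟨_, rfl⟩
  rw [← hI] at hR hr ⊢
  obtain ⟨z, hz⟩ := exists_int_prod_aeval_coprime hn hζ f
  rw [← hI] at hz
  choose! ρ hρR hρ using hR
  -- the product is the positive real `∏ r γ`
  have hz1 : (z : ℂ) = ((∏ γ ∈ I, r γ : ℝ) : ℂ) := by
    rw [hz, Complex.ofReal_prod]
    exact Finset.prod_congr rfl (fun γ hγ => (hr γ hγ).2)
  have hz2 : (z : ℝ) = ∏ γ ∈ I, r γ := by exact_mod_cast hz1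
  have hprodpos : 0 < ∏ γ ∈ I, r γ := Finset.prod_pos (fun γ hγ => (hr γ hγ).1)
  have hzpos : 0 < z := by
    have : (0 : ℝ) < (z : ℝ) := by rw [hz2]; exact hprodpos
    exact_mod_cast this
  -- divisibility
  have hz3 : (z : ℂ) = (p : ℂ) ^ (h * I.card) * ∏ γ ∈ I, ρ γ := by
    rw [hz, pow_mul, ← Finset.prod_const, ← Finset.prod_mul_distrib]
    exact Finset.prod_congr rfl (fun γ hγ => hρ γ hγ)
  have hprodR : MemLocalRing M (∏ γ ∈ I, ρ γ) := memLocalRing_prod hMp I ρ hρR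
  have hdvd := pow_dvd_int_of_memLocalRing hM (h * I.card) z _ hprodR hz3
  have hle : ((p : ℤ) ^ (h * I.card)) ≤ z := Int.le_of_dvd hzpos hdvd
  have hle' : ((p : ℝ) ^ h) ^ I.card ≤ ∏ γ ∈ I, r γ := by
    rw [← hz2, ← pow_mul]
    exact_mod_cast hle
  -- the index set is nonempty
  have hIne : I.Nonempty := by
    by_cases h1 : n = 1
    · refine ⟨0, ?_⟩
      rw [hI, Finset.mem_filter, Finset.mem_range]
      exact ⟨hn, by rw [h1]; exact Nat.coprime_one_right 0⟩
    · refine ⟨1, ?_⟩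
      rw [hI, Finset.mem_filter, Finset.mem_range]
      exact ⟨by omega, Nat.coprime_one_left n⟩
  have hcard : (0 : ℝ) < (I.card : ℝ) := by exact_mod_cast hIne.card_pos
  have hsumpos : 0 < ∑ γ ∈ I, r γ := Finset.sum_pos (fun γ hγ => (hr γ hγ).1) hIne
  -- AM-GM
  obtain ⟨m, hm⟩ : ∃ m : ℝ, m = (∑ γ ∈ I, r γ) / I.card := ⟨_, rfl⟩
  have hmpos : 0 < m := by rw [hm]; exact div_pos hsumpos hcard
  have h1 : ∏ γ ∈ I, (r γ / m) ≤ 1 := by
    apply prod_le_one_of_sum_le_card I (fun γ => r γ / m)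
    · intro γ hγ
      exact div_pos (hr γ hγ).1 hmpos
    · rw [← Finset.sum_div, hm]
      have : (∑ γ ∈ I, r γ) / ((∑ γ ∈ I, r γ) / I.card) = I.card := by
        field_simp
      rw [this]
  rw [Finset.prod_div_distrib, Finset.prod_const, div_le_one (pow_pos hmpos _)] at h1
  have h2 : ((p : ℝ) ^ h) ^ I.card ≤ m ^ I.card := hle'.trans h1
  have h3 : (p : ℝ) ^ h ≤ m :=
    le_of_pow_le_pow_left₀ hIne.card_pos.ne' hmpos.le h2
  rw [hm, le_div_iff₀ hcard] at h3
  linarith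

end Cfsg.Agent.H20
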