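/-
helper20 library: heights and the centre of a defect group.

For a maximal Brauer pair `(D, c₀)` of the block `B` and a bound `e` for the orbits of its
stabilizer on `Z(D)`:  `|Z(D)| p^{h(χ)} ≤ e p^d` for every `χ ∈ B`.

* `major_of_subpair`: for `Q ≤ Z(D)` the pair `(Q, f) ≤ (D, c₀)` gives a major subsection.
* `sum_contrib_ge`: the Galois trace of `p^d m_{χχ}` over a major subsection is at least
  `φ(N) p^{h(χ)}`.
* `height_center_bound`: the inequality.
-/
import Mathlib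
import Cfsg.Agent.H20.FiveH
import Cfsg.Agent.H20.TraceBound
import Cfsg.Agent.H20.SecPair
import Cfsg.Agent.H20.SecConj
import Cfsg.Agent.H20.OrthCount
import Cfsg.Agent.H80.AbelDefect
import Cfsg.Agent.H80.FullCent
import Cfsg.Agent.H80.Lift
import Cfsg.Agent.H80.MaxDefect
import Cfsg.Agent.H84.MajorSub
import Cfsg.Agent.H84.SectionSum4
import Cfsg.Agent.H84.Major2
import Cfsg.Agent.S0908

set_option autoImplicit false
set_option linter.style.haveILetI false
set_option linter.unusedSectionVars false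
set_option linter.unusedVariables false

namespace Cfsg.Agent.H20

open Cfsg Cfsg.Agent.H4 Cfsg.Agent.H84 Cfsg.Agent.H80 Polynomial
open scoped ComplexConjugate

universe u

section HeightCenter

variable {G : Type u} [Group G] [Fintype G] {p : ℕ} [Fact p.Prime] {M : Ideal AlgInt}

/-- For `Q ≤ Z(D)` (`(D, c₀)` a maximal Brauer pair of `B`), the pair `(Q, f) ≤ (D, c₀)` is a
major subsection: `f` induces `B` and has the same defect. -/
theorem major_of_subpair (hM : IsPModular p M) {B : Set (IrrCharacter G)} {D : Subgroup G}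
    {c₀ : Set (IrrCharacter (Subgroup.centralizer (D : Set G)))}
    (hmax : IsMaximalBrauerPair p M B D c₀) (Q : Subgroup G)
    (f : Set (IrrCharacter (Subgroup.centralizer (Q : Set G))))
    (hle : SubpairLE p M Q f D c₀) (hQab : Q ≤ Subgroup.centralizer (Q : Set G))
    (hDQ : D ≤ Subgroup.centralizer (Q : Set G)) :
    IsInducedBlock M (Subgroup.centralizer (Q : Set G)) f B ∧
      blockDefect p f = blockDefect p B := by
  classical
  have hp : p.Prime := hM.1
  have hB : IsPBlock M B := hmax.1.2.1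
  have hpair : IsBrauerPairOf p M B Q f :=
    isBrauerPairOf_of_ge p hM (a := ⟨Q, f⟩) (b := ⟨D, c₀⟩) hmax.1 hle
  have hind := isInducedBlock_of_isBrauerPairOf hM B Q hQab f hpair
  refine ⟨hind, le_antisymm (defect_le_of_isInducedBlock hM _ f B hind) ?_⟩
  obtain ⟨D', hD', hle'⟩ := exists_defectGroup_ge_centralizer p hM hmax.1.1 hle
  have h1 := Cfsg.Agent.S0908.result p M hM f hind.1 D' hD'
  have h2 := Cfsg.Agent.S0908.result p M hM B hB D (isDefectGroup_of_maximal p hM B D c₀ hmax)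
  have h3 : Nat.card ((D ⊓ Subgroup.centralizer (Q : Set G)).subgroupOf
      (Subgroup.centralizer (Q : Set G))) = Nat.card D := by
    rw [inf_eq_left.mpr hDQ]
    exact Nat.card_congr (Subgroup.subgroupOfEquivOfLe hDQ).toEquiv
  have h4 := Subgroup.card_le_of_le hle'
  rw [h3, h1, h2] at h4
  exact (Nat.pow_le_pow_iff_right hp.one_lt).mp h4

/-- The Galois trace of `p^d m_{χχ}` over a major subsection `(w, b)` is at least
`φ(N) p^{h(χ)}`. -/
theorem sum_contrib_ge (hM : IsPModular p M) (w : G) (N : ℕ) (hN : 0 < N) (hwN : w ^ N = 1)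
    (hw : ∃ k : ℕ, orderOf w = p ^ k) (C : Subgroup G) [Fintype C]
    (hxC : ∀ c ∈ C, w * c = c * w) (hCx : ∀ g : G, g * w = w * g → g ∈ C)
    (ψ₀ : IrrCharacter C) (B : Set (IrrCharacter G))
    (hind : IsInducedBlock M C (blockOf M (ψ₀ : C → ℂ)) B)
    (hdef : blockDefect p (blockOf M (ψ₀ : C → ℂ)) = blockDefect p B)
    (χ : IrrCharacter G) (hχ : χ ∈ B) :
    (((Finset.range N).filter (fun i => i.Coprime N)).card : ℝ) *
        (p : ℝ) ^ blockHeight p B (χ : G → ℂ) ≤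
      ∑ γ ∈ (Finset.range N).filter (fun i => i.Coprime N),
        (p : ℝ) ^ blockDefect p B * (contrib p C (blockOf M (ψ₀ : C → ℂ)) (w ^ γ) χ χ).re := by
  classical
  have hp : p.Prime := hM.1
  have hMp := isPrime_of_isPModular hM
  have hp0 : (p : ℂ) ≠ 0 := by exact_mod_cast hp.ne_zero
  have hpR : (0 : ℝ) < (p : ℝ) := by exact_mod_cast hp.pos
  have hxmem : w ∈ C := hCx w rfl
  obtain ⟨ζ, hζ⟩ : ∃ ζ : ℂ, IsPrimitiveRoot ζ N := ⟨_, Complex.isPrimitiveRoot_exp _ hN.ne'⟩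
  obtain ⟨f, hf⟩ := exists_contrib_poly hM w N hN hwN C hxmem hxC ψ₀ ζ hζ
  rw [hdef] at hf
  obtain ⟨ψ₁, hψ₁, hψ₁0⟩ := exists_blockHeight_zero (p := p) B ⟨χ, hχ⟩
  have hsub : ∀ γ ∈ (Finset.range N).filter (fun i => i.Coprime N),
      (∃ k' : ℕ, orderOf (w ^ γ) = p ^ k') ∧
      (∀ c ∈ C, w ^ γ * c = c * w ^ γ) ∧ (∀ g : G, g * w ^ γ = w ^ γ * g → g ∈ C) := by
    intro γ hγ
    rw [Finset.mem_filter] at hγ
    exact subsection_pow w hw C hxC hCx γ
      (Nat.Coprime.coprime_dvd_right (orderOf_dvd_of_pow_eq_one hwN) hγ.2)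
  -- reality and positivity
  have hreal : ∀ γ : ℕ, contrib p C (blockOf M (ψ₀ : C → ℂ)) (w ^ γ) χ χ =
      (((contrib p C (blockOf M (ψ₀ : C → ℂ)) (w ^ γ) χ χ).re : ℝ) : ℂ) ∧
      0 ≤ (contrib p C (blockOf M (ψ₀ : C → ℂ)) (w ^ γ) χ χ).re := by
    intro γ
    have h1 : contrib p C (blockOf M (ψ₀ : C → ℂ)) (w ^ γ) χ χ =
        classInner (secPart p C (blockOf M (ψ₀ : C → ℂ)) (w ^ γ) χ)
          (secPart p C (blockOf M (ψ₀ : C → ℂ)) (w ^ γ) χ) := rfl
    rw [h1, classInner_self_eq, Complex.ofReal_re]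
    exact ⟨rfl, classInner_self_nonneg _⟩
  have hpos : ∀ γ ∈ (Finset.range N).filter (fun i => i.Coprime N),
      0 < (contrib p C (blockOf M (ψ₀ : C → ℂ)) (w ^ γ) χ χ).re := by
    intro γ hγ
    obtain ⟨hxγ, hxCγ, hCxγ⟩ := hsub γ hγ
    obtain ⟨ρ, hρR, hρ, hρu, -⟩ := five_h hM (w ^ γ) hxγ C hxCγ hCxγ ψ₀ B hind hdef ψ₁ χ hψ₁ hχ
    have hρ0 : ρ ≠ 0 := by
      intro h0
      apply hρu hψ₁0
      rw [h0]
      exact memLocalIdeal_zero hMp
    have hne : contrib p C (blockOf M (ψ₀ : C → ℂ)) (w ^ γ) ψ₁ χ ≠ 0 := by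
      intro h0
      rw [h0, mul_zero] at hρ
      exact (mul_ne_zero (pow_ne_zero _ hp0) hρ0) hρ.symm
    have hne2 : contrib p C (blockOf M (ψ₀ : C → ℂ)) (w ^ γ) χ χ ≠ 0 := by
      intro h0
      apply hne
      have h1 : classInner (secPart p C (blockOf M (ψ₀ : C → ℂ)) (w ^ γ) χ)
          (secPart p C (blockOf M (ψ₀ : C → ℂ)) (w ^ γ) χ) = 0 := h0
      have h2 := eq_zero_of_classInner_self _ h1
      show classInner (secPart p C (blockOf M (ψ₀ : C → ℂ)) (w ^ γ) ψ₁)
          (secPart p C (blockOf M (ψ₀ : C → ℂ)) (w ^ γ) χ) = 0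
      rw [h2, classInner_zero_right]
    rcases (hreal γ).2.lt_or_eq with h | h
    · exact h
    · exfalso
      apply hne2
      rw [(hreal γ).1, ← h, Complex.ofReal_zero]
  apply card_mul_pow_le_sum_of_pos hM hN hζ (f χ χ) (blockHeight p B (χ : G → ℂ))
    (fun γ => (p : ℝ) ^ blockDefect p B *
      (contrib p C (blockOf M (ψ₀ : C → ℂ)) (w ^ γ) χ χ).re)
  · intro γ hγ
    refine ⟨mul_pos (pow_pos hpR _) (hpos γ hγ), ?_⟩
    rw [hf χ χ γ]
    conv_lhs => rw [(hreal γ).1]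
    push_cast
    rfl
  · intro γ hγ
    obtain ⟨hxγ, hxCγ, hCxγ⟩ := hsub γ hγ
    obtain ⟨ρ, hρR, hρ, -, -⟩ := five_h hM (w ^ γ) hxγ C hxCγ hCxγ ψ₀ B hind hdef χ χ hχ hχ
    exact ⟨ρ, hρR, by rw [hf χ χ γ, hρ]⟩

omit [Fact p.Prime] in
/-- `x^γ` generates the same cyclic group as `x` when `γ` is prime to the order of `x`. -/
theorem zpowers_pow_eq_of_coprime (x : G) (γ : ℕ) (h : γ.Coprime (orderOf x)) :
    Subgroup.zpowers (x ^ γ) = Subgroup.zpowers x := by
  apply le_antisymm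
  · exact Subgroup.zpowers_le.mpr (Subgroup.pow_mem _ (Subgroup.mem_zpowers x) γ)
  · obtain ⟨m, hm⟩ := exists_zpow_eq_of_coprime x γ h
    rw [Subgroup.zpowers_le]
    have h1 := Subgroup.zpow_mem _ (Subgroup.mem_zpowers (x ^ γ)) m
    rwa [hm] at h1

/-- **Heights and the centre of a defect group.**  Let `(D, c₀)` be a maximal Brauer pair of
`B`, and suppose that every orbit of the stabilizer of `(D, c₀)` on `Z(D)` has at most `e`
elements.  Then `|Z(D)| p^{h(χ)} ≤ e p^d` for every `χ ∈ B`, `d` the defect of `B`. -/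
theorem height_center_bound (hM : IsPModular p M) {B : Set (IrrCharacter G)} {D : Subgroup G}
    {c₀ : Set (IrrCharacter (Subgroup.centralizer (D : Set G)))}
    (hmax : IsMaximalBrauerPair p M B D c₀) (e : ℕ) (he : 0 < e)
    (hfus : ∀ z ∈ D, (∀ d ∈ D, d * z = z * d) →
      Set.ncard {z' : G | ∃ t : G, conjPair t ⟨D, c₀⟩ = ⟨D, c₀⟩ ∧ t * z * t⁻¹ = z'} ≤ e)
    (W : Subgroup G) (hW : ∀ z : G, z ∈ W ↔ z ∈ D ∧ ∀ d ∈ D, d * z = z * d)
    (χ : IrrCharacter G) (hχ : χ ∈ B) :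
    Nat.card W * p ^ blockHeight p B (χ : G → ℂ) ≤ e * p ^ blockDefect p B := by
  classical
  have hp : p.Prime := hM.1
  have hMp := isPrime_of_isPModular hM
  have hpR : (0 : ℝ) < (p : ℝ) := by exact_mod_cast hp.pos
  have hB : IsPBlock M B := hmax.1.2.1
  have hPe : IsBrauerPair p M D c₀ := hmax.1.1
  have hDp : IsPGroup p D := hPe.1
  letI inst : ∀ Q : Subgroup G, Fintype (Subgroup.centralizer (Q : Set G)) :=
    fun Q => Fintype.ofFinite _
  haveI : Fintype W := Fintype.ofFinite W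
  have key : ∀ Q : Subgroup G, ∃ f : Set (IrrCharacter (Subgroup.centralizer (Q : Set G))),
      Q ≤ D → (IsPBlock M f ∧ SubpairLE p M Q f D c₀) := by
    intro Q
    by_cases h : Q ≤ D
    · obtain ⟨f, hf⟩ := exists_subpairLE hM D c₀ hPe _ Q h rfl
      exact ⟨f, fun _ => hf⟩
    · exact ⟨∅, fun h' => absurd h' h⟩
  choose β hβ using key
  -- elementary facts about `w ∈ W`
  have hWD : ∀ w ∈ W, Subgroup.zpowers w ≤ D :=
    fun w hw => Subgroup.zpowers_le.mpr ((hW w).mp hw).1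
  have hWp : ∀ w ∈ W, ∃ k : ℕ, orderOf w = p ^ k := by
    intro w hw
    obtain ⟨k, hk⟩ := hDp ⟨w, ((hW w).mp hw).1⟩
    have h1 : w ^ p ^ k = 1 := congrArg Subtype.val hk
    obtain ⟨j, -, hj⟩ := (Nat.dvd_prime_pow hp).mp (orderOf_dvd_of_pow_eq_one h1)
    exact ⟨j, hj⟩
  have hQab : ∀ w : G, Subgroup.zpowers w ≤
      Subgroup.centralizer ((Subgroup.zpowers w : Subgroup G) : Set G) := by
    intro w a ha
    rw [Subgroup.mem_centralizer_iff]
    intro h hh
    obtain ⟨i, rfl⟩ := Subgroup.mem_zpowers_iff.mp ha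
    obtain ⟨j, rfl⟩ := Subgroup.mem_zpowers_iff.mp hh
    exact zpow_mul_comm w j i
  have hDQ : ∀ w ∈ W, D ≤ Subgroup.centralizer ((Subgroup.zpowers w : Subgroup G) : Set G) := by
    intro w hw d hd
    rw [Subgroup.mem_centralizer_iff]
    intro h hh
    obtain ⟨j, rfl⟩ := Subgroup.mem_zpowers_iff.mp hh
    have h1 : Commute d w := ((hW w).mp hw).2 d hd
    exact ((h1.zpow_right j).eq).symm
  have hxC : ∀ w : G, ∀ c ∈ Subgroup.centralizer ((Subgroup.zpowers w : Subgroup G) : Set G),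
      w * c = c * w :=
    fun w c hc => Subgroup.mem_centralizer_iff.mp hc w (Subgroup.mem_zpowers w)
  have hCx : ∀ w g : G, g * w = w * g →
      g ∈ Subgroup.centralizer ((Subgroup.zpowers w : Subgroup G) : Set G) := by
    intro w g hg
    rw [Subgroup.mem_centralizer_iff]
    intro h hh
    obtain ⟨j, rfl⟩ := Subgroup.mem_zpowers_iff.mp hh
    have h1 : Commute g w := hg
    exact ((h1.zpow_right j).eq).symm
  have hmajor : ∀ w ∈ W,
      IsInducedBlock M (Subgroup.centralizer ((Subgroup.zpowers w : Subgroup G) : Set G))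
        (β (Subgroup.zpowers w)) B ∧
      blockDefect p (β (Subgroup.zpowers w)) = blockDefect p B :=
    fun w hw => major_of_subpair hM hmax _ _ (hβ _ (hWD w hw)).2 (hQab w) (hDQ w hw)
  -- the contribution numbers and the section functions
  obtain ⟨μ, hμ⟩ : ∃ μ : Subgroup G → G → ℂ, ∀ Q x,
      μ Q x = contrib p (Subgroup.centralizer (Q : Set G)) (β Q) x χ χ := ⟨_, fun _ _ => rfl⟩
  obtain ⟨V, hV⟩ : ∃ V : Subgroup G → G → G → ℂ, ∀ Q x,
      V Q x = secInd p (Subgroup.centralizer (Q : Set G)) (β Q) x χ := ⟨_, fun _ _ => rfl⟩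
  have hμreal : ∀ Q x, μ Q x = (((μ Q x).re : ℝ) : ℂ) := by
    intro Q x
    rw [hμ]
    have h1 : contrib p (Subgroup.centralizer (Q : Set G)) (β Q) x χ χ =
        classInner (secPart p (Subgroup.centralizer (Q : Set G)) (β Q) x χ)
          (secPart p (Subgroup.centralizer (Q : Set G)) (β Q) x χ) := rfl
    rw [h1, classInner_self_eq, Complex.ofReal_re]
  -- the lower bound
  obtain ⟨N, hNdef⟩ : ∃ N : ℕ, N = Nat.card W := ⟨_, rfl⟩
  have hN : 0 < N := by rw [hNdef]; exact Nat.card_pos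
  obtain ⟨I, hI⟩ : ∃ I : Finset ℕ, I = (Finset.range N).filter (fun i => i.Coprime N) := ⟨_, rfl⟩
  have hIne : I.Nonempty := by
    by_cases h1 : N = 1
    · refine ⟨0, ?_⟩
      rw [hI, Finset.mem_filter, Finset.mem_range]
      exact ⟨hN, by rw [h1]; exact Nat.coprime_one_right 0⟩
    · refine ⟨1, ?_⟩
      rw [hI, Finset.mem_filter, Finset.mem_range]
      exact ⟨by omega, Nat.coprime_one_left N⟩
  have hIcard : (0 : ℝ) < (I.card : ℝ) := by exact_mod_cast hIne.card_pos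
  have hwN : ∀ w ∈ W, w ^ N = 1 := by
    intro w hw
    have h1 : (⟨w, hw⟩ : W) ^ Nat.card W = 1 := pow_card_eq_one'
    rw [hNdef]
    exact congrArg Subtype.val h1
  have hlow : ∀ w ∈ W, (I.card : ℝ) * (p : ℝ) ^ blockHeight p B (χ : G → ℂ) ≤
      ∑ γ ∈ I, (p : ℝ) ^ blockDefect p B * (μ (Subgroup.zpowers w) (w ^ γ)).re := by
    intro w hw
    obtain ⟨hind, hdef⟩ := hmajor w hw
    obtain ⟨ψ₀, hψ₀⟩ := (hβ _ (hWD w hw)).1
    rw [hψ₀] at hind hdef
    have h1 := sum_contrib_ge hM w N hN (hwN w hw) (hWp w hw)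
      (Subgroup.centralizer ((Subgroup.zpowers w : Subgroup G) : Set G)) (hxC w) (hCx w) ψ₀ B
      hind hdef χ hχ
    rw [← hI] at h1
    refine h1.trans (le_of_eq ?_)
    apply Finset.sum_congr rfl
    intro γ _
    rw [hμ, hψ₀]
  have hperm : ∀ γ ∈ I, ∑ w : W, (μ (Subgroup.zpowers (w : G)) (w : G)).re =
      ∑ w : W, (μ (Subgroup.zpowers (w : G)) ((w : G) ^ γ)).re := by
    intro γ hγ
    rw [hI, Finset.mem_filter] at hγ
    have hcop : (Nat.card W).Coprime γ := by rw [← hNdef]; exact hγ.2.symm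
    rw [← Equiv.sum_comp (powCoprime hcop)
      (fun w : W => (μ (Subgroup.zpowers (w : G)) (w : G)).re)]
    apply Finset.sum_congr rfl
    intro w _
    have h1 : ((powCoprime hcop w : W) : G) = (w : G) ^ γ := rfl
    rw [h1, zpowers_pow_eq_of_coprime (w : G) γ
      (Nat.Coprime.coprime_dvd_right (orderOf_dvd_of_pow_eq_one (hwN w w.2)) hγ.2)]
  have hlower : (Nat.card W : ℝ) * (p : ℝ) ^ blockHeight p B (χ : G → ℂ) ≤
      (p : ℝ) ^ blockDefect p B * ∑ w : W, (μ (Subgroup.zpowers (w : G)) (w : G)).re := by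
    have h1 : (I.card : ℝ) * ((p : ℝ) ^ blockDefect p B *
        ∑ w : W, (μ (Subgroup.zpowers (w : G)) (w : G)).re) =
        ∑ w : W, ∑ γ ∈ I, (p : ℝ) ^ blockDefect p B *
          (μ (Subgroup.zpowers (w : G)) ((w : G) ^ γ)).re := by
      rw [Finset.sum_comm, ← nsmul_eq_mul, ← Finset.sum_const]
      apply Finset.sum_congr rfl
      intro γ hγ
      rw [hperm γ hγ, Finset.mul_sum]
    have h2 : ∑ w : W, (I.card : ℝ) * (p : ℝ) ^ blockHeight p B (χ : G → ℂ) ≤
        ∑ w : W, ∑ γ ∈ I, (p : ℝ) ^ blockDefect p B *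
          (μ (Subgroup.zpowers (w : G)) ((w : G) ^ γ)).re :=
      Finset.sum_le_sum (fun w _ => hlow w w.2)
    rw [Finset.sum_const, Finset.card_univ, nsmul_eq_mul, ← h1, ← Nat.card_eq_fintype_card] at h2
    have h3 : (I.card : ℝ) * ((Nat.card W : ℝ) * (p : ℝ) ^ blockHeight p B (χ : G → ℂ)) ≤
        (I.card : ℝ) * ((p : ℝ) ^ blockDefect p B *
          ∑ w : W, (μ (Subgroup.zpowers (w : G)) (w : G)).re) := by
      linarith
    exact le_of_mul_le_mul_left h3 hIcard
  -- fusion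
  have hfusion : ∀ w ∈ W, ∀ w' ∈ W,
      classInner (V (Subgroup.zpowers w) w) (V (Subgroup.zpowers w') w') ≠ 0 →
      ∃ t : G, conjPair t ⟨D, c₀⟩ = ⟨D, c₀⟩ ∧ t * w * t⁻¹ = w' := by
    intro w hw w' hw' hne
    rw [hV, hV] at hne
    obtain ⟨a, ha⟩ := exists_conj_of_classInner_secInd_ne_zero hp w w' (hWp w hw) (hWp w' hw')
      _ _ (hxC w) (hxC w') _ _ χ χ hne
    subst ha
    have hQmap : (Subgroup.zpowers w).map (MulAut.conj a).toMonoidHom =
        Subgroup.zpowers (a * w * a⁻¹) := by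
      rw [MonoidHom.map_zpowers]
      rfl
    have htrans : secInd p (Subgroup.centralizer
          (((Subgroup.zpowers w).map (MulAut.conj a).toMonoidHom : Subgroup G) : Set G))
          (conjBlock (Subgroup.zpowers w) a (β (Subgroup.zpowers w))) (a * w * a⁻¹) χ =
        secInd p (Subgroup.centralizer ((Subgroup.zpowers w : Subgroup G) : Set G))
          (β (Subgroup.zpowers w)) w χ := by
      rw [conjBlock_eq_image]
      exact secInd_eqvIrr_image a w _ _ (centEqv (Subgroup.zpowers w) a)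
        (centEqv_apply _ a) _ χ
    have gen : ∀ (Q₁ : Subgroup G)
        (f₁ : Set (IrrCharacter (Subgroup.centralizer (Q₁ : Set G)))),
        Q₁ = Subgroup.zpowers (a * w * a⁻¹) → IsPBlock M f₁ →
        classInner (secInd p (Subgroup.centralizer (Q₁ : Set G)) f₁ (a * w * a⁻¹) χ)
          (secInd p (Subgroup.centralizer
            ((Subgroup.zpowers (a * w * a⁻¹) : Subgroup G) : Set G))
            (β (Subgroup.zpowers (a * w * a⁻¹))) (a * w * a⁻¹) χ) ≠ 0 →
        (⟨Q₁, f₁⟩ : BrauerPairIdx G) =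
          ⟨Subgroup.zpowers (a * w * a⁻¹), β (Subgroup.zpowers (a * w * a⁻¹))⟩ := by
      intro Q₁ f₁ hQ₁ hf₁ hne₁
      subst hQ₁
      have hf : f₁ = β (Subgroup.zpowers (a * w * a⁻¹)) := by
        by_contra hne₂
        apply hne₁
        rw [classInner_secInd_secInd hp (a * w * a⁻¹) (hWp _ hw') _ (hxC _) (hCx _)]
        exact classInner_secPart_eq_zero hM _ f₁ (β _) hf₁ (hβ _ (hWD _ hw')).1 hne₂ _ χ χ
      rw [hf]
    have hpairEq : conjPair a ⟨Subgroup.zpowers w, β (Subgroup.zpowers w)⟩ =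
        (⟨Subgroup.zpowers (a * w * a⁻¹), β (Subgroup.zpowers (a * w * a⁻¹))⟩ :
          BrauerPairIdx G) := by
      apply gen _ _ hQmap (isPBlock_conjBlock _ a (hβ _ (hWD w hw)).1)
      rw [htrans]
      exact hne
    have hle : SubpairLE p M (Subgroup.zpowers (a * w * a⁻¹))
        (β (Subgroup.zpowers (a * w * a⁻¹))) D c₀ := (hβ _ (hWD _ hw')).2
    have hle' : Relation.ReflTransGen (NormalSubpairRel p M)
        ⟨Subgroup.zpowers (a * w * a⁻¹), β (Subgroup.zpowers (a * w * a⁻¹))⟩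
        (conjPair a ⟨D, c₀⟩) := by
      have h1 := subpairLE_conj p a (hβ _ (hWD w hw)).2
      rw [hpairEq] at h1
      exact h1
    have hPC' : (conjPair a ⟨D, c₀⟩).1 ≤
        Subgroup.centralizer ((Subgroup.zpowers (a * w * a⁻¹) : Subgroup G) : Set G) := by
      rintro _ ⟨d, hd, rfl⟩
      apply hCx
      have h1 : d * w = w * d := ((hW w).mp hw).2 d hd
      show a * d * a⁻¹ * (a * w * a⁻¹) = a * w * a⁻¹ * (a * d * a⁻¹)
      calc a * d * a⁻¹ * (a * w * a⁻¹) = a * (d * w) * a⁻¹ := by group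
        _ = a * (w * d) * a⁻¹ := by rw [h1]
        _ = a * w * a⁻¹ * (a * d * a⁻¹) := by group
    obtain ⟨c, hc, hcc⟩ := exists_centralizer_conj_of_maximal p hM hmax (conjPair a ⟨D, c₀⟩)
      (isMaximal_conjPair p hmax a) (hβ _ (hWD _ hw')).1 hle hle' (hDQ _ hw') hPC'
    rw [conjPair_mul] at hcc
    refine ⟨c * a, hcc, ?_⟩
    have h2 := hxC _ c hc
    calc c * a * w * (c * a)⁻¹ = c * (a * w * a⁻¹) * c⁻¹ := by group
      _ = a * w * a⁻¹ * c * c⁻¹ := by rw [h2]
      _ = a * w * a⁻¹ := by group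
  -- the upper bound
  have hupper : ∑ w : W, (μ (Subgroup.zpowers (w : G)) (w : G)).re ≤ e := by
    apply sum_le_of_orth Finset.univ (fun w : W => V (Subgroup.zpowers (w : G)) (w : G))
      (χ : G → ℂ) (fun w : W => (μ (Subgroup.zpowers (w : G)) (w : G)).re) e he
      (irr_inner_self χ)
    · intro w _
      show classInner (V (Subgroup.zpowers (w : G)) (w : G)) (V (Subgroup.zpowers (w : G)) (w : G))
        = _
      rw [hV, classInner_secInd_secInd hp (w : G) (hWp w w.2) _ (hxC w) (hCx w), ← hμreal, hμ]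
      rfl
    · intro w _
      obtain ⟨ψ₀, hψ₀⟩ := (hβ _ (hWD w w.2)).1
      show classInner (V (Subgroup.zpowers (w : G)) (w : G)) (χ : G → ℂ) = _
      rw [hV, ← hμreal, hμ, hψ₀]
      exact classInner_secInd_irr hM (w : G) _ (hxC w) ψ₀ χ χ
    · intro w _
      have hsub : ((Finset.univ.filter (fun w' : W =>
          classInner (V (Subgroup.zpowers (w : G)) (w : G))
            (V (Subgroup.zpowers (w' : G)) (w' : G)) ≠ 0)).image
            (fun w' : W => (w' : G)) : Set G) ⊆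
          {z' : G | ∃ t : G, conjPair t ⟨D, c₀⟩ = ⟨D, c₀⟩ ∧ t * (w : G) * t⁻¹ = z'} := by
        intro z' hz'
        rw [Finset.mem_coe, Finset.mem_image] at hz'
        obtain ⟨w', hw', rfl⟩ := hz'
        rw [Finset.mem_filter] at hw'
        exact hfusion w w.2 w' w'.2 hw'.2
      have h1 := Set.ncard_le_ncard hsub (Set.toFinite _)
      rw [Set.ncard_coe_finset, Finset.card_image_of_injective _ Subtype.val_injective] at h1
      exact h1.trans (hfus w ((hW w).mp w.2).1 ((hW w).mp w.2).2)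
  -- conclusion
  have hfinal : (Nat.card W : ℝ) * (p : ℝ) ^ blockHeight p B (χ : G → ℂ) ≤
      (e : ℝ) * (p : ℝ) ^ blockDefect p B := by
    have h1 : (p : ℝ) ^ blockDefect p B * ∑ w : W, (μ (Subgroup.zpowers (w : G)) (w : G)).re ≤
        (p : ℝ) ^ blockDefect p B * e :=
      mul_le_mul_of_nonneg_left hupper (pow_pos hpR _).le
    linarith
  exact_mod_cast hfinal

end HeightCenter

end Cfsg.Agent.H20
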