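import Mathlib
import Cfsg.Agent.H20.HtDefs
import Cfsg.Agent.H11.AbNormalCyclic
import Cfsg.Agent.S0016

/-!
# S3371: assembly of the pieces
-/

set_option autoImplicit false

namespace Cfsg.Agent.H20.Ht

universe u v

theorem assemble
    (hStab : StmtStab.{u, v}) (hPQ : StmtPQ.{u, v}) (hR2 : StmtRank2.{u})
    (hNR2 : StmtNoRank2.{u, v}) (hIrr : StmtIrr.{u, v}) (hNCQ : StmtNotCQ.{u, v})
    (hOdd : StmtOdd.{u, v}) (hSw1 : StmtSwap1.{u, v}) (hSw2 : StmtSwap2.{u, v})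
    (hSw3 : StmtSwap3.{u, v}) (hSw4 : StmtSwap4.{u, v}) (hCoord : StmtCoord.{u, v})
    (hUI : StmtUniqInv.{u, v}) (hFS : StmtFixSqrt.{u, v}) (hCnt : StmtCount.{u, v})
    (hDih : StmtDih.{u}) (hQD : StmtQD.{u}) (hNT1 : StmtNT1) (hNT2 : StmtNT2)
    (q : ℕ) [Fact q.Prime] {V : Type v} [AddCommGroup V] [Module (ZMod q) V] [Finite V]
    [Nontrivial V] {G : Type u} [Group G] [Finite G] (p : ℕ) [Fact p.Prime] (hG : IsPGroup p G)
    (ρ : G →* (V ≃ₗ[ZMod q] V)) (hρ : Function.Injective ρ)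
    (hhalf : ∀ v w : V, v ≠ 0 → w ≠ 0 →
      Nat.card {u : V | ∃ g : G, ρ g v = u} = Nat.card {u : V | ∃ g : G, ρ g w = u}) :
    ((IsCyclic G ∨ ∃ n : ℕ, Nonempty (G ≃* QuaternionGroup n)) ∧
      ∀ v : V, v ≠ 0 → ∀ g : G, ρ g v = v → g = 1) ∨
    (Nat.card V = q ^ 2 ∧ ∃ m : ℕ, q = 2 ^ m - 1 ∧
      (Nonempty (G ≃* DihedralGroup (2 ^ m)) ∨
        (Cfsg.IsQuasiDihedral G ∧ Nat.card G = 2 ^ (m + 2)))) ∨
    (Nat.card V = q ^ 2 ∧ (∃ m : ℕ, q = 2 ^ m + 1) ∧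
      ∃ e : V ≃ₗ[ZMod q] (Fin 2 → ZMod q),
        ∀ f : (Fin 2 → ZMod q) ≃ₗ[ZMod q] (Fin 2 → ZMod q),
        (∃ g : G, f = e.symm.trans ((ρ g).trans e)) ↔
        ∃ a s : ZMod q, a ≠ 0 ∧ (s = 1 ∨ s = -1) ∧
          ((∀ v, f v = ![a * v 0, s * a⁻¹ * v 1]) ∨ (∀ v, f v = ![s * a⁻¹ * v 1, a * v 0]))) ∨
    (Nat.card V = 81 ∧ q = 3 ∧ p = 2) := by
  classical
  have hp : p.Prime := Fact.out
  have hq : q.Prime := Fact.out
  have hES : EqStab ρ := hStab q V G ρ hhalf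
  by_cases hpq : p = q
  · subst hpq
    have hsub : Subsingleton G := hPQ p V G ρ hG hρ hES
    left
    exact ⟨Or.inl isCyclic_of_subsingleton, fun v _ g _ => Subsingleton.elim g 1⟩
  by_cases hsr : Semireg ρ
  · left
    refine ⟨?_, hsr⟩
    by_cases huniq : ∀ H K : Subgroup G, Nat.card H = p → Nat.card K = p → H = K
    · rcases Cfsg.Agent.S0016.result p hG huniq with h | ⟨-, n, hn⟩
      · exact Or.inl h
      · exact Or.inr ⟨2 ^ n, hn⟩
    · exfalso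
      obtain ⟨z, x, hz1, hzp, hxp, hxz, hcomm⟩ := hR2 G p hG huniq
      exact hNR2 q V G ρ p hpq hsr z x hz1 hzp hxp hxz hcomm
  have hirr : Irr ρ := hIrr q V G ρ p hG hpq hρ hES hsr
  obtain ⟨hnc, hnq⟩ := hNCQ q V G ρ p hG hρ hirr hsr
  by_cases hex : ∃ A : Subgroup G, A.Normal ∧ (∀ a ∈ A, ∀ b ∈ A, a * b = b * a) ∧ ¬ IsCyclic A
  · obtain ⟨A, hAn, hAc, hAnc⟩ := hex
    by_cases hp2 : p = 2
    · subst hp2
      have hq2 : q ≠ 2 := fun h => hpq h.symm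
      obtain ⟨Wp, Wm, hS⟩ := hSw1 q V G ρ hG hq2 hρ hirr A hAn hAc hAnc
      have hSA : SwapAll ρ Wp Wm := hSw2 q V G ρ hq2 hES Wp Wm hS
      obtain ⟨hcard, u, hu⟩ := hSw3 q V G ρ hG Wp Wm hS hSA
      have hWp : Nat.card Wp = q ^ Module.finrank (ZMod q) Wp := by
        have := Module.natCard_eq_pow_finrank (K := ZMod q) (V := Wp)
        rwa [Nat.card_zmod] at this
      have hV : Nat.card V = Nat.card Wp * Nat.card Wm := by
        rw [← Nat.card_prod]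
        exact Nat.card_congr (Submodule.prodEquivOfIsCompl Wp Wm hS.1).symm.toEquiv
      rcases hNT1 q _ u hq hq2 (hWp ▸ hu) with hd | ⟨hq3, hd⟩
      · right; right; left
        have hWpq : Nat.card Wp = q := by rw [hWp, hd, pow_one]
        have hWmq : Nat.card Wm = q := by rw [← hcard, hWpq]
        refine ⟨by rw [hV, hWpq, hWmq, sq], ⟨u, by rw [← hu, hWpq]⟩, ?_⟩
        exact hCoord q V G ρ hq2 Wp Wm hS hSA
          (hSw4 q V G ρ hq2 hρ hES Wp Wm hS hSA hWpq hWmq) hWpq hWmq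
      · right; right; right
        refine ⟨?_, hq3, rfl⟩
        rw [hV, ← hcard, hWp, hd, hq3]
        norm_num
    · exact (hOdd q V G ρ p hG hp2 hpq hρ hirr hES A hAn hAc hAnc).elim
  · push Not at hex
    have hn : ∀ A : Subgroup G, A.Normal → IsMulCommutative A → IsCyclic A := by
      intro A hAn hAc
      exact hex A hAn
        (fun a ha b hb => congrArg Subtype.val (hAc.is_comm.comm (⟨a, ha⟩ : A) ⟨b, hb⟩))
    obtain ⟨hp2, h⟩ := Cfsg.Agent.H11.abelian_normal_cyclic_main p hG hn hnc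
    subst hp2
    have hq2 : q ≠ 2 := fun h => hpq h.symm
    right; left
    have key : ∀ (A : Subgroup G) (z : G) (j : ℕ), 2 ≤ j → CycStr A z (2 ^ j) →
        Nat.card V = q ^ 2 ∧ q = 2 ^ j - 1 := by
      intro A z j hj hC
      have hUI' := hUI q V G ρ hG hq2 hρ hirr hES hsr A z _ hC
      have hFS' := hFS q V G ρ hq2 hρ hirr A z _ hC
      obtain ⟨c, hc2, hck⟩ := hCnt q V G ρ A _ hUI' hFS' hC.2.2.2.2.2.2.2
      have hVq : Nat.card V = q ^ Module.finrank (ZMod q) V := by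
        have := Module.natCard_eq_pow_finrank (K := ZMod q) (V := V)
        rwa [Nat.card_zmod] at this
      have hcd : c ∣ q ^ Module.finrank (ZMod q) V := by
        rw [← hVq, hc2]; exact dvd_pow_self c two_ne_zero
      obtain ⟨d, -, rfl⟩ := (Nat.dvd_prime_pow hq).mp hcd
      have hd : d = 1 := hNT2 q d j hq hq2 hj hck
      subst hd
      rw [pow_one] at hc2 hck
      exact ⟨hc2, Nat.eq_sub_of_add_eq hck⟩
    rcases h with ⟨n, hn⟩ | ⟨n, hn8, hn⟩ | hqd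
    · exact (hnq n hn).elim
    · obtain ⟨A, z, hC⟩ := hDih G n hG hn8 hn
      have hcardG : Nat.card G = 2 * n := by
        obtain ⟨e⟩ := hn
        rw [Nat.card_congr e.toEquiv, DihedralGroup.nat_card]
      obtain ⟨k, hk⟩ := IsPGroup.iff_card.mp hG
      have hnd : n ∣ 2 ^ k := by rw [← hk, hcardG]; exact dvd_mul_left n 2
      obtain ⟨j, -, rfl⟩ := (Nat.dvd_prime_pow Nat.prime_two).mp hnd
      have hj : 2 ≤ j := by
        by_contra hj
        have : j ≤ 1 := by omega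
        have := Nat.pow_le_pow_right (show 0 < 2 by norm_num) this
        omega
      obtain ⟨hV, hqj⟩ := key A z j hj hC
      exact ⟨hV, j, hqj, Or.inl hn⟩
    · obtain ⟨n, hn3, hcard, x, y, hx, hy, hxy⟩ := hqd
      obtain ⟨A, z, hC⟩ := hQD G n hn3 hcard x y hx hy hxy
      obtain ⟨hV, hqj⟩ := key A z (n - 1) (by omega) hC
      refine ⟨hV, n - 1, hqj, Or.inr ⟨⟨n, hn3, hcard, x, y, hx, hy, hxy⟩, ?_⟩⟩
      rw [hcard]; congr 1; omega

end Cfsg.Agent.H20.Ht
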