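import Mathlib
import Cfsg.Agent.H20.HtDefs
import Cfsg.Agent.H76.Imprim

/-!
# S3371-ODD: for odd `p`, a noncyclic normal abelian subgroup is impossible
-/

set_option autoImplicit false

namespace Cfsg.Agent.H20.Ht

universe u v

theorem odd : StmtOdd.{u, v} := by
  intro q _ V _ _ _ _ G _ _ ρ p _ hG hp2 hpq hρ hirr hES A hAn hAc hAnc
  classical
  have hp : p.Prime := Fact.out
  have hq : q.Prime := Fact.out
  let ρ' : G →* Module.End (ZMod q) V :=
    { toFun := fun g => (ρ g : V →ₗ[ZMod q] V)
      map_one' := by rw [map_one]; rfl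
      map_mul' := fun a b => by rw [map_mul]; rfl }
  have hinj : Function.Injective ρ' := by
    intro a b hab
    apply hρ
    ext w
    exact congrArg (fun f : Module.End (ZMod q) V => f w) hab
  have hirr' : Cfsg.Agent.H76.LinDer.Irr ρ' := fun W hW => hirr W hW
  have hpF : (p : ZMod q) ≠ 0 := by
    intro h0
    have hdvd : q ∣ p := (ZMod.natCast_eq_zero_iff p q).mp h0
    exact hpq ((Nat.prime_dvd_prime_iff_eq hq hp).mp hdvd).symm
  obtain ⟨H, W, hidx, hsup, hind, hHinv, hfix, hperm⟩ :=
    Cfsg.Agent.H76.Imprim.imprim_main p hG hpF ρ' hinj hirr' A hAn hAc hAnc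
  have hdisj : ∀ i j, i ≠ j → ∀ x ∈ W i, x ∈ W j → x = 0 := by
    intro i j hij x hxi hxj
    exact Submodule.disjoint_def.mp (hind.pairwiseDisjoint hij) x hxi hxj
  have key : ∀ i j, i ≠ j → ∀ vi ∈ W i, vi ≠ 0 → ∀ vj ∈ W j, vj ≠ 0 →
      stab ρ vi = stab ρ vj := by
    intro i j hij vi hvi hvi0 vj hvj hvj0
    have hsum0 : vi + vj ≠ 0 := by
      intro h
      apply hvi0
      apply hdisj i j hij vi hvi
      have : vi = -vj := eq_neg_of_add_eq_zero_left h
      rw [this]; exact (W j).neg_mem hvj
    have hle : ∀ g, g ∈ stab ρ (vi + vj) → ρ g vi = vi ∧ ρ g vj = vj := by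
      intro g hg
      rw [mem_stab, map_add] at hg
      by_cases hgH : g ∈ H
      · have h1 : ρ g vi ∈ W i := hHinv g hgH i vi hvi
        have h2 : ρ g vj ∈ W j := hHinv g hgH j vj hvj
        have h3 : ρ g vi - vi = vj - ρ g vj := by
          rw [sub_eq_sub_iff_add_eq_add, hg, add_comm]
        have h4 : ρ g vi - vi = 0 :=
          hdisj i j hij _ ((W i).sub_mem h1 hvi) (h3 ▸ (W j).sub_mem hvj h2)
        have h5 : vj - ρ g vj = 0 := by rw [← h3, h4]
        exact ⟨sub_eq_zero.mp h4, (sub_eq_zero.mp h5).symm⟩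
      · exfalso
        obtain ⟨σ, hσ, hσW⟩ := hperm g hgH
        have hx : ρ g vi ∈ W (σ i) := (hσW i _).mpr ⟨vi, hvi, rfl⟩
        have hy : ρ g vj ∈ W (σ j) := (hσW j _).mpr ⟨vj, hvj, rfl⟩
        have hx0 : ρ g vi ≠ 0 := fun h => hvi0 ((ρ g).map_eq_zero_iff.mp h)
        have hy0 : ρ g vj ≠ 0 := fun h => hvj0 ((ρ g).map_eq_zero_iff.mp h)
        have hab : σ i ≠ σ j := fun h => hij (σ.injective h)
        have ha : σ i = i ∨ σ i = j := by
          by_contra hcon
          push Not at hcon
          apply hx0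
          refine Submodule.disjoint_def.mp (hind (σ i)) _ hx ?_
          have : ρ g vi = vi + vj - ρ g vj := by rw [← hg]; abel
          rw [this]
          refine Submodule.sub_mem _ (Submodule.add_mem _ ?_ ?_) ?_
          · exact Submodule.mem_iSup_of_mem i (Submodule.mem_iSup_of_mem (Ne.symm hcon.1) hvi)
          · exact Submodule.mem_iSup_of_mem j (Submodule.mem_iSup_of_mem (Ne.symm hcon.2) hvj)
          · exact Submodule.mem_iSup_of_mem (σ j) (Submodule.mem_iSup_of_mem (Ne.symm hab) hy)
        have hb : σ j = i ∨ σ j = j := by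
          by_contra hcon
          push Not at hcon
          apply hy0
          refine Submodule.disjoint_def.mp (hind (σ j)) _ hy ?_
          have : ρ g vj = vi + vj - ρ g vi := by rw [← hg]; abel
          rw [this]
          refine Submodule.sub_mem _ (Submodule.add_mem _ ?_ ?_) ?_
          · exact Submodule.mem_iSup_of_mem i (Submodule.mem_iSup_of_mem (Ne.symm hcon.1) hvi)
          · exact Submodule.mem_iSup_of_mem j (Submodule.mem_iSup_of_mem (Ne.symm hcon.2) hvj)
          · exact Submodule.mem_iSup_of_mem (σ i) (Submodule.mem_iSup_of_mem hab hx)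
        have hcyc : σ.IsCycle :=
          Equiv.Perm.isCycle_of_prime_order'' (by rw [Fintype.card_fin]; exact hp)
            (by rw [Fintype.card_fin]; exact hσ)
        have hsupp : σ.support = Finset.univ := by
          apply Finset.eq_univ_of_card
          rw [← hcyc.orderOf, hσ, Fintype.card_fin]
        have hnofix : ∀ k, σ k ≠ k := fun k =>
          Equiv.Perm.mem_support.mp (hsupp ▸ Finset.mem_univ k)
        have h1 : σ i = j := by
          rcases ha with h | h
          · exact absurd h (hnofix i)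
          · exact h
        have h2 : σ j = i := by
          rcases hb with h | h
          · exact h
          · exact absurd h (hnofix j)
        have h3 : (σ ^ 2) i = i := by rw [pow_two, Equiv.Perm.mul_apply, h1, h2]
        obtain ⟨m, hm⟩ := hp.odd_of_ne_two hp2
        have hσp : σ ^ p = 1 := by
          have := pow_orderOf_eq_one σ
          rwa [hσ] at this
        have h4 : σ = (σ ^ 2) ^ (m + 1) := by
          rw [← pow_mul, show 2 * (m + 1) = p + 1 by omega, pow_succ, hσp, one_mul]
        have h5 : ∀ k : ℕ, ((σ ^ 2) ^ k) i = i := by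
          intro k
          induction k with
          | zero => simp
          | succ k ih => rw [pow_succ, Equiv.Perm.mul_apply, h3, ih]
        have h6 : σ i = i := by
          conv_lhs => rw [h4]
          exact h5 _
        exact hnofix i h6
    have hle1 : stab ρ (vi + vj) ≤ stab ρ vi := fun g hg => (hle g hg).1
    have hle2 : stab ρ (vi + vj) ≤ stab ρ vj := fun g hg => (hle g hg).2
    have e1 : stab ρ (vi + vj) = stab ρ vi :=
      Subgroup.eq_of_le_of_card_ge hle1 (hES _ _ hvi0 hsum0).le
    have e2 : stab ρ (vi + vj) = stab ρ vj :=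
      Subgroup.eq_of_le_of_card_ge hle2 (hES _ _ hvj0 hsum0).le
    rw [← e1, e2]
  have hex : ∃ i0, W i0 ≠ ⊥ := by
    by_contra hcon
    push Not at hcon
    have : iSup W = ⊥ := by rw [iSup_eq_bot]; exact hcon
    rw [this] at hsup
    exact bot_ne_top hsup
  obtain ⟨i0, hi0⟩ := hex
  obtain ⟨v0, hv0, hv00⟩ := (Submodule.ne_bot_iff _).mp hi0
  obtain ⟨h, hhH, hh1, hhfix⟩ := hfix i0
  apply hh1
  apply hρ
  rw [map_one]
  have hall : ∀ k, W k ≤ LinearMap.eqLocus (ρ h : V →ₗ[ZMod q] V) LinearMap.id := by
    intro k w hw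
    rw [LinearMap.mem_eqLocus]
    show ρ h w = w
    by_cases hk : k = i0
    · subst hk; exact hhfix w hw
    · by_cases hw0 : w = 0
      · rw [hw0, map_zero]
      · have hst : stab ρ v0 = stab ρ w := key i0 k (Ne.symm hk) v0 hv0 hv00 w hw hw0
        have hmem : h ∈ stab ρ v0 := hhfix v0 hv0
        rw [hst] at hmem
        exact hmem
  have htop : LinearMap.eqLocus (ρ h : V →ₗ[ZMod q] V) LinearMap.id = ⊤ := by
    rw [eq_top_iff, ← hsup]
    exact iSup_le hall
  ext w
  have hw : w ∈ LinearMap.eqLocus (ρ h : V →ₗ[ZMod q] V) LinearMap.id := htop ▸ Submodule.mem_top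
  exact LinearMap.mem_eqLocus.mp hw

example : StmtOdd.{u, v} := odd

end Cfsg.Agent.H20.Ht

#print axioms Cfsg.Agent.H20.Ht.odd
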