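import Cfsg.Agent.H64.JzDefs
import Cfsg.Agent.S2948
import Cfsg.Agent.S2949
import Cfsg.Agent.S2950
import Cfsg.Agent.H46.JzNSE
import Cfsg.Agent.H91.JzMaxS

/-!
# JY-SETUP2 (team project JY, S2953): a configuration for the base `L`

`Base S M S K L` and `N_G(J(S)) ≤ L` give `T' K' L'` with `Base S L T' K' L'` (helper27's proof of
JZ-SETUP with `N_G(J(S)) ≤ L` as a hypothesis; NSE by helper46, MAXS by helper91).
-/

set_option autoImplicit false
open Cfsg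

universe u

namespace Cfsg.Agent.H20.Jy

open Cfsg.Agent.H64.Jz

/-- JY-SETUP2, with NSE and MAXS as hypotheses. -/
theorem setup2_of (hNSE : StNSE.{u}) (hMax : StMaxS.{u}) {G : Type u} [Group G] [Finite G]
    (S : Sylow 2 G) (M K L : Subgroup G) (hB : Base S M (S : Subgroup G) K L)
    (hLJ : Subgroup.normalizer (thompsonSubgroupOf 2 (S : Subgroup G) : Set G) ≤ L) :
    ∃ T' K' L' : Subgroup G, Base S L T' K' L' := by
  have hB' := hB
  obtain ⟨hZN, hO, hM, hMJ, hS, -, hK, hLmax, hKJ⟩ := hB'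
  have hZN' := hZN
  obtain ⟨hL, hN, hZ⟩ := hZN'
  have hK' := hK
  obtain ⟨⟨hKc, -⟩, hKM, -⟩ := hK'
  have hJS : thompsonSubgroupOf 2 (S : Subgroup G) ≤ (S : Subgroup G) := by
    unfold Cfsg.thompsonSubgroupOf
    exact Subgroup.map_subtype_le _
  -- `S` is a Sylow 2-subgroup of `L`, and `L ∈ ℒ(S)`
  obtain ⟨L₀, -, -, huniq, -, hSyl₀⟩ :=
    Cfsg.Agent.S2950.result hL hN hZ hO S M hM hMJ (S : Subgroup G) hS K hK
  have hLL₀ : L = L₀ := huniq L hLmax hKJ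
  have hSyl : IsSylowTwoIn (S : Subgroup G) L := by
    rw [hLL₀]
    exact hSyl₀
  have hSL : (S : Subgroup G) ≤ L := hSyl.1
  have hLM : ¬ L ≤ M := fun h => hKM ((le_sup_left.trans hKJ).trans h)
  have hLov : L ∈ jOvergroups (S : Subgroup G) :=
    (Cfsg.Agent.S2948.result hL hN hZ hO S M hM hMJ (S : Subgroup G) hS L hLmax.1 hLM
      (S : Subgroup G) hSyl hJS).2.2.1
  -- the maximal straddling subgroup for the base `L`
  obtain ⟨T₁, hT₁⟩ := hNSE hZN hO S L hLmax.1 hLJ hLov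
  obtain ⟨T', hT', hT'S⟩ := hMax S L hSL ⟨T₁, hT₁⟩
  obtain ⟨K', hK'⟩ := Cfsg.Agent.S2949.result hL hN hZ hO S L hLmax.1 hLJ T' hT'
  obtain ⟨L', hL', hK'J, -⟩ :=
    Cfsg.Agent.S2950.result hL hN hZ hO S L hLmax.1 hLJ T' hT' K' hK'
  refine ⟨T', K', L', ?_⟩
  unfold Base
  exact ⟨hZN, hO, hLmax.1, hLJ, hT', hT'S, hK', hL', hK'J⟩

/-- JY-SETUP2. -/
theorem setup2 {G : Type u} [Group G] [Finite G]
    (S : Sylow 2 G) (M K L : Subgroup G) (hB : Base S M (S : Subgroup G) K L)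
    (hLJ : Subgroup.normalizer (thompsonSubgroupOf 2 (S : Subgroup G) : Set G) ≤ L) :
    ∃ T' K' L' : Subgroup G, Base S L T' K' L' :=
  setup2_of Cfsg.Agent.H46.Jz.nse Cfsg.Agent.H91.Jz.maxS S M K L hB hLJ

end Cfsg.Agent.H20.Jy

#print axioms Cfsg.Agent.H20.Jy.setup2
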