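import Mathlib
import Cfsg.Agent.H64.JyDefs
import Cfsg.Agent.H20.JyPair
import Cfsg.Agent.H20.JySetup2
import Cfsg.Agent.Helper55.UqBase
import Cfsg.Agent.S2949
import Cfsg.Agent.S2950

/-!
# JY (S2953): PAIR and SETUP2 in the exact shapes of `H64.JyDefs`, plus NS and START

* `stPair : StPair`, `stSetup2 : StSetup2` (re-exports of `pair`, `setup2`);
* `ns : StNS`: `N_G(S) ≤ N_G(J(S)) ≤ M`;
* `start : StStart`: a Sylow 2-subgroup `S' = S^m ≥ T` (`m ∈ M`) with `N_G(J(S')) ≤ M`, then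
  S2949 and S2950.
-/

set_option autoImplicit false
open Cfsg

universe u

namespace Cfsg.Agent.H20.Jy

open Cfsg.Agent.Helper55 Cfsg.Agent.Helper55.ThJ Cfsg.Agent.Helper55.J48
open Cfsg.Agent.H64.Jz Cfsg.Agent.H64.Jy

/-- JY-PAIR. -/
theorem stPair : StPair.{u} := by
  intro G _ _ S S₂ M M₂ T K₁ L₁ K₂ L₂ h₁ h₂ hne
  exact pair S S₂ M M₂ T K₁ L₁ K₂ L₂ h₁ h₂ hne

/-- JY-SETUP2. -/
theorem stSetup2 : StSetup2.{u} := by
  intro G _ _ S M K L hB hLJ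
  exact setup2 S M K L hB hLJ

/-- JY-NS. -/
theorem ns : StNS.{u} := by
  intro G _ _ S M T K L hB
  obtain ⟨-, -, -, hMJ, -⟩ := hB
  exact (normalizer_le (S : Subgroup G)).trans hMJ

/-- JY-START. -/
theorem start : StStart.{u} := by
  intro G _ _ hZN hO S M hM hMJ T hT
  have hZN' := hZN
  obtain ⟨hL, hN, hZ⟩ := hZN'
  have hT2 : IsPGroup 2 ↥T := hT.1.1
  have hTM : T ≤ M := hT.1.2.2.1
  have hSM : (S : Subgroup G) ≤ M :=
    (Subgroup.le_normalizer.trans (normalizer_le (S : Subgroup G))).trans hMJ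
  obtain ⟨m, hmM, hTS'⟩ := exists_sylow_conj S M hSM T hT2 hTM
  have hMJ' : Subgroup.normalizer
      (thompsonSubgroupOf 2 ((m • S : Sylow 2 G) : Subgroup G) : Set G) ≤ M := by
    have h1 := Cfsg.Agent.H14.thompsonSubgroupOf_conj 2 m (S : Subgroup G)
    have h2 : ((m • S : Sylow 2 G) : Subgroup G) =
        (S : Subgroup G).map (MulAut.conj m).toMonoidHom := by
      rw [Sylow.coe_subgroup_smul]
      rfl
    rw [h2, ← h1]
    exact normalizer_conj_le _ m hmM hMJ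
  obtain ⟨K, hK⟩ := Cfsg.Agent.S2949.result hL hN hZ hO (m • S) M hM hMJ' T hT
  obtain ⟨L, hLmax, hKJ, -⟩ :=
    Cfsg.Agent.S2950.result hL hN hZ hO (m • S) M hM hMJ' T hT K hK
  refine ⟨m • S, K, L, ?_⟩
  unfold Base
  exact ⟨hZN, hO, hM, hMJ', hT, hTS', hK, hLmax, hKJ⟩

end Cfsg.Agent.H20.Jy

example : Cfsg.Agent.H64.Jy.StPair.{u} := Cfsg.Agent.H20.Jy.stPair.{u}
example : Cfsg.Agent.H64.Jy.StSetup2.{u} := Cfsg.Agent.H20.Jy.stSetup2.{u}
example : Cfsg.Agent.H64.Jy.StNS.{u} := Cfsg.Agent.H20.Jy.ns.{u}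
example : Cfsg.Agent.H64.Jy.StStart.{u} := Cfsg.Agent.H20.Jy.start.{u}

#print axioms Cfsg.Agent.H20.Jy.stPair
#print axioms Cfsg.Agent.H20.Jy.stSetup2
#print axioms Cfsg.Agent.H20.Jy.ns
#print axioms Cfsg.Agent.H20.Jy.start
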