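import Mathlib
import Cfsg.Agent.H64.JzDefs
import Cfsg.Agent.H20.JtNormal
import Cfsg.Agent.H20.X46.R2946

/-!
# JZ-NORM (team project JZ, S2951/S2952): each clause of S2951 gives `T ≤ N_G(K)`

Each clause gives `Z₀ = Ω₁Z(J(T)) ≤ Z(T)`; `Z₀ ∩ W_K ≠ 1` (S2946); S2943 in a maximal 2-local
`L₀ ∈ ℒ(T)` over `⟨K, T⟩` (helper55's `exists_max`).
-/

set_option autoImplicit false
open Cfsg

universe u

namespace Cfsg.Agent.H20.Jz

open Cfsg.Agent.Helper55 Cfsg.Agent.Helper55.ThJ Cfsg.Agent.Helper55.J48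

/-- JZ-NORM. -/
theorem norm : Cfsg.Agent.H64.Jz.StNorm.{u} := by
  intro G _ _ S M T K L hB hC
  obtain ⟨⟨hL, hN, hZ⟩, hO, hM, hMJ, hT, hTS, hK, hLmax, hKL⟩ := hB
  have hT2 : IsPGroup 2 ↥T := hT.1.1
  have hT1 : T ≠ ⊥ := hT.1.2.1
  -- a maximal 2-local over `⟨K, T⟩` in the family of `T`
  obtain ⟨L₀, hL₀max, hXL, -, hov, -⟩ :=
    Cfsg.Agent.Helper55.Uq.exists_max hL hN hZ S M hMJ T hT K hK
  -- `Z₀ ⊓ W_K ≠ ⊥` (S2946)
  have h46 := Cfsg.Agent.H20.X46.s2946 hL hN hZ T hT2 hT1 K hK.1.1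
    (omegaCenterOf (thompsonSubgroupOf 2 T)) rfl
  have hne : omegaCenterOf (thompsonSubgroupOf 2 T) ⊓ wOf K ≠ ⊥ := by
    intro hb
    have h2 := h46.1
    rw [hb] at h2
    simp at h2
  -- `Z₀ ≤ T ⊓ C(T)`
  have hZ0T : omegaCenterOf (thompsonSubgroupOf 2 T) ≤ T :=
    ((Cfsg.Agent.H20.Jt.omegaCenterOf_le _).trans inf_le_left).trans (J_le T)
  have hZ0C : omegaCenterOf (thompsonSubgroupOf 2 T) ≤ Subgroup.centralizer (T : Set G) := by
    have hS1 : omegaCenterOf (S : Subgroup G) ≤ Subgroup.centralizer (T : Set G) :=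
      ((Cfsg.Agent.H20.Jt.omegaCenterOf_le _).trans inf_le_right).trans
        (Subgroup.centralizer_le (SetLike.coe_subset_coe.mpr hTS))
    rcases hC with ⟨h, -⟩ | ⟨h, -, -⟩ | ⟨h, -, -⟩
    · rw [← h]
      exact hS1
    · rw [← h]
      exact hS1
    · rw [← h]
      exact (Cfsg.Agent.H20.Jt.omegaCenterOf_le T).trans inf_le_right
  have hZW : T ⊓ Subgroup.centralizer (T : Set G) ⊓ wOf K ≠ ⊥ := by
    intro hb
    apply hne
    rw [eq_bot_iff, ← hb]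
    exact inf_le_inf_right _ (le_inf hZ0T hZ0C)
  exact Cfsg.Agent.S2943.result hL hN hZ T hT2 hT1 L₀ hov K hK.1.1 (le_sup_left.trans hXL) hZW

end Cfsg.Agent.H20.Jz

example : Cfsg.Agent.H64.Jz.StNorm.{u} := Cfsg.Agent.H20.Jz.norm.{u}

#print axioms Cfsg.Agent.H20.Jz.norm
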