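import Mathlib
import Cfsg.Agent.H49.Levi
import Cfsg.Agent.H49.SimpleForms
import Cfsg.Agent.H49.SimMinus

/-!
helper20: S2413 O-MEM for helper45 — the Levi element `(z; x, y) ↦ (z; B x, B⁻ᵀ y)` of the odd
orthogonal group is not in `Ω` when `det B` is a non-square.
-/

set_option autoImplicit false
set_option linter.style.haveILetI false

namespace Cfsg.Agent.H20.O

open Cfsg.Agent.H49 Matrix

theorem o_levi_not_mem {F : Type*} [Field F] [Fintype F] (h2 : (2 : F) ≠ 0) (k : ℕ)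
    (B B' : Matrix (Fin k) (Fin k) F) (hB : B * B' = 1) (hB' : B' * B = 1) (hns : ¬ IsSquare B.det)
    (s : ↥(Cfsg.isometryGroup F (Cfsg.quadFormOdd k F)))
    (hs : ∀ v : Unit ⊕ (Fin k ⊕ Fin k) → F,
      ((s : Matrix.GeneralLinearGroup (Unit ⊕ (Fin k ⊕ Fin k)) F) : Matrix (Unit ⊕ (Fin k ⊕ Fin k)) (Unit ⊕ (Fin k ⊕ Fin k)) F) *ᵥ v
        = Sum.elim (v ∘ Sum.inl) (Sum.elim (B *ᵥ (v ∘ Sum.inr ∘ Sum.inl)) (B'ᵀ *ᵥ (v ∘ Sum.inr ∘ Sum.inr)))) :
    s ∉ commutator ↥(Cfsg.isometryGroup F (Cfsg.quadFormOdd k F)) := by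
  classical
  let A : Matrix.GeneralLinearGroup (Fin k) F := ⟨B, B', hB, hB'⟩
  have hAinv : ((A⁻¹ : Matrix.GeneralLinearGroup (Fin k) F) : Matrix (Fin k) (Fin k) F) = B' := rfl
  have hAc : (A : Matrix (Fin k) (Fin k) F) = B := rfl
  let s' : ↥(Cfsg.isometryGroup F (⇑(QOdd k F))) := blockIsoQ (sqQ F) (QP k F) (1, leviO k F A)
  have hss : (s : ↥(Cfsg.isometryGroup F (⇑(QOdd k F)))) = s' := by
    apply isometry_ext
    intro x
    rw [hs x]
    funext i
    rcases i with u | j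
    · have h1 := congrFun (blockIsoQ_mulVec_inl (sqQ F) (QP k F) (1, leviO k F A) x) u
      simp only [Function.comp_apply] at h1
      rw [h1, one_coe_mulVec]
      rfl
    · have h1 := congrFun (blockIsoQ_mulVec_inr (sqQ F) (QP k F) (1, leviO k F A) x) j
      simp only [Function.comp_apply] at h1
      rw [h1]
      rcases j with j | j
      · rw [leviO_mulVec_inl, hAc]; rfl
      · rw [leviO_mulVec_inr, hAinv]; rfl
  intro hmem
  have hmem' : s' ∈ commutator ↥(Cfsg.isometryGroup F (⇑(QOdd k F))) := by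
    rw [← hss]; exact hmem
  have h1 := (mem_commutator_iff_spinSign_det (QOdd k F) h2 (QOdd_nondeg k h2) s').1 hmem'
  have h3 : spinSign (QP k F) (leviO k F A) = 1 := by
    rw [← spinSign_blockIsoQ_right (sqQ F) (QP k F) h2 (QP_nondeg k F)]
    exact h1.1
  have h4 : leviO k F A ∈ commutator ↥(Cfsg.isometryGroup F (⇑(QP k F))) :=
    (mem_commutator_iff_spinSign_det (QP k F) h2 (QP_nondeg k F) _).2 ⟨h3, det_leviO k F A⟩
  exact hns ((leviO_mem_commutator_iff_odd k F h2 A).1 h4)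

end Cfsg.Agent.H20.O
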