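import Mathlib
import Cfsg.Agent.H74.W2PDefs
import Cfsg.Agent.H4.Irr

/-!
helper20: S0720-BR1 for helper74 — the irreducible character afforded by an irreducible
invariant subspace of the permutation module.
-/

set_option autoImplicit false

namespace Cfsg.Agent.H20.W2P

open Cfsg.Agent.H74.W2P Equiv MulAction

variable {Ω : Type*} [Fintype Ω] [DecidableEq Ω]

/-- the representation of `G` on an invariant subspace `W`: `(ρ g f) ω = f (g⁻¹ ω)`. -/
noncomputable def wRep (G : Subgroup (Perm Ω)) (W : Submodule ℂ (Ω → ℂ)) (hinv : Inv G W) :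
    Representation ℂ G W where
  toFun g :=
    { toFun := fun f => ⟨fun ω => (f : Ω → ℂ) ((g⁻¹ : G) • ω),
        hinv ((g⁻¹ : G) : Perm Ω) (g⁻¹ : G).2 (f : Ω → ℂ) f.2⟩
      map_add' := fun f f' => by
        apply Subtype.ext
        funext ω
        rfl
      map_smul' := fun c f => by
        apply Subtype.ext
        funext ω
        rfl }
  map_one' := by
    apply LinearMap.ext
    intro f
    apply Subtype.ext
    funext ω
    show (f : Ω → ℂ) (((1 : G)⁻¹ : G) • ω) = (f : Ω → ℂ) ω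
    rw [inv_one, one_smul]
  map_mul' g h := by
    apply LinearMap.ext
    intro f
    apply Subtype.ext
    funext ω
    show (f : Ω → ℂ) (((g * h)⁻¹ : G) • ω) = (f : Ω → ℂ) ((h⁻¹ : G) • ((g⁻¹ : G) • ω))
    rw [mul_inv_rev, mul_smul]

theorem wRep_apply (G : Subgroup (Perm Ω)) (W : Submodule ℂ (Ω → ℂ)) (hinv : Inv G W) (g : G)
    (f : W) : ((wRep G W hinv g f : W) : Ω → ℂ) = fun ω => (f : Ω → ℂ) ((g⁻¹ : G) • ω) := rfl

theorem wRep_irreducible (G : Subgroup (Perm Ω)) (W : Submodule ℂ (Ω → ℂ)) (hinv : Inv G W)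
    (hirr : Irr G W) : (wRep G W hinv).IsIrreducible := by
  rw [Cfsg.Agent.H4.isIrreducible_iff]
  refine ⟨(Submodule.nontrivial_iff_ne_bot).2 hirr.1, ?_⟩
  intro U hU
  have hle : U.map W.subtype ≤ W := Submodule.map_subtype_le W U
  have hInv : Inv G (U.map W.subtype) := by
    intro g hg f hf
    obtain ⟨u, hu, rfl⟩ := Submodule.mem_map.1 hf
    refine Submodule.mem_map.2 ⟨wRep G W hinv (⟨g, hg⟩⁻¹ : G) u, hU _ u hu, ?_⟩
    funext ω
    show (u : Ω → ℂ) ((((⟨g, hg⟩ : G)⁻¹)⁻¹ : G) • ω) = (u : Ω → ℂ) (g ω)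
    rw [inv_inv]
    rfl
  rcases hirr.2 _ hle hInv with h | h
  · left
    rw [eq_bot_iff]
    intro u hu
    have h1 : (u : Ω → ℂ) ∈ U.map W.subtype := Submodule.mem_map.2 ⟨u, hu, rfl⟩
    rw [h, Submodule.mem_bot] at h1
    rw [Submodule.mem_bot]
    exact Subtype.ext h1
  · right
    rw [eq_top_iff]
    intro w _
    have h1 : (w : Ω → ℂ) ∈ U.map W.subtype := by rw [h]; exact w.2
    obtain ⟨u, hu, hw⟩ := Submodule.mem_map.1 h1
    have h2 : u = w := Subtype.ext hw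
    rw [← h2]
    exact hu

/-- S0720-BR1. -/
theorem exists_irrChar (G : Subgroup (Perm Ω)) (W : Submodule ℂ (Ω → ℂ)) (hinv : Inv G W)
    (hirr : Irr G W) :
    ∃ χ : Cfsg.IrrCharacter G, ∀ (g : G) (T : W →ₗ[ℂ] W),
      (∀ f : W, ((T f : W) : Ω → ℂ) = fun ω => (f : Ω → ℂ) ((g⁻¹ : G) • ω)) →
        (χ : G → ℂ) g = LinearMap.trace ℂ W T := by
  refine ⟨⟨(wRep G W hinv).character,
    Cfsg.Agent.H4.isIrrCharacter_of_irreducible _ (wRep_irreducible G W hinv hirr)⟩, ?_⟩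
  intro g T hT
  have h1 : T = wRep G W hinv g := by
    apply LinearMap.ext
    intro f
    apply Subtype.ext
    rw [hT f, wRep_apply]
  rw [h1]
  rfl

end Cfsg.Agent.H20.W2P
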