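import Mathlib
import Cfsg.Prelude.Def_Blocks
import Cfsg.Agent.H74.W2PDefs
import Cfsg.Agent.H20.W2PBR1
import Cfsg.Agent.H82.Irr

/-!
# S4707-W6a (for helper74): `χ(g) = χ(1)` forces `g` to act trivially on `W`
-/

set_option autoImplicit false
set_option linter.unusedSectionVars false

namespace Cfsg.Agent.H20.PD

open Equiv MulAction Cfsg.Agent.H74.W2P

variable {Ω : Type*} [Fintype Ω] [DecidableEq Ω]

/-- **S4707-W6a.** -/
theorem fix_of_chi_eq {G : Subgroup (Perm Ω)} {W : Submodule ℂ (Ω → ℂ)} (hinv : Inv G W)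
    (χ : Cfsg.IrrCharacter G)
    (hχ : ∀ (g : G) (T : W →ₗ[ℂ] W),
      (∀ f : W, ((T f : W) : Ω → ℂ) = fun ω => (f : Ω → ℂ) ((g⁻¹ : G) • ω)) →
        (χ : G → ℂ) g = LinearMap.trace ℂ W T) (g : G)
    (hg : (χ : G → ℂ) g = (χ : G → ℂ) 1) :
    ∀ f ∈ W, (fun ω => f ((g⁻¹ : G) • ω)) = f := by
  have hχk : ∀ k : G, (χ : G → ℂ) k = (Cfsg.Agent.H20.W2P.wRep G W hinv).character k :=
    fun k => hχ k (Cfsg.Agent.H20.W2P.wRep G W hinv k) (fun f => rfl)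
  rw [hχk g, hχk 1] at hg
  have h1 := (Cfsg.Agent.H82.char_eq_one_iff (Cfsg.Agent.H20.W2P.wRep G W hinv) g).mp hg
  intro f hf
  have h2 := congrArg (fun T : Module.End ℂ W => ((T ⟨f, hf⟩ : W) : Ω → ℂ)) h1
  exact h2

end Cfsg.Agent.H20.PD
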