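import Mathlib
import Cfsg.Agent.H74.W2PDefs

/-!
# S4707-W6b (for helper74): an element of a primitive group acting trivially on a nonzero
invariant sum-zero subspace of the permutation module is the identity
-/

set_option autoImplicit false

namespace Cfsg.Agent.H20.PD

open Equiv MulAction Cfsg.Agent.H74.W2P

/-- The elements of `G` fixing every function in `W`. -/
def fixSub {Ω : Type*} (G : Subgroup (Perm Ω)) (W : Submodule ℂ (Ω → ℂ)) : Subgroup G where
  carrier := {k | ∀ f ∈ W, (fun ω => f (k • ω)) = f}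
  one_mem' := by
    intro f _
    funext ω
    rw [one_smul]
  mul_mem' := by
    intro a b ha hb f hf
    funext ω
    have h1 : f (a • (b • ω)) = f (b • ω) := congrFun (ha f hf) (b • ω)
    have h2 : f (b • ω) = f ω := congrFun (hb f hf) ω
    rw [mul_smul, h1, h2]
  inv_mem' := by
    intro a ha f hf
    funext ω
    have h1 : f (a • (a⁻¹ • ω)) = f (a⁻¹ • ω) := congrFun (ha f hf) (a⁻¹ • ω)
    rw [smul_inv_smul] at h1
    exact h1.symm

theorem mem_fixSub {Ω : Type*} {G : Subgroup (Perm Ω)} {W : Submodule ℂ (Ω → ℂ)} (k : G) :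
    k ∈ fixSub G W ↔ ∀ f ∈ W, (fun ω => f (k • ω)) = f := Iff.rfl

theorem fixSub_normal {Ω : Type*} {G : Subgroup (Perm Ω)} {W : Submodule ℂ (Ω → ℂ)} (hinv : Inv G W) :
    (fixSub G W).Normal where
  conj_mem := by
    intro k hk h f hf
    funext ω
    have hf' : (fun ω => f (h • ω)) ∈ W := hinv h h.2 f hf
    have h1 : f (h • (k • (h⁻¹ • ω))) = f (h • (h⁻¹ • ω)) := congrFun (hk _ hf') (h⁻¹ • ω)
    rw [smul_inv_smul] at h1
    rw [mul_smul, mul_smul]
    exact h1

variable {Ω : Type*} [Fintype Ω] [DecidableEq Ω]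

/-- **S4707-W6b.** -/
theorem eq_one_of_fix {G : Subgroup (Perm Ω)} (hprim : IsPreprimitive G Ω)
    {W : Submodule ℂ (Ω → ℂ)} (hinv : Inv G W) (hne : W ≠ ⊥)
    (hsum : ∀ f ∈ W, ∑ ω, f ω = 0)
    (g : G) (hfix : ∀ f ∈ W, (fun ω => f (g • ω)) = f) : g = 1 := by
  by_contra hg1
  have hgK : g ∈ fixSub G W := hfix
  have hnorm : (fixSub G W).Normal := fixSub_normal hinv
  -- `g` moves some point
  have hmove : ∃ ω : Ω, g • ω ≠ ω := by
    by_contra hcon
    push Not at hcon
    apply hg1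
    apply Subtype.ext
    ext ω
    exact hcon ω
  obtain ⟨ω₀, hω₀⟩ := hmove
  have hNX : fixedPoints (fixSub G W) Ω ≠ Set.univ := by
    intro h
    have h1 : ω₀ ∈ fixedPoints (fixSub G W) Ω := by rw [h]; trivial
    exact hω₀ (h1 ⟨g, hgK⟩)
  have htr : IsPretransitive (fixSub G W) Ω :=
    IsQuasiPreprimitive.isPretransitive_of_normal hNX
  -- every `f ∈ W` is constant, hence zero
  apply hne
  rw [eq_bot_iff]
  intro f hf
  rw [Submodule.mem_bot]
  have hconst : ∀ ω : Ω, f ω = f ω₀ := by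
    intro ω
    obtain ⟨k, hk⟩ := htr.exists_smul_eq ω₀ ω
    have h1 : f (k • ω₀) = f ω₀ := congrFun (k.2 f hf) ω₀
    rw [← h1, hk]
  have h0 := hsum f hf
  rw [Finset.sum_congr rfl (fun ω _ => hconst ω), Finset.sum_const, nsmul_eq_mul] at h0
  have hcard : ((Finset.univ : Finset Ω).card : ℂ) ≠ 0 := by
    have : (Finset.univ : Finset Ω).Nonempty := ⟨ω₀, Finset.mem_univ _⟩
    exact_mod_cast this.card_pos.ne'
  have hf0 : f ω₀ = 0 := (mul_eq_zero.mp h0).resolve_left hcard
  funext ω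
  rw [hconst ω, hf0]
  rfl

end Cfsg.Agent.H20.PD
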