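import Mathlib
import Cfsg.Agent.H49.PtDefs

namespace Cfsg.Agent.H20.Pt

theorem arOddEx : Cfsg.Agent.H49.Pt.StArOddEx := by
  intro d m i hi _ hm1 hmd hex hneg
  obtain ⟨e, he1, he2, k, rfl⟩ := hex
  have hd := Nat.div_add_mod d i
  have hdlt := Nat.mod_lt d hi
  have hk1 : 1 ≤ k := by
    rcases Nat.eq_zero_or_pos k with h | h
    · subst h; omega
    · exact h
  have hkd : k ≤ d / i := by
    rw [Nat.le_div_iff_mul_le hi]
    rw [Nat.mul_comm]; exact he2
  refine ⟨d / i, le_trans hk1 hkd, Nat.mul_div_le d i, ?_⟩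
  intro j w hj hw hjw
  have hwlt : w ≤ d % i := by omega
  have hmi : m / i = j := by
    rw [← hjw]
    rw [Nat.mul_add_div hi]
    rw [Nat.div_eq_of_lt (by omega)]
    rfl
  have hmm : m % i = w := by
    rw [← hjw]
    rw [Nat.mul_add_mod]
    exact Nat.mod_eq_of_lt (by omega)
  rcases Nat.eq_zero_or_pos j with h0 | hpos
  · subst h0
    have hik : i * k ≤ i * (d / i) := Nat.mul_le_mul_left _ hkd
    omega
  · apply hneg
    refine ⟨?_, ?_⟩
    · have : i * 1 ≤ i * j := Nat.mul_le_mul_left _ hpos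
      omega
    · rw [Nat.mul_mod_mul_left]
      omega

end Cfsg.Agent.H20.Pt

example : Cfsg.Agent.H49.Pt.StArOddEx := Cfsg.Agent.H20.Pt.arOddEx
#print axioms Cfsg.Agent.H20.Pt.arOddEx
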