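import Mathlib
import Cfsg.Agent.H49.PtDefs

namespace Cfsg.Agent.H20.Pt

theorem arOddFix : Cfsg.Agent.H49.Pt.StArOddFix := by
  intro d m i A hi _ hmd him hmod hA
  rw [Nat.mul_mod_mul_left] at hmod
  have hmod' : m % i ≤ d % i := by omega
  have hAd : A ≤ d / i := by
    rw [Nat.le_div_iff_mul_le hi]
    rw [Nat.mul_comm]; exact hA
  have hd := Nat.div_add_mod d i
  have hm := Nat.div_add_mod m i
  rcases Nat.lt_or_ge A (m / i) with h | h
  · refine ⟨A, m - i * A, le_refl _, ?_, ?_⟩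
    · have : i * A ≤ i * (m / i) := Nat.mul_le_mul_left _ h.le
      omega
    · have : i * A ≤ i * (m / i) := Nat.mul_le_mul_left _ h.le
      omega
  · refine ⟨m / i, m % i, h, ?_, hm⟩
    have : i * A ≤ i * (d / i) := Nat.mul_le_mul_left _ hAd
    omega

end Cfsg.Agent.H20.Pt

example : Cfsg.Agent.H49.Pt.StArOddFix := Cfsg.Agent.H20.Pt.arOddFix
#print axioms Cfsg.Agent.H20.Pt.arOddFix
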