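import Mathlib
import Cfsg.Prelude.Def_Blocks
import Cfsg.Agent.H20.HeightZero
import Cfsg.Agent.H4.RealClasses

/-!
# helper20: real `2`-blocks of full defect

* `sum_mem_of_inv_pair` : a sum over an inverse-closed set without involutions lies in an additive
  subgroup as soon as the pairs `F g + F g⁻¹` do.
* `blockCoeff_inv_of_real` : the idempotent of a block closed under complex conjugation has
  inverse-invariant coefficients.
* `real_full_defect_eq_principal` : a `2`-block of full defect closed under complex conjugation is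
  the principal block.
-/

set_option autoImplicit false
set_option linter.style.haveILetI false
set_option linter.unusedSectionVars false

namespace Cfsg.Agent.H20

open Cfsg Cfsg.Agent.H4

open scoped BigOperators ComplexConjugate

universe u

variable {G : Type u} [Group G] [Fintype G] {M : Ideal AlgInt}

theorem sum_mem_of_inv_pair (I : AddSubgroup ℂ) (S : Finset G) (F : G → ℂ)
    (hS : ∀ g ∈ S, g⁻¹ ∈ S) (hne : ∀ g ∈ S, g⁻¹ ≠ g) (hF : ∀ g ∈ S, F g + F g⁻¹ ∈ I) :
    ∑ g ∈ S, F g ∈ I := by
  have h : ∑ g ∈ S, (QuotientAddGroup.mk' I) (F g) = 0 := by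
    refine Finset.sum_involution (fun g _ => g⁻¹) ?_ ?_ ?_ ?_
    · intro g hg
      rw [← map_add]
      exact (QuotientAddGroup.eq_zero_iff _).mpr (hF g hg)
    · intro g hg _
      exact hne g hg
    · intro g hg
      exact hS g hg
    · intro g _
      exact inv_inv g
  rw [← map_sum] at h
  exact (QuotientAddGroup.eq_zero_iff _).mp h

theorem irrConj_irrConj (χ : IrrCharacter G) : irrConj (irrConj χ) = χ := by
  apply Subtype.ext
  funext g
  show conj (conj (χ.1 g)) = χ.1 g
  exact Complex.conj_conj _

/-- The idempotent of a block closed under complex conjugation has inverse-invariant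
coefficients. -/
theorem blockCoeff_inv_of_real (B : Set (IrrCharacter G)) (hB : ∀ χ ∈ B, irrConj χ ∈ B) (g : G) :
    blockCoeff B g⁻¹ = blockCoeff B g := by
  classical
  letI := fintypeIrr G
  rw [blockCoeff_eq, blockCoeff_eq]
  congr 1
  have hinv : Function.Involutive (irrConj : IrrCharacter G → IrrCharacter G) := irrConj_irrConj
  rw [← Equiv.sum_comp hinv.toPerm]
  apply Finset.sum_congr rfl
  intro χ _
  have hmem : irrConj χ ∈ B ↔ χ ∈ B := by
    constructor
    · intro h
      have := hB _ h
      rwa [irrConj_irrConj] at this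
    · exact hB χ
  show (if irrConj χ ∈ B then (irrConj χ : G → ℂ) 1 * conj ((irrConj χ : G → ℂ) g⁻¹) else 0) = _
  by_cases hχ : χ ∈ B
  · rw [if_pos (hmem.mpr hχ), if_pos hχ]
    show conj ((χ : G → ℂ) 1) * conj (conj ((χ : G → ℂ) g⁻¹)) = _
    rw [Complex.conj_conj, ← irr_conj χ g, (Cfsg.Agent.H81.irr_charDegree χ).1, Complex.conj_natCast]
  · rw [if_neg (fun h => hχ (hmem.mp h)), if_neg hχ]

open scoped Classical in
/-- Splitting a sum of a function vanishing on elements of even order. -/
theorem sum_eq_one_add_sum_odd (F : G → ℂ) (hF : ∀ g : G, 2 ∣ orderOf g → F g = 0) :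
    ∑ g : G, F g = F 1 + ∑ g ∈ Finset.univ.filter (fun g : G => g ≠ 1 ∧ ¬ 2 ∣ orderOf g), F g := by
  classical
  have h1 : ∑ g : G, F g = ∑ g ∈ Finset.univ.filter (fun g : G => ¬ 2 ∣ orderOf g), F g := by
    rw [Finset.sum_filter]
    apply Finset.sum_congr rfl
    intro g _
    by_cases h : 2 ∣ orderOf g
    · rw [if_neg (not_not.mpr h), hF g h]
    · rw [if_pos h]
  have h2 : Finset.univ.filter (fun g : G => ¬ 2 ∣ orderOf g) =
      insert 1 (Finset.univ.filter (fun g : G => g ≠ 1 ∧ ¬ 2 ∣ orderOf g)) := by
    ext g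
    simp only [Finset.mem_filter, Finset.mem_univ, true_and, Finset.mem_insert]
    constructor
    · intro h
      by_cases hg : g = 1
      · exact Or.inl hg
      · exact Or.inr ⟨hg, h⟩
    · rintro (rfl | ⟨_, h⟩)
      · rw [orderOf_one]; decide
      · exact h
  rw [h1, h2, Finset.sum_insert]
  simp

theorem inv_ne_self_of_odd {g : G} (hg : g ≠ 1) (hodd : ¬ 2 ∣ orderOf g) : g⁻¹ ≠ g := by
  intro h
  apply hodd
  have h2 : g ^ 2 = 1 := by
    rw [pow_two]
    nth_rewrite 1 [← h]
    exact inv_mul_cancel g
  have hd : orderOf g ∣ 2 := orderOf_dvd_of_pow_eq_one h2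
  rcases (Nat.dvd_prime Nat.prime_two).mp hd with h1 | h1
  · exact absurd (orderOf_eq_one_iff.mp h1) hg
  · rw [h1]

/-- A `2`-block closed under complex conjugation and containing a character of odd degree is the
principal block. -/
theorem trivChar_mem_of_real_of_odd (hM : IsPModular 2 M) (χ₀ : IrrCharacter G)
    (hreal : ∀ χ ∈ blockOf M (χ₀ : G → ℂ), irrConj χ ∈ blockOf M (χ₀ : G → ℂ))
    (χ : IrrCharacter G) (hχ : χ ∈ blockOf M (χ₀ : G → ℂ))
    (hodd : ¬ 2 ∣ charDegree (χ : G → ℂ)) :
    Cfsg.Agent.H80.trivChar G ∈ blockOf M (χ₀ : G → ℂ) := by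
  classical
  haveI : Fact (Nat.Prime 2) := ⟨Nat.prime_two⟩
  have hMp := isPrime_of_isPModular hM
  obtain ⟨B, hBdef⟩ : ∃ B : Set (IrrCharacter G), B = blockOf M (χ₀ : G → ℂ) := ⟨_, rfl⟩
  rw [← hBdef] at hreal hχ ⊢
  have h2J : MemLocalIdeal M (2 : ℂ) := by
    have := memLocalIdeal_natCast_self hM
    exact_mod_cast this
  have haR : ∀ g : G, MemLocalRing M (blockCoeff B g) := by
    intro g; rw [hBdef]; exact blockCoeff_memLocalRing hMp χ₀ g
  have hsing : ∀ g : G, 2 ∣ orderOf g → blockCoeff B g = 0 := by
    intro g hg; rw [hBdef]; exact blockCoeff_eq_zero_of_singular hM χ₀ g hg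
  have hinv := blockCoeff_inv_of_real B hreal
  -- the set of nontrivial elements of odd order
  obtain ⟨S, hSdef⟩ : ∃ S : Finset G,
      S = Finset.univ.filter (fun g : G => g ≠ 1 ∧ ¬ 2 ∣ orderOf g) := ⟨_, rfl⟩
  have hSinv : ∀ g ∈ S, g⁻¹ ∈ S := by
    intro g hg
    rw [hSdef, Finset.mem_filter] at hg ⊢
    refine ⟨Finset.mem_univ _, ?_, ?_⟩
    · intro h; exact hg.2.1 (inv_eq_one.mp h)
    · rw [orderOf_inv]; exact hg.2.2
  have hSne : ∀ g ∈ S, g⁻¹ ≠ g := by
    intro g hg
    rw [hSdef, Finset.mem_filter] at hg
    exact inv_ne_self_of_odd hg.2.1 hg.2.2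
  -- (I): the trivial character
  have hI : MemLocalIdeal M
      ((if Cfsg.Agent.H80.trivChar G ∈ B then (1 : ℂ) else 0) - blockCoeff B 1) := by
    have h1 := omega_blockElt B (Cfsg.Agent.H80.trivChar G)
    unfold omega at h1
    simp only [Cfsg.Agent.H80.trivChar_apply, mul_one, div_one, coeff_blockElt] at h1
    rw [← h1, sum_eq_one_add_sum_odd _ hsing, ← hSdef, add_sub_cancel_left]
    have := sum_mem_of_inv_pair (localIdeal M hMp) S (fun g => blockCoeff B g) hSinv hSne
      (fun g _ => by
        rw [mem_localIdeal]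
        show MemLocalIdeal M (blockCoeff B g + blockCoeff B g⁻¹)
        rw [hinv, ← two_mul]
        exact memLocalIdeal_mul_right hMp h2J (haR g))
    exact (mem_localIdeal hMp).mp this
  -- (II): the character of odd degree
  have hχ1 := (Cfsg.Agent.H81.irr_charDegree χ).1
  have hχpos := (Cfsg.Agent.H81.irr_charDegree χ).2
  have hχ1R : MemLocalRing M (((χ : G → ℂ) 1)⁻¹) := by
    rw [hχ1]; exact memLocalRing_inv_natCast hM hodd
  have hχR : ∀ g : G, MemLocalRing M ((χ : G → ℂ) g) := fun g =>
    memLocalRing_algInt hMp ⟨_, Cfsg.Agent.H81.irr_isIntegral χ g⟩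
  obtain ⟨F, hFdef⟩ : ∃ F : G → ℂ,
      F = fun g => blockCoeff B g * (χ : G → ℂ) g / (χ : G → ℂ) 1 := ⟨_, rfl⟩
  have hFR : ∀ g : G, MemLocalRing M (F g) := by
    intro g
    rw [hFdef]
    show MemLocalRing M (blockCoeff B g * (χ : G → ℂ) g / (χ : G → ℂ) 1)
    rw [div_eq_mul_inv]
    exact memLocalRing_mul hMp (memLocalRing_mul hMp (haR g) (hχR g)) hχ1R
  have hFsing : ∀ g : G, 2 ∣ orderOf g → F g = 0 := by
    intro g hg
    rw [hFdef]
    show blockCoeff B g * (χ : G → ℂ) g / (χ : G → ℂ) 1 = 0
    rw [hsing g hg, zero_mul, zero_div]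
  have hFconj : ∀ g x : G, F (x * g * x⁻¹) = F g := by
    intro g x
    rw [hFdef]
    show blockCoeff B (x * g * x⁻¹) * (χ : G → ℂ) (x * g * x⁻¹) / (χ : G → ℂ) 1 = _
    rw [blockCoeff_conj_invariant, irr_isClassFunction χ]
  have hII : MemLocalIdeal M (1 - blockCoeff B 1) := by
    have h1 := omega_blockElt B χ
    rw [if_pos hχ] at h1
    unfold omega at h1
    rw [Finset.sum_div] at h1
    simp only [coeff_blockElt] at h1
    have h1' : ∑ g : G, F g = 1 := by rw [hFdef]; exact h1
    have hF1 : F 1 = blockCoeff B 1 := by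
      rw [hFdef]
      show blockCoeff B 1 * (χ : G → ℂ) 1 / (χ : G → ℂ) 1 = _
      rw [mul_div_assoc, div_self (irr_one_ne_zero χ), mul_one]
    rw [← h1', sum_eq_one_add_sum_odd _ hFsing, ← hSdef, hF1, add_sub_cancel_left,
      ← Finset.sum_filter_add_sum_filter_not S
        (fun g => 2 ∣ (Subgroup.centralizer ({g} : Set G)).index)]
    apply memLocalIdeal_add hMp
    · -- classes of even size
      have hcl : ∀ h ∈ S.filter (fun g => 2 ∣ (Subgroup.centralizer ({g} : Set G)).index),
          ∀ x : G, x * h * x⁻¹ ∈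
            S.filter (fun g => 2 ∣ (Subgroup.centralizer ({g} : Set G)).index) := by
        intro h hh x
        rw [Finset.mem_filter, hSdef, Finset.mem_filter] at hh ⊢
        refine ⟨⟨Finset.mem_univ _, ?_, ?_⟩, ?_⟩
        · intro h1
          apply hh.1.2.1
          have : h = x⁻¹ * (x * h * x⁻¹) * x := by group
          rw [this, h1]; group
        · have e1 : orderOf (x * h * x⁻¹) = orderOf h :=
            orderOf_injective (MulAut.conj x).toMonoidHom (MulAut.conj x).injective h
          rw [e1]; exact hh.1.2.2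
        · rw [Cfsg.Agent.H80.index_centralizer_conj]; exact hh.2
      have := sum_mem_of_conj_closed (localIdeal M hMp)
        (fun h => if 2 ∣ (Subgroup.centralizer ({h} : Set G)).index then F h else 0)
        (fun h x => by
          show (if 2 ∣ (Subgroup.centralizer ({x * h * x⁻¹} : Set G)).index then F (x * h * x⁻¹)
            else 0) = _
          rw [Cfsg.Agent.H80.index_centralizer_conj, hFconj])
        (fun h => by
          rw [mem_localIdeal]
          show MemLocalIdeal M (((Subgroup.centralizer ({h} : Set G)).index : ℂ) *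
            (if 2 ∣ (Subgroup.centralizer ({h} : Set G)).index then F h else 0))
          split_ifs with hd
          · exact memLocalIdeal_mul_right hMp ((memLocalIdeal_natCast_iff hM _).mpr hd) (hFR h)
          · rw [mul_zero]; exact memLocalIdeal_zero hMp)
        _ hcl
      rw [mem_localIdeal] at this
      convert this using 1
      apply Finset.sum_congr rfl
      intro h hh
      rw [Finset.mem_filter] at hh
      rw [if_pos hh.2]
    · -- classes of odd size: pair `g` with `g⁻¹`
      have := sum_mem_of_inv_pair (localIdeal M hMp)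
        (S.filter (fun g => ¬ 2 ∣ (Subgroup.centralizer ({g} : Set G)).index)) F
        (fun g hg => by
          rw [Finset.mem_filter] at hg ⊢
          refine ⟨hSinv g hg.1, ?_⟩
          rw [centralizer_singleton_inv_eq]; exact hg.2)
        (fun g hg => hSne g (Finset.mem_filter.mp hg).1)
        (fun g hg => by
          rw [Finset.mem_filter] at hg
          rw [mem_localIdeal, hFdef]
          show MemLocalIdeal M (blockCoeff B g * (χ : G → ℂ) g / (χ : G → ℂ) 1 +
            blockCoeff B g⁻¹ * (χ : G → ℂ) g⁻¹ / (χ : G → ℂ) 1)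
          rw [hinv]
          -- `χ g - χ g⁻¹` lies in the local ideal
          have hsame : SameBlock M (χ : G → ℂ) (irrConj χ : G → ℂ) := by
            have a1 : SameBlock M (χ₀ : G → ℂ) (χ : G → ℂ) := by rw [hBdef] at hχ; exact hχ
            have a2 : SameBlock M (χ₀ : G → ℂ) (irrConj χ : G → ℂ) := by
              have := hreal χ hχ
              rw [hBdef] at this
              exact this
            exact Cfsg.Agent.H80.sameBlock_trans hMp (Cfsg.Agent.H80.sameBlock_symm a1) a2
          have hd := hsame g
          have hidx : MemLocalRing M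
              (((Subgroup.centralizer ({g} : Set G)).index : ℂ)⁻¹) :=
            memLocalRing_inv_natCast hM hg.2
          have hidx0 : ((Subgroup.centralizer ({g} : Set G)).index : ℂ) ≠ 0 := by
            have : (Subgroup.centralizer ({g} : Set G)).index ≠ 0 :=
              Subgroup.index_ne_zero_of_finite
            exact_mod_cast this
          have hdiff : MemLocalIdeal M ((χ : G → ℂ) g - (χ : G → ℂ) g⁻¹) := by
            have h3 := memLocalIdeal_mul_left hMp
              (memLocalRing_mul hMp hidx (memLocalRing_natCast hMp (charDegree (χ : G → ℂ)))) hd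
            convert h3 using 1
            unfold centralChar
            have e1 : (irrConj χ : G → ℂ) g = (χ : G → ℂ) g⁻¹ := by
              show conj ((χ : G → ℂ) g) = _
              exact irr_conj χ g
            have e2 : (irrConj χ : G → ℂ) 1 = (χ : G → ℂ) 1 := by
              show conj ((χ : G → ℂ) 1) = _
              rw [hχ1, Complex.conj_natCast]
            rw [e1, e2, hχ1]
            have hχC : ((charDegree (χ : G → ℂ) : ℕ) : ℂ) ≠ 0 := by exact_mod_cast hχpos.ne'
            field_simp
          have hsum : MemLocalIdeal M ((χ : G → ℂ) g + (χ : G → ℂ) g⁻¹) := by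
            have := memLocalIdeal_sub hMp (memLocalIdeal_mul_right hMp h2J (hχR g)) hdiff
            convert this using 1
            ring
          have hfin := memLocalIdeal_mul_left hMp (memLocalRing_mul hMp (haR g) hχ1R) hsum
          convert hfin using 1
          ring)
      exact (mem_localIdeal hMp).mp this
  -- conclusion
  by_contra hnot
  rw [if_neg hnot, zero_sub] at hI
  have := memLocalIdeal_sub hMp hII hI
  have h1 : MemLocalIdeal M 1 := by
    convert this using 1
    ring
  exact not_memLocalIdeal_one hMp h1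

end Cfsg.Agent.H20
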