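import Mathlib
import Cfsg.Agent.H51.RsDefs

universe u v w

namespace Cfsg.Agent.H20.Rs

open Cfsg.Agent.H96.Ro Cfsg.Agent.H51.Rs


theorem step6 (hP : StPairs.{u, w}) (h1 : StStep1.{u, v, w}) (h3 : StStep3.{u, v, w})
    (h5 : StStep5.{u, v, w}) : StStep6.{u, v, w} := by
  intro K _ _ _ m hm hK G _ Γ _ E t t'
  have hn : (3 ^ (m + 1) : ℕ) ≠ 0 := by positivity
  have comm1 := h1 K m hm hK G Γ E
  obtain ⟨hζadd, -, -⟩ := h3 K m hm hK G Γ E
  obtain ⟨h5a, h5b⟩ := h5 K m hm hK G Γ E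
  obtain ⟨hPV, -⟩ := hP K m hm hK
  have hζU1 : ∀ v, E.InU1 (E.ζ v) := fun v => ⟨0, v, E.σ_ζ hn v⟩
  have hbU1 : ∀ t t', E.InU1 (E.b t t') := E.inU1_b
  have hζ0 : E.ζ 0 = 1 := by
    have h := hζadd 0 0
    rw [add_zero] at h
    exact (mul_eq_left (a := E.ζ 0)).1 h.symm
  have h3K : (3 : K) = 0 := by
    have h := CharP.cast_eq_zero K 3
    exact_mod_cast h
  have hζ3 : ∀ v, E.ζ v ^ 3 = 1 := by
    intro v
    rw [pow_succ, pow_two, ← hζadd, ← hζadd]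
    have e : v + v + v = 0 := by
      have e' : v + v + v = 3 * v := by ring
      rw [e', h3K, zero_mul]
    rw [e, hζ0]
  have hb3 : ∀ t t', E.σ (E.b t t' ^ 3) = 1 := by
    intro t t'
    obtain ⟨a, b', hab⟩ := hbU1 t t'
    rw [map_pow, hab, pow_succ, pow_two, R_U1_mul, R_U1_mul]
    have e1 : a + a + a = 0 := by
      have e' : a + a + a = 3 * a := by ring
      rw [e', h3K, zero_mul]
    have e2 : b' + b' + b' = 0 := by
      have e' : b' + b' + b' = 3 * b' := by ring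
      rw [e', h3K, zero_mul]
    rw [e1, e2, R_one]
  have hcube : ∀ a b c : Γ, E.InU1 a → E.InU1 b → E.InU1 c →
      (a * b * c) ^ 3 = a ^ 3 * b ^ 3 * c ^ 3 := by
    intro a b c ha hb hc
    have hab : Commute a b := comm1 a b ha hb
    have hac : Commute a c := comm1 a c ha hc
    have hbc : Commute b c := comm1 b c hb hc
    rw [(hac.mul_left hbc).mul_pow, hab.mul_pow]
  refine hPV Γ (fun x y => E.b x y ^ 3) ?_ ?_ ?_ ?_ t t'
  · intro x y x' y'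
    exact E.central _ (hb3 x' y') _
  · intro x x' y
    obtain ⟨v, hv⟩ := h5a x x' y
    show E.b (x + x') y ^ 3 = E.b x y ^ 3 * E.b x' y ^ 3
    rw [hv, hcube _ _ _ (hbU1 _ _) (hbU1 _ _) (hζU1 v), hζ3, mul_one]
  · intro x y y'
    obtain ⟨v, hv⟩ := h5b x y y'
    show E.b x (y + y') ^ 3 = E.b x y ^ 3 * E.b x y' ^ 3
    rw [hv, hcube _ _ _ (hbU1 _ _) (hbU1 _ _) (hζU1 v), hζ3, mul_one]
  · intro κ hκ x y
    show E.b (κ ^ 1 * x) (κ ^ 1 * y) ^ 3 = E.b x y ^ 3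
    rw [pow_one]
    have hg := E.conj_b (E.σ_hh (Units.mk0 κ hκ)) x y
    rw [Units.val_mk0] at hg
    rw [← hg, conj_pow]
    have hc := E.central _ (hb3 x y) (E.hh (Units.mk0 κ hκ))
    rw [hc, mul_inv_cancel_right]

end Cfsg.Agent.H20.Rs

example (hP : Cfsg.Agent.H51.Rs.StPairs.{u, w}) (h1 : Cfsg.Agent.H51.Rs.StStep1.{u, v, w})
    (h3 : Cfsg.Agent.H51.Rs.StStep3.{u, v, w}) (h5 : Cfsg.Agent.H51.Rs.StStep5.{u, v, w}) :
    Cfsg.Agent.H51.Rs.StStep6.{u, v, w} := Cfsg.Agent.H20.Rs.step6 hP h1 h3 h5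
#print axioms Cfsg.Agent.H20.Rs.step6
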