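import Mathlib
import Cfsg.Agent.H74.W2PDefs

/-!
helper20: S0720-BR2 for helper74 — `|N(P) : C(P)|` divides `|Λ|`.
-/

set_option autoImplicit false

namespace Cfsg.Agent.H20.W2P

open Cfsg.Agent.H74.W2P Equiv MulAction

variable {Ω : Type*} [Fintype Ω] [DecidableEq Ω]

omit [Fintype Ω] [DecidableEq Ω] in
theorem vh_pow {x : Perm Ω} {p : ℕ} {h : ZMod p} {f : Ω → ℂ} (hf : f ∈ Vh x p h) (k : ℕ)
    (ω : Ω) : f ((x ^ k) ω) = zeta p ^ (h.val * k) * f ω := by
  have hf' : ∀ ω, f (x ω) = zeta p ^ h.val * f ω := hf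
  induction k with
  | zero => simp
  | succ k ih =>
    rw [pow_succ', Perm.mul_apply, hf', ih, ← mul_assoc, ← pow_add]
    congr 2
    ring

/-- S0720-BR2. -/
theorem relIndex_dvd_card {G : Subgroup (Perm Ω)} {p : ℕ} {x : Perm Ω} (hyp : Hyp G p x) {a₀ : Ω}
    {W : Submodule ℂ (Ω → ℂ)} {Λ : Finset (ZMod p)} (hW : WData G p x a₀ W Λ)
    (hbot : ∀ h : ZMod p, h ∉ Λ → W ⊓ Vh x p h = ⊥) :
    (Subgroup.centralizer (Subgroup.zpowers (⟨x, hyp.hxG⟩ : G) : Set G)).relIndex
      (Subgroup.normalizer (Subgroup.zpowers (⟨x, hyp.hxG⟩ : G) : Set G)) ∣ Λ.card := by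
  classical
  have hp := hyp.hp
  have : Fact p.Prime := ⟨hp⟩
  have : NeZero p := ⟨hp.ne_zero⟩
  set x' : G := ⟨x, hyp.hxG⟩ with hx'
  set N : Subgroup G := Subgroup.normalizer (Subgroup.zpowers x' : Set G) with hN
  set C : Subgroup G := Subgroup.centralizer (Subgroup.zpowers x' : Set G) with hC
  have hox' : orderOf x' = p := by
    rw [← Subgroup.orderOf_coe]; exact hyp.hxord
  have n1 : ∀ g : N, ∃ k : ℕ, (g : G) * x' * (g : G)⁻¹ = x' ^ k := by
    intro g
    have h1 : (g : G) * x' * (g : G)⁻¹ ∈ Subgroup.zpowers x' :=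
      (Subgroup.mem_set_normalizer_iff.1 g.2 x').1 (Subgroup.mem_zpowers x')
    have h2 : (g : G) * x' * (g : G)⁻¹ ∈ Submonoid.powers x' := mem_powers_iff_mem_zpowers.2 h1
    obtain ⟨k, hk⟩ := (Submonoid.mem_powers_iff _ _).1 h2
    exact ⟨k, hk.symm⟩
  choose κ hκ using n1
  have hchar : ∀ (g : N) (k : ℕ), (g : G) * x' * (g : G)⁻¹ = x' ^ k →
      (k : ZMod p) = (κ g : ZMod p) := by
    intro g k hk
    rw [hκ g] at hk
    have h1 := pow_eq_pow_iff_modEq.1 hk
    rw [hox'] at h1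
    exact ((ZMod.natCast_eq_natCast_iff _ _ _).2 h1).symm
  let a₂ : N →* ZMod p :=
    { toFun := fun g => (κ g : ZMod p)
      map_one' := by
        have h1 := hchar 1 1 (by simp)
        simpa using h1.symm
      map_mul' := fun g g' => by
        have h1 : ((g * g' : N) : G) * x' * ((g * g' : N) : G)⁻¹ = x' ^ (κ g * κ g') := by
          have e1 : ((g * g' : N) : G) * x' * ((g * g' : N) : G)⁻¹
              = (g : G) * ((g' : G) * x' * (g' : G)⁻¹) * (g : G)⁻¹ := by
            rw [Subgroup.coe_mul]; group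
          rw [e1, hκ g', ← conj_pow, hκ g, ← pow_mul]
        show (κ (g * g') : ZMod p) = (κ g : ZMod p) * (κ g' : ZMod p)
        rw [← hchar (g * g') _ h1, Nat.cast_mul] }
  let aU : N →* (ZMod p)ˣ := a₂.toHomUnits
  have haU : ∀ g : N, ((aU g : (ZMod p)ˣ) : ZMod p) = (κ g : ZMod p) := fun g => rfl
  have hker : aU.ker = C.subgroupOf N := by
    ext g
    rw [MonoidHom.mem_ker, Subgroup.mem_subgroupOf, hC, Subgroup.mem_centralizer_iff]
    constructor
    · intro h1
      have h2 : (κ g : ZMod p) = ((1 : ℕ) : ZMod p) := by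
        rw [← haU, h1]; simp
      have h3 : κ g ≡ 1 [MOD p] := (ZMod.natCast_eq_natCast_iff _ _ _).1 h2
      have h4 : (g : G) * x' * (g : G)⁻¹ = x' := by
        rw [hκ g]
        have h5 : x' ^ κ g = x' ^ 1 := pow_eq_pow_iff_modEq.2 (by rw [hox']; exact h3)
        rw [h5, pow_one]
      have h5 : (g : G) * x' = x' * (g : G) := by
        calc (g : G) * x' = ((g : G) * x' * (g : G)⁻¹) * (g : G) := by group
          _ = x' * (g : G) := by rw [h4]
      intro y hy
      obtain ⟨k, rfl⟩ := Subgroup.mem_zpowers_iff.1 hy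
      exact ((Commute.zpow_right (show Commute (g : G) x' from h5) k).eq).symm
    · intro h1
      have h2 : x' * (g : G) = (g : G) * x' := h1 x' (Subgroup.mem_zpowers x')
      have h3 : (g : G) * x' * (g : G)⁻¹ = x' ^ 1 := by
        rw [← h2, pow_one]; group
      have h4 := hchar g 1 h3
      apply Units.ext
      rw [haU, ← h4]; simp
  have hrel : C.relIndex N = Nat.card aU.range := by
    rw [Subgroup.relIndex, ← hker, Subgroup.index_ker]
  have hζ : IsPrimitiveRoot (zeta p) p := Complex.isPrimitiveRoot_exp p hp.ne_zero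
  have hstab : ∀ (g : N) (h : ZMod p), h ∈ Λ → h * (κ g : ZMod p) ∈ Λ := by
    intro g h hh
    by_contra hnot
    have hb := hbot _ hnot
    have hfr := hW.eig h hh
    have hnt : Nontrivial ↥(W ⊓ Vh x p h) :=
      Module.nontrivial_of_finrank_pos (R := ℂ) (by rw [hfr]; exact Nat.one_pos)
    obtain ⟨⟨f, hf⟩, hf0⟩ := exists_ne (0 : ↥(W ⊓ Vh x p h))
    have hfne : f ≠ 0 := fun h0 => hf0 (Subtype.ext h0)
    have hfW : f ∈ W := hf.1
    have hfV : f ∈ Vh x p h := hf.2
    set gp : Perm Ω := ((g : G) : Perm Ω) with hgp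
    have hgx : gp * x * gp⁻¹ = x ^ κ g := by
      have h1 := congrArg (Subtype.val) (hκ g)
      simpa using h1
    let f' : Ω → ℂ := fun ω => f (gp ω)
    have hf'W : f' ∈ W := hW.inv gp (g : G).2 f hfW
    have hf'V : f' ∈ Vh x p (h * (κ g : ZMod p)) := by
      intro ω
      show f (gp (x ω)) = zeta p ^ (h * (κ g : ZMod p)).val * f (gp ω)
      have e1 : gp (x ω) = (x ^ κ g) (gp ω) := by
        rw [← hgx]; simp
      rw [e1, vh_pow hfV]
      congr 1
      have hmod : h.val * κ g ≡ (h * (κ g : ZMod p)).val [MOD p] := by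
        apply (ZMod.natCast_eq_natCast_iff _ _ _).1
        rw [Nat.cast_mul, ZMod.natCast_zmod_val, ZMod.natCast_zmod_val]
      rw [← pow_mod_orderOf (zeta p) (h.val * κ g),
        ← pow_mod_orderOf (zeta p) ((h * (κ g : ZMod p)).val), ← hζ.eq_orderOf]
      congr 1
    have hf'ne : f' ≠ 0 := by
      intro h0
      apply hfne
      funext ω
      have h1 := congrFun h0 (gp⁻¹ ω)
      simpa [f'] using h1
    have h1 : f' ∈ W ⊓ Vh x p (h * (κ g : ZMod p)) := ⟨hf'W, hf'V⟩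
    rw [hb, Submodule.mem_bot] at h1
    exact hf'ne h1
  have h0Λ : ∀ h ∈ Λ, h ≠ 0 := fun h hh h0 => hW.zero_not_mem (h0 ▸ hh)
  have hA : ∀ (u : aU.range) (h : {h : ZMod p // h ∈ Λ}),
      h.1 * ((u : (ZMod p)ˣ) : ZMod p) ∈ Λ := by
    rintro ⟨u, g, rfl⟩ ⟨h, hh⟩
    exact hstab g h hh
  let _ : MulAction aU.range {h : ZMod p // h ∈ Λ} :=
    { smul := fun u h => ⟨h.1 * ((u : (ZMod p)ˣ) : ZMod p), hA u h⟩
      one_smul := fun h => Subtype.ext (by
        show h.1 * (((1 : aU.range) : (ZMod p)ˣ) : ZMod p) = h.1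
        simp)
      mul_smul := fun u v h => Subtype.ext (by
        show h.1 * (((u * v : aU.range) : (ZMod p)ˣ) : ZMod p)
          = h.1 * ((v : (ZMod p)ˣ) : ZMod p) * ((u : (ZMod p)ˣ) : ZMod p)
        rw [Subgroup.coe_mul, Units.val_mul]; ring) }
  have hsmul : ∀ (u : aU.range) (b : {h : ZMod p // h ∈ Λ}),
      ((u • b : {h : ZMod p // h ∈ Λ}) : ZMod p) = b.1 * ((u : (ZMod p)ˣ) : ZMod p) :=
    fun u b => rfl
  have hfree : ∀ b : {h : ZMod p // h ∈ Λ}, MulAction.stabilizer aU.range b = ⊥ := by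
    intro b
    rw [eq_bot_iff]
    intro u hu
    rw [MulAction.mem_stabilizer_iff] at hu
    have h1 : b.1 * ((u : (ZMod p)ˣ) : ZMod p) = b.1 := by
      rw [← hsmul, hu]
    have h2 : ((u : (ZMod p)ˣ) : ZMod p) = 1 := by
      have hb0 := h0Λ b.1 b.2
      have h3 : b.1 * ((u : (ZMod p)ˣ) : ZMod p) = b.1 * 1 := by rw [h1, mul_one]
      exact mul_left_cancel₀ hb0 h3
    rw [Subgroup.mem_bot]
    apply Subtype.ext
    apply Units.ext
    exact h2
  have e := MulAction.selfEquivOrbitsQuotientProd hfree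
  have hcard : Nat.card {h : ZMod p // h ∈ Λ}
      = Nat.card (Quotient (MulAction.orbitRel aU.range {h : ZMod p // h ∈ Λ}))
        * Nat.card aU.range := by
    rw [Nat.card_congr e, Nat.card_prod]
  have hΛ : Nat.card {h : ZMod p // h ∈ Λ} = Λ.card := by
    rw [Nat.card_eq_fintype_card, Fintype.card_coe]
  show C.relIndex N ∣ Λ.card
  rw [hrel, ← hΛ, hcard]
  exact dvd_mul_left _ _

end Cfsg.Agent.H20.W2P
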